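import Cfsg.Agent.H4.Coh1

/-!
# Coherence, II
-/

set_option autoImplicit false
open Cfsg ComplexConjugate

namespace CfsgH4

section A

variable {L : Type*} [Group L] [Fintype L] {G : Type*} [Group G] [Fintype G]

/-- an isometry with prescribed values -/
theorem exists_iso_of_values {S : Set (L → ℂ)} {F : (L → ℂ) → (G → ℂ)}
    (orth : ∀ χ ∈ S, ∀ φ ∈ S, χ ≠ φ → classInner χ φ = 0)
    (ne0 : ∀ χ ∈ S, χ ≠ 0) (hF : ∀ φ ∈ S, IsGeneralizedCharacter G (F φ))
    (hFi : ∀ φ ∈ S, ∀ ψ ∈ S, classInner (F φ) (F ψ) = classInner φ ψ) :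
    ∃ τ₂ : (L → ℂ) → (G → ℂ), IsLinearIsometryOn (zspan S) τ₂ ∧ (∀ φ ∈ S, τ₂ φ = F φ) ∧
      (∀ a b, τ₂ (a + b) = τ₂ a + τ₂ b) ∧ (∀ (c : ℂ) a, τ₂ (c • a) = c • τ₂ a) := by
  have hfin := finite_of_orth orth ne0
  set T := hfin.toFinset with hT
  have hTS : (↑T : Set (L → ℂ)) = S := hfin.coe_toFinset
  have hmem : ∀ φ, φ ∈ T ↔ φ ∈ S := fun φ => hfin.mem_toFinset
  have orth' : ∀ χ ∈ T, ∀ φ ∈ T, χ ≠ φ → classInner χ φ = 0 :=
    fun χ hχ φ hφ => orth χ ((hmem χ).1 hχ) φ ((hmem φ).1 hφ)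
  have ne0' : ∀ χ ∈ T, χ ≠ 0 := fun χ hχ => ne0 χ ((hmem χ).1 hχ)
  refine ⟨cext T F, ?_, ?_, cext_add, cext_smul⟩
  · have := cext_iso (F := F) orth' ne0' (fun φ hφ => hF φ ((hmem φ).1 hφ))
      (fun φ hφ ψ hψ => hFi φ ((hmem φ).1 hφ) ψ ((hmem ψ).1 hψ))
    rwa [hTS] at this
  · intro φ hφ
    exact cext_self orth' ne0' ((hmem φ).2 hφ)

theorem iso_zero' {S : Set (L → ℂ)} {τ : (L → ℂ) → (G → ℂ)}
    (hτ : IsLinearIsometryOn (zspan S) τ) : τ 0 = 0 := by
  have := hτ.2.1 0 (Submodule.zero_mem _) 0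
  simpa using this

theorem iso_neg' {S : Set (L → ℂ)} {τ : (L → ℂ) → (G → ℂ)}
    (hτ : IsLinearIsometryOn (zspan S) τ) {a : L → ℂ} (ha : a ∈ zspan S) : τ (-a) = -τ a := by
  have := hτ.2.1 a ha (-1)
  rwa [neg_one_zsmul, neg_one_zsmul] at this

theorem zspan_neg {X : Type*} {S : Set (X → ℂ)} {a : X → ℂ} (ha : a ∈ zspan S) :
    -a ∈ zspan S := Submodule.neg_mem _ ha

theorem iso_sub' {S : Set (L → ℂ)} {τ : (L → ℂ) → (G → ℂ)}
    (hτ : IsLinearIsometryOn (zspan S) τ) {a b : L → ℂ} (ha : a ∈ zspan S)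
    (hb : b ∈ zspan S) : τ (a - b) = τ a - τ b := by
  rw [sub_eq_add_neg, hτ.1 a ha (-b) (zspan_neg hb), iso_neg' hτ hb, sub_eq_add_neg]

/-- agreement on generators implies agreement on the span -/
theorem iso_ext_on {S : Set (L → ℂ)} {τ₁ τ₂ : (L → ℂ) → (G → ℂ)}
    (h1 : IsLinearIsometryOn (zspan S) τ₁) (h2 : IsLinearIsometryOn (zspan S) τ₂)
    (h : ∀ φ ∈ S, τ₁ φ = τ₂ φ) : ∀ α ∈ zspan S, τ₁ α = τ₂ α := by
  intro α hα
  have : ∀ x ∈ Submodule.span ℤ S, τ₁ x = τ₂ x := by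
    intro x hx
    induction hx using Submodule.span_induction with
    | mem x hx => exact h x hx
    | zero => rw [iso_zero' h1, iso_zero' h2]
    | add x y hx hy ihx ihy => rw [h1.1 x hx y hy, h2.1 x hx y hy, ihx, ihy]
    | smul n x hx ihx => rw [h1.2.1 x hx n, h2.2.1 x hx n, ihx]
  exact this α hα

theorem self_re_nonneg (f : G → ℂ) : 0 ≤ (classInner f f).re := by
  rw [classInner_self_eq, Complex.ofReal_re]
  have : (0 : ℝ) ≤ (Nat.card G : ℝ)⁻¹ := by positivity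
  exact mul_nonneg this (Finset.sum_nonneg fun g _ => by positivity)

theorem self_eq_re (f : G → ℂ) : classInner f f = ((classInner f f).re : ℂ) := by
  rw [classInner_self_eq, Complex.ofReal_re]

theorem eq_zero_of_re {f : G → ℂ} (h : (classInner f f).re = 0) : f = 0 := by
  apply classInner_self_eq_zero
  rw [self_eq_re, h, Complex.ofReal_zero]

theorem self_re_pos {f : G → ℂ} (h : f ≠ 0) : 0 < (classInner f f).re :=
  lt_of_le_of_ne (self_re_nonneg f) (fun h' => h (eq_zero_of_re h'.symm))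

/-- Bessel's identity -/
theorem bessel {ι : Type*} (T : Finset ι) (e : ι → G → ℂ)
    (orth : ∀ i ∈ T, ∀ j ∈ T, i ≠ j → classInner (e i) (e j) = 0) (ne0 : ∀ i ∈ T, e i ≠ 0)
    (f : G → ℂ) :
    (∀ i ∈ T, classInner (f - ∑ j ∈ T, (classInner f (e j) / classInner (e j) (e j)) • e j) (e i) = 0) ∧
    (classInner f f).re = ∑ i ∈ T, ‖classInner f (e i)‖ ^ 2 / (classInner (e i) (e i)).re +
      (classInner (f - ∑ j ∈ T, (classInner f (e j) / classInner (e j) (e j)) • e j)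
        (f - ∑ j ∈ T, (classInner f (e j) / classInner (e j) (e j)) • e j)).re := by
  classical
  set P := ∑ j ∈ T, (classInner f (e j) / classInner (e j) (e j)) • e j with hP
  have hne : ∀ i ∈ T, classInner (e i) (e i) ≠ 0 := fun i hi h => ne0 i hi (classInner_self_eq_zero h)
  have h1 : ∀ i ∈ T, classInner P (e i) = classInner f (e i) := by
    intro i hi
    rw [hP, classInner_sum_left, Finset.sum_eq_single i]
    · rw [classInner_smul_left, div_mul_cancel₀ _ (hne i hi)]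
    · intro j hj hji
      rw [classInner_smul_left, orth j hj i hi hji, mul_zero]
    · intro h; exact absurd hi h
  have h2 : ∀ i ∈ T, classInner (f - P) (e i) = 0 := by
    intro i hi; rw [classInner_sub_left, h1 i hi, sub_self]
  refine ⟨h2, ?_⟩
  have h3 : classInner (f - P) P = 0 := by
    rw [hP, classInner_sum_right]
    apply Finset.sum_eq_zero
    intro j hj
    rw [← hP, classInner_smul_right, h2 j hj, mul_zero]
  have h4 : classInner P (f - P) = 0 := by rw [← classInner_conj_symm, h3, map_zero]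
  have h5 : classInner P P = ∑ i ∈ T, ((‖classInner f (e i)‖ ^ 2 / (classInner (e i) (e i)).re : ℝ) : ℂ) := by
    conv_lhs => rw [hP]
    rw [classInner_sum_left]
    refine Finset.sum_congr rfl fun i hi => ?_
    have h7 : classInner (e i) P = conj (classInner f (e i)) := by
      rw [← classInner_conj_symm P (e i), h1 i hi]
    have h6 := Complex.mul_conj (classInner f (e i))
    rw [classInner_smul_left, h7, Complex.ofReal_div, ← self_eq_re, div_mul_eq_mul_div, h6,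
      Complex.normSq_eq_norm_sq]
  have h6 : classInner f f = classInner P P + classInner (f - P) (f - P) := by
    have : f = P + (f - P) := by abel
    conv_lhs => rw [this]
    rw [classInner_add_left, classInner_add_right, classInner_add_right, h3, h4]; ring
  rw [h6, h5, Complex.add_re, ← Complex.ofReal_sum, Complex.ofReal_re]

/-- integrality bound -/
theorem int_proj {R : Finset (G → ℂ)} {f : G → ℂ} (hf : IsGeneralizedCharacter G f)
    (hR : ∀ α ∈ R, IsGeneralizedCharacter G α) {N : ℝ} (hN : classInner f (∑ α ∈ R, α) = N) :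
    N ≤ ∑ α ∈ R, ‖classInner f α‖ ^ 2 ∧ (∑ α ∈ R, ‖classInner f α‖ ^ 2 ≤ N →
      ∑ α ∈ R, ‖classInner f α‖ ^ 2 = N ∧ ∀ α ∈ R, classInner f α = 0 ∨ classInner f α = 1) := by
  classical
  have hex : ∀ α ∈ R, ∃ n : ℤ, classInner f α = n := fun α hα => IsGen.inner_int hf (hR α hα)
  choose! n hn using hex
  have h1 : N = ∑ α ∈ R, (n α : ℝ) := by
    rw [classInner_sum_right] at hN
    rw [Finset.sum_congr rfl hn] at hN
    exact_mod_cast hN.symm
  have h2 : ∑ α ∈ R, ‖classInner f α‖ ^ 2 = ∑ α ∈ R, ((n α : ℝ)) ^ 2 := by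
    refine Finset.sum_congr rfl fun α hα => ?_
    rw [hn α hα, Complex.norm_intCast, sq_abs]
  have h3 : ∀ α ∈ R, (n α : ℝ) ≤ (n α : ℝ) ^ 2 := by
    intro α _
    have : n α ≤ n α ^ 2 := by
      rcases le_or_gt (n α) 0 with h | h
      · nlinarith [sq_nonneg (n α)]
      · nlinarith
    exact_mod_cast this
  refine ⟨by rw [h1, h2]; exact Finset.sum_le_sum h3, fun h4 => ?_⟩
  rw [h2] at h4 ⊢
  have h5 : ∑ α ∈ R, (n α : ℝ) ^ 2 = N := le_antisymm h4 (by rw [h1]; exact Finset.sum_le_sum h3)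
  refine ⟨h5, fun α hα => ?_⟩
  rw [h1] at h5
  have h6 := (Finset.sum_eq_sum_iff_of_le h3).1 h5.symm α hα
  have h7 : n α = n α ^ 2 := by exact_mod_cast h6
  have h8 : n α * (n α - 1) = 0 := by linear_combination -h7
  rcases mul_eq_zero.1 h8 with h9 | h9
  · left; rw [hn α hα, h9]; simp
  · right; rw [hn α hα, show n α = 1 from by linarith]; simp

end A

section CS

variable {L : Type*} [Group L] [Fintype L] {G : Type*} [Group G] [Fintype G]
variable {S : Set (L → ℂ)} {τ : (L → ℂ) → (G → ℂ)} {R : (L → ℂ) → Finset (G → ℂ)}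

theorem conjFun_inner (a b : L → ℂ) :
    classInner (Cfsg.conjFun a) (Cfsg.conjFun b) = conj (classInner a b) :=
  classInner_conj_conj a b

theorem conjFun_conjFun {X : Type*} (a : X → ℂ) : Cfsg.conjFun (Cfsg.conjFun a) = a := by
  ext x; simp [Cfsg.conjFun]

theorem CS.ne0 (hS : IsCoherenceSystem S τ R) {χ : L → ℂ} (hχ : χ ∈ S) : χ ≠ 0 := by
  intro h
  apply hS.conj_ne χ hχ
  rw [h]; ext x; simp [Cfsg.conjFun]

theorem CS.conj_one (hS : IsCoherenceSystem S τ R) {χ : L → ℂ} (hχ : χ ∈ S) :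
    Cfsg.conjFun χ 1 = χ 1 := by
  obtain ⟨n, hn⟩ := IsCharacter.one_nat (hS.isCharacter χ hχ)
  show conj (χ 1) = χ 1
  rw [hn]; simp

theorem CS.conj_orth (hS : IsCoherenceSystem S τ R) {χ : L → ℂ} (hχ : χ ∈ S) :
    classInner χ (Cfsg.conjFun χ) = 0 :=
  hS.orthogonal χ hχ _ (hS.conj_mem χ hχ) (Ne.symm (hS.conj_ne χ hχ))

theorem CS.conj_orth' (hS : IsCoherenceSystem S τ R) {χ : L → ℂ} (hχ : χ ∈ S) :
    classInner (Cfsg.conjFun χ) χ = 0 :=
  hS.orthogonal _ (hS.conj_mem χ hχ) χ hχ (hS.conj_ne χ hχ)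

theorem CS.conj_self {χ : L → ℂ} :
    classInner (Cfsg.conjFun χ) (Cfsg.conjFun χ) = classInner χ χ := by
  rw [conjFun_inner, classInner_conj_symm]

theorem CS.sub_mem (hS : IsCoherenceSystem S τ R) {χ : L → ℂ} (hχ : χ ∈ S) :
    χ - Cfsg.conjFun χ ∈ zspanOn S {1}ᶜ := by
  rw [mem_zspanOn]
  refine ⟨zspan_sub (zspan_self hχ) (zspan_self (hS.conj_mem χ hχ)), ?_⟩
  rw [Pi.sub_apply, CS.conj_one hS hχ, sub_self]

theorem CS.inner_sub (hS : IsCoherenceSystem S τ R) {χ : L → ℂ} (hχ : χ ∈ S) :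
    classInner χ (χ - Cfsg.conjFun χ) = classInner χ χ := by
  rw [classInner_sub_right, CS.conj_orth hS hχ, sub_zero]

theorem CS.one_pos (hS : IsCoherenceSystem S τ R) {χ : L → ℂ} (hχ : χ ∈ S) : χ 1 ≠ 0 := by
  intro h
  apply CS.ne0 hS hχ
  ext x
  have := IsCharacter.norm_le (hS.isCharacter χ hχ) x
  rw [h, norm_zero] at this
  exact norm_le_zero_iff.1 this

/-- the projection on `R χ` of an element with the right inner product -/
theorem CS.proj (hS : IsCoherenceSystem S τ R) {χ : L → ℂ} (hχ : χ ∈ S) {f : G → ℂ}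
    (hf : IsGeneralizedCharacter G f) (hN : classInner f (τ (χ - Cfsg.conjFun χ)) = classInner χ χ) :
    (classInner χ χ).re ≤ ∑ α ∈ R χ, ‖classInner f α‖ ^ 2 ∧
      (∑ α ∈ R χ, ‖classInner f α‖ ^ 2 ≤ (classInner χ χ).re →
      ∑ α ∈ R χ, ‖classInner f α‖ ^ 2 = (classInner χ χ).re ∧
        ∀ α ∈ R χ, classInner f α = 0 ∨ classInner f α = 1) := by
  apply int_proj hf (hS.virtual χ hχ)
  rw [← hS.sum_eq χ hχ, hN]
  exact self_eq_re χ

theorem CS.R_ne0 (hS : IsCoherenceSystem S τ R) {χ : L → ℂ} (hχ : χ ∈ S) {α : G → ℂ}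
    (hα : α ∈ R χ) : α ≠ 0 := by
  intro h
  have := hS.orthonormal χ hχ α hα α hα
  rw [if_pos rfl, h, classInner_zero_left] at this
  exact zero_ne_one this

theorem CS.R_self (hS : IsCoherenceSystem S τ R) {χ : L → ℂ} (hχ : χ ∈ S) {α : G → ℂ}
    (hα : α ∈ R χ) : classInner α α = 1 := by
  have := hS.orthonormal χ hχ α hα α hα
  rwa [if_pos rfl] at this

theorem CS.R_orth (hS : IsCoherenceSystem S τ R) {χ : L → ℂ} (hχ : χ ∈ S) :
    ∀ α ∈ R χ, ∀ β ∈ R χ, α ≠ β → classInner α β = 0 := by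
  intro α hα β hβ h
  have := hS.orthonormal χ hχ α hα β hβ
  rwa [if_neg h] at this

/-- Pythagoras for `R χ` -/
theorem CS.pyth (hS : IsCoherenceSystem S τ R) {χ : L → ℂ} (hχ : χ ∈ S) (f : G → ℂ) :
    (∀ β ∈ R χ, classInner (f - ∑ α ∈ R χ, classInner f α • α) β = 0) ∧
    (classInner f f).re = ∑ α ∈ R χ, ‖classInner f α‖ ^ 2 +
      (classInner (f - ∑ α ∈ R χ, classInner f α • α) (f - ∑ α ∈ R χ, classInner f α • α)).re := by
  have h := bessel (R χ) (fun α => α) (CS.R_orth hS hχ) (fun α hα => CS.R_ne0 hS hχ hα) f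
  have e1 : ∑ j ∈ R χ, (classInner f j / classInner j j) • j = ∑ α ∈ R χ, classInner f α • α := by
    refine Finset.sum_congr rfl fun α hα => ?_
    rw [CS.R_self hS hχ hα, div_one]
  have e2 : ∑ i ∈ R χ, ‖classInner f i‖ ^ 2 / (classInner i i).re =
      ∑ α ∈ R χ, ‖classInner f α‖ ^ 2 := by
    refine Finset.sum_congr rfl fun α hα => ?_
    rw [CS.R_self hS hχ hα, Complex.one_re, div_one]
  rw [e1, e2] at h
  exact h

/-- an element of the right norm lies in the span of `R χ` -/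
theorem CS.mem_span (hS : IsCoherenceSystem S τ R) {χ : L → ℂ} (hχ : χ ∈ S) {f : G → ℂ}
    (hf : IsGeneralizedCharacter G f) (hN : classInner f (τ (χ - Cfsg.conjFun χ)) = classInner χ χ)
    (hn : classInner f f = classInner χ χ) : f = ∑ α ∈ R χ, classInner f α • α := by
  have h1 := (CS.proj hS hχ hf hN).1
  have h2 := (CS.pyth hS hχ f).2
  rw [hn] at h2
  have h3 := self_re_nonneg (f - ∑ α ∈ R χ, classInner f α • α)
  have h4 : (classInner (f - ∑ α ∈ R χ, classInner f α • α) (f - ∑ α ∈ R χ, classInner f α • α)).re = 0 := by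
    linarith
  exact sub_eq_zero.1 (eq_zero_of_re h4)

/-- the images of a coherent part are orthogonal to the other `R χ` -/
theorem CS.coh_orth (hS : IsCoherenceSystem S τ R) {S₁ : Set (L → ℂ)} (hS₁ : S₁ ⊆ S)
    (hS₁c : ∀ φ ∈ S₁, Cfsg.conjFun φ ∈ S₁) {τ₁ : (L → ℂ) → (G → ℂ)}
    (h1 : IsLinearIsometryOn (zspan S₁) τ₁) (h2 : ∀ α ∈ zspanOn S₁ {1}ᶜ, τ₁ α = τ α)
    {φ χ : L → ℂ} (hφ : φ ∈ S₁) (hχ : χ ∈ S) (h3 : classInner φ χ = 0)
    (h4 : classInner φ (Cfsg.conjFun χ) = 0) {α : G → ℂ} (hα : α ∈ R χ) :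
    classInner (τ₁ φ) α = 0 := by
  have hφS := hS₁ hφ
  have h5 : φ - Cfsg.conjFun φ ∈ zspanOn S₁ {1}ᶜ := by
    rw [mem_zspanOn]
    refine ⟨zspan_sub (zspan_self hφ) (zspan_self (hS₁c φ hφ)), ?_⟩
    rw [Pi.sub_apply, CS.conj_one hS hφS, sub_self]
  have h6 : τ₁ φ = ∑ β ∈ R φ, classInner (τ₁ φ) β • β := by
    apply CS.mem_span hS hφS (h1.2.2.2 φ (zspan_self hφ))
    · rw [← h2 _ h5, h1.2.2.1 φ (zspan_self hφ) _ h5.1, CS.inner_sub hS hφS]
    · exact h1.2.2.1 φ (zspan_self hφ) φ (zspan_self hφ)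
  rw [h6, classInner_sum_left]
  apply Finset.sum_eq_zero
  intro β hβ
  rw [classInner_smul_left, hS.disjoint χ hχ φ hφS h3 h4 β hβ α hα, mul_zero]

end CS

end CfsgH4
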