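import Cfsg.Agent.H4.Basic
import Cfsg.Prelude.Def_OddOrderLocal

/-!
# Counting with TI subgroups
-/

set_option autoImplicit false
open Cfsg

namespace CfsgH4

variable {G : Type*} [Group G]

theorem ti_count [Finite G] (H : Subgroup G) (hTI : IsTISubset (H : Set G)) :
    Nat.card {g : G // g ≠ 1 ∧ ∃ x : G, x * g * x⁻¹ ∈ H} =
      (Subgroup.normalizer (H : Set G)).index * (Nat.card H - 1) := by
  classical
  set N := Subgroup.normalizer (H : Set G) with hN
  have hcard : Nat.card {h : H // (h : G) ≠ 1} = Nat.card H - 1 := by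
    haveI := Fintype.ofFinite H
    rw [Nat.card_eq_fintype_card, Nat.card_eq_fintype_card]
    have : Fintype.card {h : H // (h : G) ≠ 1} = Fintype.card {h : H // h ≠ 1} :=
      Fintype.card_congr (Equiv.subtypeEquivRight fun h => by
        rw [Ne, Ne, ← Subgroup.coe_one H, Subtype.ext_iff])
    rw [this, Fintype.card_subtype_compl, Fintype.card_subtype_eq]
  rw [← hcard, Subgroup.index, ← Nat.card_prod]
  symm
  refine Nat.card_congr (Equiv.ofBijective (fun q : (G ⧸ N) × {h : H // (h : G) ≠ 1} =>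
    (⟨q.1.out * (q.2.1 : G) * q.1.out⁻¹, ?_, q.1.out⁻¹, ?_⟩ :
      {g : G // g ≠ 1 ∧ ∃ x : G, x * g * x⁻¹ ∈ H})) ⟨?_, ?_⟩)
  · intro h
    apply q.2.2
    have := congrArg (fun z => q.1.out⁻¹ * z * q.1.out) h
    simpa [mul_assoc] using this
  · have : q.1.out⁻¹ * (q.1.out * (q.2.1 : G) * q.1.out⁻¹) * q.1.out⁻¹⁻¹ = q.2.1 := by group
    rw [this]; exact q.2.1.2
  · rintro ⟨q, ⟨h, hh⟩, h1⟩ ⟨q', ⟨k, hk⟩, k1⟩ he
    have he' : q.out * h * q.out⁻¹ = q'.out * k * q'.out⁻¹ := congrArg Subtype.val he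
    have h2 : (q'.out⁻¹ * q.out) * h * (q'.out⁻¹ * q.out)⁻¹ = k := by
      have : (q'.out⁻¹ * q.out) * h * (q'.out⁻¹ * q.out)⁻¹ = q'.out⁻¹ * (q.out * h * q.out⁻¹) * q'.out := by
        group
      rw [this, he']; group
    have h3 : q'.out⁻¹ * q.out ∈ N := by
      by_contra hcon
      exact h1 (hTI _ hcon h hh (by rw [h2]; exact hk))
    have h4 : q = q' := by
      rw [← QuotientGroup.out_eq' q, ← QuotientGroup.out_eq' q']
      exact (QuotientGroup.eq.2 h3).symm
    subst h4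
    have h5 : h = k := by
      have := congrArg (fun z => q.out⁻¹ * z * q.out) he'
      simpa [mul_assoc] using this
    subst h5; rfl
  · rintro ⟨g, hg1, x, hx⟩
    set q : G ⧸ N := ((x⁻¹ : G) : G ⧸ N) with hq
    have h1 : x * q.out ∈ N := by
      have h2 : ((q.out : G) : G ⧸ N) = ((x⁻¹ : G) : G ⧸ N) := QuotientGroup.out_eq' q
      have h3 := QuotientGroup.eq.1 h2.symm
      simpa using h3
    have h4 : q.out⁻¹ * g * q.out ∈ H := by
      have h5 := (Subgroup.mem_normalizer_iff.1 (N.inv_mem h1) (x * g * x⁻¹)).1 hx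
      have h6 : (x * q.out)⁻¹ * (x * g * x⁻¹) * (x * q.out)⁻¹⁻¹ = q.out⁻¹ * g * q.out := by group
      rwa [h6] at h5
    refine ⟨(q, ⟨⟨q.out⁻¹ * g * q.out, h4⟩, ?_⟩), ?_⟩
    · intro h
      apply hg1
      have := congrArg (fun z => q.out * z * q.out⁻¹) h
      simpa [mul_assoc] using this
    · apply Subtype.ext
      show q.out * (q.out⁻¹ * g * q.out) * q.out⁻¹ = g
      group

end CfsgH4
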