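import Cfsg.Agent.H4.Cen
import Cfsg.Agent.H5.MinMax

/-!
# Subsections with central defect groups
-/

set_option autoImplicit false

open Cfsg MonoidAlgebra
open CfsgH4 hiding centralChar sum_conj regInner_symm
open CfsgH5 ComplexConjugate

namespace CfsgH4

section Two

variable {G : Type*} [Group G] [Finite G] {p : ℕ} [hp : Fact p.Prime] {M : Ideal AlgInt}
variable {C : Subgroup G} [Fintype C]

/-- if `b` is the only block inducing `B`, the values on the section are given by the `b`-part -/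
theorem value_eq_Xf (hM : IsPModular p M) {u : C} (hC : C = Subgroup.centralizer ({(u : G)} : Set G))
    (hup : ∃ k, orderOf (u : G) = p ^ k) {b : Set (IrrCharacter C)} {B : Set (IrrCharacter G)} (hind : IsInducedBlock M C b B)
    (huniq : ∀ b' : Set (IrrCharacter C), IsInducedBlock M C b' B → b' = b)
    {χ : IrrCharacter G} (hχ : χ ∈ B) {s : C} (hs : ¬ p ∣ orderOf s) :
    (χ : G → ℂ) (u * s) = Xf u b (χ : G → ℂ) s := by
  classical
  haveI := Fintype.ofFinite G
  haveI := IsPModular.isPrime hM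
  obtain ⟨x, hx⟩ := u
  have hC' : C = Subgroup.centralizer ({x} : Set G) := hC
  subst hC'
  have hu := CfsgH5.mem_center_of_eq (u := (⟨x, hx⟩ : Subgroup.centralizer ({x} : Set G))) rfl
  have hset : indSet M (Subgroup.centralizer ({x} : Set G)) B = b := by
    ext ψ
    constructor
    · intro h
      have h1 := huniq _ h
      rw [← h1]; exact mem_blockOf_self ψ
    · intro h
      exact (mem_indSet_of_mem hind.1 h).2 hind
  have hpp : IsPPart p (((⟨x, hx⟩ * s : Subgroup.centralizer ({x} : Set G))) : G) x :=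
    ppart_coe.1 (CfsgH5.ppart_mul hu hup hs)
  have h1 := second_gen (z := x) hM hind.2.1 (h := ⟨x, hx⟩ * s) hpp χ
  rw [if_pos hχ, hset] at h1
  exact h1.symm

/-- block parts when all members agree on regular elements -/
theorem Xf_rank_one {u : C} (hu : u ∈ Subgroup.center C) {b : Set (IrrCharacter C)} {θ : IrrCharacter C}
    (hall : ∀ ψ ∈ b, ∀ s : C, ¬ p ∣ orderOf s → (ψ : C → ℂ) s = (θ : C → ℂ) s) (χ : G → ℂ) {s : C}
    (hs : ¬ p ∣ orderOf s) :
    Xf u b χ s = (open Classical in ∑ ψ : IrrCharacter C, if ψ ∈ b then mlt C χ ψ * wt u ψ else 0) * (θ : C → ℂ) s := by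
  classical
  rw [Xf, Finset.sum_mul]
  refine Finset.sum_congr rfl fun ψ _ => ?_
  split_ifs with h
  · rw [mul_wt hu, hall ψ h s hs]; ring
  · rw [zero_mul]

/-- the kernel identity when `l(b) = 1` with central defect group -/
theorem sum_norm_central (hM : IsPModular p M) {u : C} (hC : C = Subgroup.centralizer ({(u : G)} : Set G))
    (hup : ∃ k, orderOf (u : G) = p ^ k) {b : Set (IrrCharacter C)} (hb : IsPBlock M b) {θ : IrrCharacter C}
    (hall : ∀ ψ ∈ b, ∀ s : C, ¬ p ∣ orderOf s → (ψ : C → ℂ) s = (θ : C → ℂ) s) {a : IrrCharacter G → ℂ}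
    (ha : ∀ χ : IrrCharacter G, ∀ s : C, ¬ p ∣ orderOf s → Xf u b (χ : G → ℂ) s = a χ * (θ : C → ℂ) s) :
    ∑ χ : IrrCharacter G, a χ * conj (a χ) = Nat.card b := by
  classical
  have hreg : ¬ p ∣ orderOf (1 : C) := by rw [orderOf_one]; exact hp.out.one_lt.ne' ∘ Nat.dvd_one.1
  have h1 := kernel_identity hM hC hup hb hreg hreg
  have h0 : (θ : C → ℂ) 1 ≠ 0 := IsIrr.one_ne_zero θ.2
  have h2 : ∀ ζ : IrrCharacter C, (if ζ ∈ b then (ζ : C → ℂ) 1 * conj ((ζ : C → ℂ) 1) else 0) =
      if ζ ∈ b then (θ : C → ℂ) 1 * conj ((θ : C → ℂ) 1) else 0 := by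
    intro ζ
    split_ifs with h
    · rw [hall ζ h 1 hreg]
    · rfl
  rw [Finset.sum_congr rfl fun ζ _ => h2 ζ, ← Finset.sum_filter, Finset.sum_const, nsmul_eq_mul] at h1
  have h3 : ((Finset.univ.filter (fun χ : IrrCharacter C => χ ∈ b)).card : ℂ) = (Nat.card b : ℂ) := by
    rw [Nat.card_eq_fintype_card, Fintype.card_subtype]
  rw [h3] at h1
  have h4 : (θ : C → ℂ) 1 * conj ((θ : C → ℂ) 1) ≠ 0 := mul_ne_zero h0 (by rwa [Ne, map_eq_zero])
  apply mul_right_cancel₀ h4
  rw [← h1, Finset.sum_mul]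
  refine Finset.sum_congr rfl fun χ _ => ?_
  rw [ha χ 1 hreg, map_mul]; ring

theorem first_main_unique' (hM : IsPModular p M) {D H : Subgroup G} (hH : H = Subgroup.normalizer (D : Set G))
    (hD : IsPGroup p D) {b b' : Set (IrrCharacter H)} (hbD : IsDefectGroup p M b (D.subgroupOf H))
    {B : Set (IrrCharacter G)} (hind : IsInducedBlock M H b B) (hind' : IsInducedBlock M H b' B) : b = b' := by
  subst hH
  exact first_main_unique hM hD hbD hind hind'

end Two

end CfsgH4
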