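import Cfsg.Agent.H4.Pet2
import Cfsg.Agent.H4.Isom
import Cfsg.Prelude.Def_OddOrderChar

/-!
# Coherence, I
-/

set_option autoImplicit false
open Cfsg ComplexConjugate

namespace CfsgH4

section Basic

variable {L : Type*} [Group L] [Fintype L] {G : Type*} [Group G] [Fintype G]

theorem zspan_add {X : Type*} {S : Set (X → ℂ)} {a b : X → ℂ} (ha : a ∈ zspan S) (hb : b ∈ zspan S) :
    a + b ∈ zspan S := Submodule.add_mem _ ha hb

theorem zspan_sub {X : Type*} {S : Set (X → ℂ)} {a b : X → ℂ} (ha : a ∈ zspan S) (hb : b ∈ zspan S) :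
    a - b ∈ zspan S := Submodule.sub_mem _ ha hb

theorem zspan_smul {X : Type*} {S : Set (X → ℂ)} {a : X → ℂ} (n : ℤ) (ha : a ∈ zspan S) :
    n • a ∈ zspan S := Submodule.smul_mem _ n ha

theorem zspan_sum {X ι : Type*} {S : Set (X → ℂ)} (s : Finset ι) (f : ι → X → ℂ)
    (h : ∀ i ∈ s, f i ∈ zspan S) : (∑ i ∈ s, f i) ∈ zspan S := Submodule.sum_mem _ h

theorem zspan_self {X : Type*} {S : Set (X → ℂ)} {a : X → ℂ} (ha : a ∈ S) : a ∈ zspan S :=
  Submodule.subset_span ha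

theorem zspan_mono {X : Type*} {S T : Set (X → ℂ)} (h : S ⊆ T) : zspan S ⊆ zspan T :=
  Submodule.span_mono h

theorem zspanOn_mono {X : Type*} {S T : Set (X → ℂ)} (h : S ⊆ T) (A : Set X) :
    zspanOn S A ⊆ zspanOn T A := fun _ ha => ⟨zspan_mono h ha.1, ha.2⟩

theorem mem_zspanOn {S : Set (L → ℂ)} {a : L → ℂ} : a ∈ zspanOn S {1}ᶜ ↔ a ∈ zspan S ∧ a 1 = 0 := by
  constructor
  · intro h
    exact ⟨h.1, h.2 1 (by simp)⟩
  · intro h
    refine ⟨h.1, fun x hx => ?_⟩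
    have : x = 1 := by simpa using hx
    rw [this]; exact h.2

theorem zspanOn_add {X : Type*} {S : Set (X → ℂ)} {A : Set X} {a b : X → ℂ} (ha : a ∈ zspanOn S A)
    (hb : b ∈ zspanOn S A) : a + b ∈ zspanOn S A :=
  ⟨zspan_add ha.1 hb.1, fun x hx => by rw [Pi.add_apply, ha.2 x hx, hb.2 x hx, add_zero]⟩

theorem zspanOn_smul {X : Type*} {S : Set (X → ℂ)} {A : Set X} {a : X → ℂ} (n : ℤ)
    (ha : a ∈ zspanOn S A) : n • a ∈ zspanOn S A :=
  ⟨zspan_smul n ha.1, fun x hx => by rw [zs_apply, ha.2 x hx, mul_zero]⟩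

theorem zspanOn_zero {X : Type*} {S : Set (X → ℂ)} {A : Set X} : (0 : X → ℂ) ∈ zspanOn S A :=
  ⟨Submodule.zero_mem _, fun _ _ => rfl⟩

theorem zspanOn_neg {X : Type*} {S : Set (X → ℂ)} {A : Set X} {a : X → ℂ}
    (ha : a ∈ zspanOn S A) : -a ∈ zspanOn S A := by
  have := zspanOn_smul (-1) ha
  rwa [neg_one_zsmul] at this

theorem zspanOn_sub {X : Type*} {S : Set (X → ℂ)} {A : Set X} {a b : X → ℂ} (ha : a ∈ zspanOn S A)
    (hb : b ∈ zspanOn S A) : a - b ∈ zspanOn S A := by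
  rw [sub_eq_add_neg]; exact zspanOn_add ha (zspanOn_neg hb)

theorem zspanOn_sum {X ι : Type*} {S : Set (X → ℂ)} {A : Set X} (s : Finset ι) (f : ι → X → ℂ)
    (h : ∀ i ∈ s, f i ∈ zspanOn S A) : (∑ i ∈ s, f i) ∈ zspanOn S A := by
  classical
  induction s using Finset.induction_on with
  | empty => rw [Finset.sum_empty]; exact zspanOn_zero
  | insert a s ha ih =>
    rw [Finset.sum_insert ha]
    exact zspanOn_add (h a (Finset.mem_insert_self a s))
      (ih (fun i hi => h i (Finset.mem_insert_of_mem hi)))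

/-- coefficients of an element of the span of a finite set -/
theorem zspan_coeff {X : Type*} {T : Finset (X → ℂ)} {a : X → ℂ} (ha : a ∈ zspan (↑T : Set (X → ℂ))) :
    ∃ m : (X → ℂ) → ℤ, a = ∑ φ ∈ T, m φ • φ := by
  obtain ⟨f, -, hf⟩ := Submodule.mem_span_finset.1 ha
  exact ⟨f, hf.symm⟩

/-- linearity of a partial isometry -/
theorem iso_zero {S : Set (L → ℂ)} {A : Set L} {τ : (L → ℂ) → (G → ℂ)}
    (hτ : IsLinearIsometryOn (zspanOn S A) τ) : τ 0 = 0 := by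
  have := hτ.2.1 0 zspanOn_zero 0
  simpa using this

theorem iso_neg {S : Set (L → ℂ)} {A : Set L} {τ : (L → ℂ) → (G → ℂ)}
    (hτ : IsLinearIsometryOn (zspanOn S A) τ) {a : L → ℂ} (ha : a ∈ zspanOn S A) : τ (-a) = -τ a := by
  have := hτ.2.1 a ha (-1)
  rwa [neg_one_zsmul, neg_one_zsmul] at this

theorem iso_sub {S : Set (L → ℂ)} {A : Set L} {τ : (L → ℂ) → (G → ℂ)}
    (hτ : IsLinearIsometryOn (zspanOn S A) τ) {a b : L → ℂ} (ha : a ∈ zspanOn S A)
    (hb : b ∈ zspanOn S A) : τ (a - b) = τ a - τ b := by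
  rw [sub_eq_add_neg, hτ.1 a ha (-b) (zspanOn_neg hb), iso_neg hτ hb, sub_eq_add_neg]

theorem iso_sum {ι : Type*} {S : Set (L → ℂ)} {A : Set L} {τ : (L → ℂ) → (G → ℂ)}
    (hτ : IsLinearIsometryOn (zspanOn S A) τ) (s : Finset ι) (f : ι → L → ℂ) (m : ι → ℤ)
    (h : ∀ i ∈ s, f i ∈ zspanOn S A) : τ (∑ i ∈ s, m i • f i) = ∑ i ∈ s, m i • τ (f i) := by
  classical
  induction s using Finset.induction_on with
  | empty => rw [Finset.sum_empty, Finset.sum_empty]; exact iso_zero hτ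
  | insert a s ha ih =>
    rw [Finset.sum_insert ha, Finset.sum_insert ha,
      hτ.1 _ (zspanOn_smul _ (h a (Finset.mem_insert_self a s))) _
        (zspanOn_sum s _ (fun i hi => zspanOn_smul _ (h i (Finset.mem_insert_of_mem hi)))),
      ih (fun i hi => h i (Finset.mem_insert_of_mem hi)),
      hτ.2.1 _ (h a (Finset.mem_insert_self a s))]

/-- the same on the full span -/
theorem zspan_eq_on {X : Type*} (S : Set (X → ℂ)) : zspan S = zspanOn S Set.univ := by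
  ext a
  exact ⟨fun h => ⟨h, fun x hx => absurd (Set.mem_univ x) hx⟩, fun h => h.1⟩

theorem iso_mono {E E' : Set (L → ℂ)} {τ : (L → ℂ) → (G → ℂ)} (hτ : IsLinearIsometryOn E τ)
    (h : E' ⊆ E) : IsLinearIsometryOn E' τ :=
  ⟨fun a ha b hb => hτ.1 a (h ha) b (h hb), fun a ha n => hτ.2.1 a (h ha) n,
    fun a ha b hb => hτ.2.2.1 a (h ha) b (h hb), fun a ha => hτ.2.2.2 a (h ha)⟩

/-- subsets of coherent sets -/
theorem coh_mono {S S' : Set (L → ℂ)} {A : Set L} {τ : (L → ℂ) → (G → ℂ)} (h : IsCoherent S A τ)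
    (hS : S' ⊆ S) (hne : ∃ α ∈ zspanOn S' A, α ≠ 0) : IsCoherent S' A τ := by
  obtain ⟨-, τ₁, h1, h2⟩ := h
  exact ⟨hne, τ₁, iso_mono h1 (zspan_mono hS), fun α hα => h2 α (zspanOn_mono hS A hα)⟩

/-- orthogonal nonzero functions are linearly independent, hence form a finite set -/
theorem finite_of_orth {S : Set (L → ℂ)} (orth : ∀ χ ∈ S, ∀ φ ∈ S, χ ≠ φ → classInner χ φ = 0)
    (ne0 : ∀ χ ∈ S, χ ≠ 0) : S.Finite := by
  classical
  have hli : LinearIndependent ℂ (fun χ : S => (χ : L → ℂ)) := by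
    rw [linearIndependent_iff']
    intro s g hg i hi
    have h1 : classInner (∑ j ∈ s, g j • (j : L → ℂ)) (i : L → ℂ) = 0 := by
      rw [hg, classInner_zero_left]
    rw [classInner_sum_left, Finset.sum_eq_single i, classInner_smul_left] at h1
    · rcases mul_eq_zero.1 h1 with h2 | h2
      · exact h2
      · exact absurd (classInner_self_eq_zero h2) (ne0 i i.2)
    · intro j _ hj
      rw [classInner_smul_left, orth j j.2 i i.2 (fun h => hj (Subtype.ext h)), mul_zero]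
    · intro h; exact absurd hi h
  haveI := hli.finite
  exact Set.toFinite S

end Basic

section Ext

variable {L : Type*} [Group L] [Fintype L] {G : Type*} [Group G] [Fintype G]

/-- the linear map with prescribed values on a finite orthogonal set -/
noncomputable def cext (T : Finset (L → ℂ)) (F : (L → ℂ) → (G → ℂ)) : (L → ℂ) → (G → ℂ) :=
  fun f => ∑ φ ∈ T, (classInner f φ / classInner φ φ) • F φ

variable {T : Finset (L → ℂ)} {F : (L → ℂ) → (G → ℂ)}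

theorem cext_add (a b : L → ℂ) : cext T F (a + b) = cext T F a + cext T F b := by
  unfold cext
  rw [← Finset.sum_add_distrib]
  refine Finset.sum_congr rfl fun φ _ => ?_
  rw [classInner_add_left, add_div, add_smul]

theorem cext_smul (c : ℂ) (a : L → ℂ) : cext T F (c • a) = c • cext T F a := by
  unfold cext
  rw [Finset.smul_sum]
  refine Finset.sum_congr rfl fun φ _ => ?_
  rw [classInner_smul_left, mul_div_assoc, mul_smul]

theorem cext_zsmul (n : ℤ) (a : L → ℂ) : cext T F (n • a) = n • cext T F a := by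
  rw [zs_eq, zs_eq, cext_smul]

theorem cext_sum {ι : Type*} (s : Finset ι) (f : ι → L → ℂ) :
    cext T F (∑ i ∈ s, f i) = ∑ i ∈ s, cext T F (f i) := by
  classical
  induction s using Finset.induction_on with
  | empty =>
    rw [Finset.sum_empty, Finset.sum_empty]
    have := cext_smul (T := T) (F := F) 0 0
    rwa [zero_smul, zero_smul] at this
  | insert a s ha ih => rw [Finset.sum_insert ha, Finset.sum_insert ha, cext_add, ih]

theorem cext_self (orth : ∀ χ ∈ T, ∀ φ ∈ T, χ ≠ φ → classInner χ φ = 0)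
    (ne0 : ∀ χ ∈ T, χ ≠ 0) {φ : L → ℂ} (hφ : φ ∈ T) : cext T F φ = F φ := by
  unfold cext
  rw [Finset.sum_eq_single φ]
  · rw [div_self (fun h => ne0 φ hφ (classInner_self_eq_zero h)), one_smul]
  · intro ψ hψ hne
    rw [orth φ hφ ψ hψ (Ne.symm hne), zero_div, zero_smul]
  · intro h; exact absurd hφ h

theorem cext_coeff (orth : ∀ χ ∈ T, ∀ φ ∈ T, χ ≠ φ → classInner χ φ = 0)
    (ne0 : ∀ χ ∈ T, χ ≠ 0) (m : (L → ℂ) → ℤ) :
    cext T F (∑ φ ∈ T, m φ • φ) = ∑ φ ∈ T, m φ • F φ := by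
  rw [cext_sum]
  refine Finset.sum_congr rfl fun φ hφ => ?_
  rw [cext_zsmul, cext_self orth ne0 hφ]

theorem conj_int (n : ℤ) : conj (n : ℂ) = n := map_intCast _ n

theorem inner_zsum_zsum {X Y : Type*} {H : Type*} [Group H] [Fintype H] (s : Finset X) (t : Finset Y)
    (f : X → H → ℂ) (g : Y → H → ℂ) (m : X → ℤ) (k : Y → ℤ) :
    classInner (∑ i ∈ s, m i • f i) (∑ j ∈ t, k j • g j) =
      ∑ i ∈ s, ∑ j ∈ t, (m i : ℂ) * (k j : ℂ) * classInner (f i) (g j) := by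
  rw [classInner_sum_left]
  refine Finset.sum_congr rfl fun i _ => ?_
  rw [classInner_sum_right]
  refine Finset.sum_congr rfl fun j _ => ?_
  rw [zs_eq, zs_eq, classInner_smul_left, classInner_smul_right, conj_int]
  ring

theorem cext_iso (orth : ∀ χ ∈ T, ∀ φ ∈ T, χ ≠ φ → classInner χ φ = 0)
    (ne0 : ∀ χ ∈ T, χ ≠ 0) (hF : ∀ φ ∈ T, IsGeneralizedCharacter G (F φ))
    (hFi : ∀ φ ∈ T, ∀ ψ ∈ T, classInner (F φ) (F ψ) = classInner φ ψ) :
    IsLinearIsometryOn (zspan (↑T : Set (L → ℂ))) (cext T F) := by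
  refine ⟨fun a _ b _ => cext_add a b, fun a _ n => cext_zsmul n a, fun a ha b hb => ?_,
    fun a ha => ?_⟩
  · obtain ⟨m, rfl⟩ := zspan_coeff ha
    obtain ⟨k, rfl⟩ := zspan_coeff hb
    rw [cext_coeff orth ne0, cext_coeff orth ne0, inner_zsum_zsum, inner_zsum_zsum]
    refine Finset.sum_congr rfl fun i hi => Finset.sum_congr rfl fun j hj => ?_
    rw [hFi i hi j hj]
  · obtain ⟨m, rfl⟩ := zspan_coeff ha
    rw [cext_coeff orth ne0]
    exact isGen_sum _ _ (fun φ hφ => isGen_zsmul (hF φ hφ) _)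

/-- coherence from values -/
theorem coh_of_values {S : Set (L → ℂ)} {τ : (L → ℂ) → (G → ℂ)}
    (orth : ∀ χ ∈ S, ∀ φ ∈ S, χ ≠ φ → classInner χ φ = 0)
    (ne0 : ∀ χ ∈ S, χ ≠ 0) (hF : ∀ φ ∈ S, IsGeneralizedCharacter G (F φ))
    (hFi : ∀ φ ∈ S, ∀ ψ ∈ S, classInner (F φ) (F ψ) = classInner φ ψ)
    (hne : ∃ α ∈ zspanOn S {1}ᶜ, α ≠ 0)
    (hag : ∀ (T : Finset (L → ℂ)) (m : (L → ℂ) → ℤ), (↑T : Set (L → ℂ)) = S →
      (∑ φ ∈ T, m φ • φ) 1 = 0 → ∑ φ ∈ T, m φ • F φ = τ (∑ φ ∈ T, m φ • φ)) :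
    IsCoherent S {1}ᶜ τ := by
  classical
  have hfin := finite_of_orth orth ne0
  set T := hfin.toFinset with hT
  have hTS : (↑T : Set (L → ℂ)) = S := hfin.coe_toFinset
  have hmem : ∀ φ, φ ∈ T ↔ φ ∈ S := fun φ => hfin.mem_toFinset
  have orth' : ∀ χ ∈ T, ∀ φ ∈ T, χ ≠ φ → classInner χ φ = 0 :=
    fun χ hχ φ hφ => orth χ ((hmem χ).1 hχ) φ ((hmem φ).1 hφ)
  have ne0' : ∀ χ ∈ T, χ ≠ 0 := fun χ hχ => ne0 χ ((hmem χ).1 hχ)
  refine ⟨hne, cext T F, ?_, ?_⟩
  · have := cext_iso (F := F) orth' ne0' (fun φ hφ => hF φ ((hmem φ).1 hφ))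
      (fun φ hφ ψ hψ => hFi φ ((hmem φ).1 hφ) ψ ((hmem ψ).1 hψ))
    rwa [hTS] at this
  · intro α hα
    rw [mem_zspanOn] at hα
    obtain ⟨h1, h2⟩ := hα
    rw [← hTS] at h1
    obtain ⟨m, rfl⟩ := zspan_coeff h1
    rw [cext_coeff orth' ne0']
    exact hag T m hTS h2

/-- the basic coherence criterion -/
theorem coh_base {S : Set (L → ℂ)} {τ : (L → ℂ) → (G → ℂ)}
    (orth : ∀ χ ∈ S, ∀ φ ∈ S, χ ≠ φ → classInner χ φ = 0)
    (ne0 : ∀ χ ∈ S, χ ≠ 0) (hτ : IsLinearIsometryOn (zspanOn S {1}ᶜ) τ)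
    {χ₁ : L → ℂ} (hχ₁ : χ₁ ∈ S) (hd : χ₁ 1 ≠ 0) (a : (L → ℂ) → ℤ) (ha1 : a χ₁ = 1)
    (ha : ∀ φ ∈ S, φ 1 = a φ * χ₁ 1) {X : G → ℂ} (hX : IsGeneralizedCharacter G X)
    (hXn : classInner X X = classInner χ₁ χ₁)
    (hXi : ∀ φ ∈ S, φ ≠ χ₁ → classInner (τ (a φ • χ₁ - φ)) X = a φ * classInner χ₁ χ₁)
    (hne : ∃ α ∈ zspanOn S {1}ᶜ, α ≠ 0) : IsCoherent S {1}ᶜ τ := by
  classical
  have hmem : ∀ φ ∈ S, a φ • χ₁ - φ ∈ zspanOn S {1}ᶜ := by
    intro φ hφ
    rw [mem_zspanOn]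
    refine ⟨zspan_sub (zspan_smul _ (zspan_self hχ₁)) (zspan_self hφ), ?_⟩
    rw [Pi.sub_apply, zs_apply, ha φ hφ, sub_self]
  have hself : a χ₁ • χ₁ - χ₁ = 0 := by rw [ha1, one_zsmul, sub_self]
  have hreal : ∀ f : L → ℂ, conj (classInner f f) = classInner f f := fun f => classInner_conj_symm f f
  have hXi' : ∀ φ ∈ S, classInner (τ (a φ • χ₁ - φ)) X =
      if φ = χ₁ then 0 else a φ * classInner χ₁ χ₁ := by
    intro φ hφ
    by_cases h : φ = χ₁
    · rw [if_pos h, h, hself, iso_zero hτ, classInner_zero_left]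
    · rw [if_neg h, hXi φ hφ h]
  refine coh_of_values (F := fun φ => a φ • X - τ (a φ • χ₁ - φ)) orth ne0 ?_ ?_ hne ?_
  · intro φ hφ
    exact isGen_sub (isGen_zsmul hX _) (hτ.2.2.2 _ (hmem φ hφ))
  · intro φ hφ ψ hψ
    have h1 := hXi' φ hφ
    have h2 : classInner X (τ (a ψ • χ₁ - ψ)) = if ψ = χ₁ then 0 else a ψ * classInner χ₁ χ₁ := by
      rw [← classInner_conj_symm, hXi' ψ hψ]
      split_ifs
      · simp
      · rw [map_mul, hreal, conj_int]
    have h3 : classInner (τ (a φ • χ₁ - φ)) (τ (a ψ • χ₁ - ψ)) =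
        (a φ : ℂ) * a ψ * classInner χ₁ χ₁ - a φ * classInner χ₁ ψ - a ψ * classInner φ χ₁ +
          classInner φ ψ := by
      rw [hτ.2.2.1 _ (hmem φ hφ) _ (hmem ψ hψ), zs_eq, zs_eq, classInner_sub_left,
        classInner_sub_right, classInner_sub_right, classInner_smul_left, classInner_smul_left,
        classInner_smul_right, classInner_smul_right, conj_int]
      ring
    have h4 : classInner (a φ • X - τ (a φ • χ₁ - φ)) (a ψ • X - τ (a ψ • χ₁ - ψ)) =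
        (a φ : ℂ) * a ψ * classInner X X - a φ * classInner X (τ (a ψ • χ₁ - ψ)) -
          a ψ * classInner (τ (a φ • χ₁ - φ)) X +
          classInner (τ (a φ • χ₁ - φ)) (τ (a ψ • χ₁ - ψ)) := by
      rw [zs_eq (a φ) X, zs_eq (a ψ) X, classInner_sub_left,
        classInner_sub_right, classInner_sub_right, classInner_smul_left, classInner_smul_left,
        classInner_smul_right, classInner_smul_right, conj_int]
      ring
    rw [h4, h1, h2, h3, hXn]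
    by_cases e1 : φ = χ₁
    · by_cases e2 : ψ = χ₁
      · rw [if_pos e1, if_pos e2, e1, e2, ha1]; push_cast; ring
      · rw [if_pos e1, if_neg e2, e1, ha1, orth χ₁ hχ₁ ψ hψ (Ne.symm e2)]; push_cast; ring
    · by_cases e2 : ψ = χ₁
      · rw [if_neg e1, if_pos e2, e2, ha1, orth φ hφ χ₁ hχ₁ e1]; push_cast; ring
      · rw [if_neg e1, if_neg e2, orth χ₁ hχ₁ ψ hψ (Ne.symm e2), orth φ hφ χ₁ hχ₁ e1]; ring
  · intro T m hTS h0
    have hmT : ∀ φ ∈ T, φ ∈ S := by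
      intro φ hφ; rw [← hTS]; exact hφ
    have h1 : ∑ φ ∈ T, (m φ : ℂ) * a φ = 0 := by
      rw [Finset.sum_apply] at h0
      have h2 : (∑ φ ∈ T, (m φ : ℂ) * a φ) * χ₁ 1 = 0 := by
        rw [Finset.sum_mul, ← h0]
        refine Finset.sum_congr rfl fun φ hφ => ?_
        rw [zs_apply, ha φ (hmT φ hφ)]; ring
      exact (mul_eq_zero.1 h2).resolve_right hd
    have h1' : ∑ φ ∈ T, m φ * a φ = 0 := by exact_mod_cast h1
    have h2 : ∑ φ ∈ T, m φ • (a φ • χ₁ - φ) = - ∑ φ ∈ T, m φ • φ := by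
      simp only [smul_sub]
      rw [Finset.sum_sub_distrib]
      have : ∑ φ ∈ T, m φ • a φ • χ₁ = (∑ φ ∈ T, m φ * a φ) • χ₁ := by
        rw [Finset.sum_smul]
        exact Finset.sum_congr rfl fun φ _ => by rw [mul_smul]
      rw [this, h1', zero_smul, zero_sub]
    have h3 : ∑ φ ∈ T, m φ • (a φ • X) = 0 := by
      have : ∑ φ ∈ T, m φ • a φ • X = (∑ φ ∈ T, m φ * a φ) • X := by
        rw [Finset.sum_smul]
        exact Finset.sum_congr rfl fun φ _ => by rw [mul_smul]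
      rw [this, h1', zero_smul]
    simp only [smul_sub]
    rw [Finset.sum_sub_distrib, h3, zero_sub,
      ← iso_sum hτ T (fun φ => a φ • χ₁ - φ) m (fun φ hφ => hmem φ (hmT φ hφ)), h2]
    have h4 : (∑ φ ∈ T, m φ • φ) ∈ zspanOn S {1}ᶜ := by
      rw [mem_zspanOn]
      exact ⟨zspan_sum _ _ fun φ hφ => zspan_smul _ (zspan_self (hmT φ hφ)), h0⟩
    rw [iso_neg hτ h4, neg_neg]

end Ext

end CfsgH4
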