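import Cfsg.Agent.H4.Coh2

/-!
# Coherence, III: adding a conjugate pair
-/

set_option autoImplicit false
open Cfsg ComplexConjugate

namespace CfsgH4

section CS

variable {L : Type*} [Group L] [Fintype L] {G : Type*} [Group G] [Fintype G]
variable {S : Set (L → ℂ)} {τ : (L → ℂ) → (G → ℂ)} {R : (L → ℂ) → Finset (G → ℂ)}

theorem nat_zsmul {X : Type*} (n : ℕ) (f : X → ℂ) (x : X) : (((n : ℤ) • f) x) = (n : ℂ) * f x := by
  rw [zs_apply]; norm_cast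

/-- Peterfalvi (5.6) -/
theorem CS.extend (hS : IsCoherenceSystem S τ R) (d n : (L → ℂ) → ℕ)
    (hd : ∀ φ ∈ S, φ 1 = (d φ : ℂ)) (hn : ∀ φ ∈ S, classInner φ φ = (n φ : ℂ))
    (S₁ : Finset (L → ℂ)) (hS₁ : (↑S₁ : Set (L → ℂ)) ⊆ S)
    (hS₁c : ∀ φ ∈ S₁, Cfsg.conjFun φ ∈ S₁)
    (hcoh : IsCoherent (↑S₁ : Set (L → ℂ)) {1}ᶜ τ) (χ : L → ℂ) (hχ : χ ∈ S) (hχ₁ : χ ∉ S₁)
    (hχ₂ : Cfsg.conjFun χ ∉ S₁) (χ₁ : L → ℂ) (hχ₁S : χ₁ ∈ S₁) (hdvd : d χ₁ ∣ d χ)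
    (hineq : (2 * d χ * d χ₁ : ℝ) < ∑ φ ∈ S₁, ((d φ : ℝ) ^ 2 / (n φ : ℝ))) :
    IsCoherent (↑S₁ ∪ {χ, Cfsg.conjFun χ} : Set (L → ℂ)) {1}ᶜ τ := by
  classical
  obtain ⟨⟨α₀, hα₀, hα₀0⟩, τ₁, h1, h2⟩ := hcoh
  obtain ⟨a, ha⟩ := hdvd
  have hχ₁S' : χ₁ ∈ S := hS₁ hχ₁S
  have hd1 : d χ₁ ≠ 0 := by
    intro h; apply CS.one_pos hS hχ₁S'; rw [hd χ₁ hχ₁S', h]; simp
  have hd1' : (0 : ℝ) < d χ₁ := by exact_mod_cast Nat.pos_of_ne_zero hd1
  have npos : ∀ φ ∈ S, (0 : ℝ) < n φ := by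
    intro φ hφ
    have := self_re_pos (CS.ne0 hS hφ)
    rwa [hn φ hφ, Complex.natCast_re] at this
  -- orthogonality of `τ₁ φ` and `R χ`
  have hRorth : ∀ φ ∈ S₁, ∀ α ∈ R χ, classInner (τ₁ φ) α = 0 := by
    intro φ hφ α hα
    refine CS.coh_orth hS hS₁ hS₁c h1 h2 hφ hχ ?_ ?_ hα
    · exact hS.orthogonal φ (hS₁ hφ) χ hχ (fun h => hχ₁ (h ▸ hφ))
    · exact hS.orthogonal φ (hS₁ hφ) _ (hS.conj_mem χ hχ) (fun h => hχ₂ (h ▸ hφ))
  have hτ₁g : ∀ φ ∈ S₁, IsGeneralizedCharacter G (τ₁ φ) := fun φ hφ => h1.2.2.2 φ (zspan_self hφ)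
  have hτ₁i : ∀ φ ∈ S₁, ∀ ψ ∈ S₁, classInner (τ₁ φ) (τ₁ ψ) = classInner φ ψ :=
    fun φ hφ ψ hψ => h1.2.2.1 φ (zspan_self hφ) ψ (zspan_self hψ)
  have orthS₁ : ∀ φ ∈ S₁, ∀ ψ ∈ S₁, φ ≠ ψ → classInner φ ψ = 0 :=
    fun φ hφ ψ hψ h => hS.orthogonal φ (hS₁ hφ) ψ (hS₁ hψ) h
  have hχφ : ∀ φ ∈ S₁, classInner χ φ = 0 := fun φ hφ =>
    hS.orthogonal χ hχ φ (hS₁ hφ) (fun h => hχ₁ (h ▸ hφ))
  -- the element `f`
  have hβ : χ - (a : ℤ) • χ₁ ∈ zspanOn S {1}ᶜ := by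
    rw [mem_zspanOn]
    refine ⟨zspan_sub (zspan_self hχ) (zspan_smul _ (zspan_self hχ₁S')), ?_⟩
    rw [Pi.sub_apply, nat_zsmul, hd χ hχ, hd χ₁ hχ₁S', ha]
    push_cast; ring
  set f := τ (χ - (a : ℤ) • χ₁) with hf
  have hfg : IsGeneralizedCharacter G f := hS.isometry.2.2.2 _ hβ
  have hff : classInner f f = n χ + (a : ℂ) ^ 2 * n χ₁ := by
    have e1 : classInner χ₁ χ = 0 := hS.orthogonal χ₁ hχ₁S' χ hχ (fun h => hχ₁ (h ▸ hχ₁S))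
    rw [hf, hS.isometry.2.2.1 _ hβ _ hβ, zs_eq, classInner_sub_left, classInner_sub_right,
      classInner_sub_right, classInner_smul_left, classInner_smul_left, classInner_smul_right,
      classInner_smul_right, conj_int, hn χ hχ, hn χ₁ hχ₁S', hχφ χ₁ hχ₁S, e1]
    push_cast; ring
  -- the coefficients
  have hz : ∀ φ ∈ S₁, ∃ z : ℤ, classInner f (τ₁ φ) = z := fun φ hφ => IsGen.inner_int hfg (hτ₁g φ hφ)
  choose! z hz using hz
  set c : ℤ := z χ₁ + a * n χ₁ with hc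
  have hzc : ∀ φ ∈ S₁, (d χ₁ : ℤ) * z φ = c * d φ - (if φ = χ₁ then (a : ℤ) * d χ₁ * n χ₁ else 0) := by
    intro φ hφ
    have hγ : (d χ₁ : ℤ) • φ - (d φ : ℤ) • χ₁ ∈ zspanOn (↑S₁ : Set (L → ℂ)) {1}ᶜ := by
      rw [mem_zspanOn]
      refine ⟨zspan_sub (zspan_smul _ (zspan_self hφ)) (zspan_smul _ (zspan_self hχ₁S)), ?_⟩
      rw [Pi.sub_apply, nat_zsmul, nat_zsmul, hd φ (hS₁ hφ), hd χ₁ hχ₁S']
      ring
    have e1 : classInner f (τ ((d χ₁ : ℤ) • φ - (d φ : ℤ) • χ₁)) =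
        (d χ₁ : ℂ) * z φ - (d φ : ℂ) * z χ₁ := by
      rw [← h2 _ hγ, iso_sub' h1 (zspan_smul _ (zspan_self hφ)) (zspan_smul _ (zspan_self hχ₁S)),
        h1.2.1 φ (zspan_self hφ), h1.2.1 χ₁ (zspan_self hχ₁S), zs_eq, zs_eq, classInner_sub_right,
        classInner_smul_right, classInner_smul_right, conj_int, conj_int, hz φ hφ, hz χ₁ hχ₁S]
      push_cast; ring
    have e2 : classInner f (τ ((d χ₁ : ℤ) • φ - (d φ : ℤ) • χ₁)) =
        (a : ℂ) * d φ * n χ₁ - a * d χ₁ * classInner χ₁ φ := by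
      rw [hf, hS.isometry.2.2.1 _ hβ _ (zspanOn_mono hS₁ _ hγ), zs_eq, zs_eq, zs_eq,
        classInner_sub_left, classInner_sub_right, classInner_sub_right, classInner_smul_left,
        classInner_smul_left, classInner_smul_right, classInner_smul_right, classInner_smul_right,
        classInner_smul_right, conj_int, conj_int, hχφ φ hφ, hχφ χ₁ hχ₁S, hn χ₁ hχ₁S']
      push_cast; ring
    have e3 : ((d χ₁ : ℤ) * z φ - (d φ : ℤ) * z χ₁ : ℤ) = (a : ℤ) * d φ * n χ₁ -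
        (if φ = χ₁ then (a : ℤ) * d χ₁ * n χ₁ else 0) := by
      have e4 := e1.symm.trans e2
      by_cases h : φ = χ₁
      · rw [if_pos h]
        rw [h, hn χ₁ hχ₁S'] at e4
        rw [h]
        have e5 : (((d χ₁ : ℤ) * z χ₁ - (d χ₁ : ℤ) * z χ₁ : ℤ) : ℂ) =
            (((a : ℤ) * d χ₁ * n χ₁ - (a : ℤ) * d χ₁ * n χ₁ : ℤ) : ℂ) := by push_cast; ring
        exact_mod_cast e5
      · rw [if_neg h]
        rw [orthS₁ χ₁ hχ₁S φ hφ (Ne.symm h)] at e4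
        have e5 : (((d χ₁ : ℤ) * z φ - (d φ : ℤ) * z χ₁ : ℤ) : ℂ) =
            (((a : ℤ) * d φ * n χ₁ - 0 : ℤ) : ℂ) := by push_cast; rw [e4]; ring
        exact_mod_cast e5
    rw [hc]
    linear_combination e3
  -- Bessel
  have hτne : ∀ φ ∈ S₁, τ₁ φ ≠ 0 := by
    intro φ hφ h
    have h3 := hτ₁i φ hφ φ hφ
    rw [h, classInner_zero_left] at h3
    exact CS.ne0 hS (hS₁ hφ) (classInner_self_eq_zero h3.symm)
  have hB := bessel S₁ τ₁ (fun φ hφ ψ hψ h => by rw [hτ₁i φ hφ ψ hψ, orthS₁ φ hφ ψ hψ h]) hτne f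
  set P := ∑ j ∈ S₁, (classInner f (τ₁ j) / classInner (τ₁ j) (τ₁ j)) • τ₁ j with hP
  obtain ⟨hB1, hB2⟩ := hB
  have hPR : ∀ α ∈ R χ, classInner P α = 0 := by
    intro α hα
    rw [hP, classInner_sum_left]
    apply Finset.sum_eq_zero
    intro φ hφ
    rw [classInner_smul_left, hRorth φ hφ α hα, mul_zero]
  have hfP : ∀ α ∈ R χ, classInner (f - P) α = classInner f α := by
    intro α hα; rw [classInner_sub_left, hPR α hα, sub_zero]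
  have hfR : classInner f (τ (χ - Cfsg.conjFun χ)) = classInner χ χ := by
    have e1 : classInner χ₁ χ = 0 := hS.orthogonal χ₁ hχ₁S' χ hχ (fun h => hχ₁ (h ▸ hχ₁S))
    have e2 : classInner χ₁ (Cfsg.conjFun χ) = 0 :=
      hS.orthogonal χ₁ hχ₁S' _ (hS.conj_mem χ hχ) (fun h => hχ₂ (h ▸ hχ₁S))
    rw [hf, hS.isometry.2.2.1 _ hβ _ (CS.sub_mem hS hχ), zs_eq, classInner_sub_left,
      CS.inner_sub hS hχ, classInner_smul_left, classInner_sub_right, e1, e2]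
    ring
  obtain ⟨hp1, hp2⟩ := CS.proj hS hχ hfg hfR
  obtain ⟨-, hpy⟩ := CS.pyth hS hχ (f - P)
  have hsumeq : ∑ α ∈ R χ, ‖classInner (f - P) α‖ ^ 2 = ∑ α ∈ R χ, ‖classInner f α‖ ^ 2 :=
    Finset.sum_congr rfl fun α hα => by rw [hfP α hα]
  rw [hsumeq] at hpy
  have hrest := self_re_nonneg (f - P - ∑ α ∈ R χ, classInner (f - P) α • α)
  -- the quadratic form
  have hquad : ∑ φ ∈ S₁, ‖classInner f (τ₁ φ)‖ ^ 2 / (classInner (τ₁ φ) (τ₁ φ)).re =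
      (c : ℝ) ^ 2 / (d χ₁ : ℝ) ^ 2 * ∑ φ ∈ S₁, ((d φ : ℝ) ^ 2 / (n φ : ℝ)) - 2 * a * c +
        (a : ℝ) ^ 2 * n χ₁ := by
    have e1 : ∀ φ ∈ S₁, ‖classInner f (τ₁ φ)‖ ^ 2 / (classInner (τ₁ φ) (τ₁ φ)).re =
        (c : ℝ) ^ 2 / (d χ₁ : ℝ) ^ 2 * ((d φ : ℝ) ^ 2 / (n φ : ℝ)) +
          (if φ = χ₁ then - 2 * (a : ℝ) * c + (a : ℝ) ^ 2 * n χ₁ else 0) := by
      intro φ hφ
      rw [hτ₁i φ hφ φ hφ, hz φ hφ, Complex.norm_intCast, sq_abs, hn φ (hS₁ hφ), Complex.natCast_re]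
      have e2 := hzc φ hφ
      have e3 : (z φ : ℝ) = (c * d φ - (if φ = χ₁ then (a : ℝ) * d χ₁ * n χ₁ else 0)) / d χ₁ := by
        rw [eq_div_iff hd1'.ne']
        have e4 : (((d χ₁ : ℤ) * z φ : ℤ) : ℝ) =
          ((c * d φ - (if φ = χ₁ then (a : ℤ) * d χ₁ * n χ₁ else 0) : ℤ) : ℝ) := by rw [e2]
        push_cast at e4
        linear_combination e4
      have e5 := npos φ (hS₁ hφ)
      rw [e3]
      by_cases h : φ = χ₁
      · rw [if_pos h, if_pos h]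
        rw [h] at e5 ⊢
        field_simp
        ring
      · rw [if_neg h, if_neg h]
        field_simp
        ring
    rw [Finset.sum_congr rfl e1, Finset.sum_add_distrib, ← Finset.mul_sum, Finset.sum_ite_eq' S₁ χ₁,
      if_pos hχ₁S]
    ring
  have hffr : (classInner f f).re = n χ + (a : ℝ) ^ 2 * n χ₁ := by
    rw [hff]
    have : (n χ + (a : ℂ) ^ 2 * n χ₁ : ℂ) = ((n χ + (a : ℝ) ^ 2 * n χ₁ : ℝ) : ℂ) := by push_cast; ring
    rw [this, Complex.ofReal_re]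
  have hχχr : (classInner χ χ).re = n χ := by rw [hn χ hχ, Complex.natCast_re]
  set Sg := ∑ φ ∈ S₁, ((d φ : ℝ) ^ 2 / (n φ : ℝ)) with hSg
  rw [hχχr] at hp1 hp2
  have hc0 : c = 0 := by
    by_contra hcne
    have k1 : (c : ℝ) ^ 2 / (d χ₁ : ℝ) ^ 2 * Sg ≤ 2 * a * c := by linarith
    have k2 : 2 * (a : ℝ) * (d χ₁ : ℝ) ^ 2 < Sg := by
      have : (2 * d χ * d χ₁ : ℝ) = 2 * (a : ℝ) * (d χ₁ : ℝ) ^ 2 := by rw [ha]; push_cast; ring
      rw [← this]; exact hineq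
    have k3 : (0 : ℝ) < (c : ℝ) ^ 2 := by positivity
    have k4 : 2 * (a : ℝ) * (c : ℝ) ^ 2 < (c : ℝ) ^ 2 / (d χ₁ : ℝ) ^ 2 * Sg := by
      have : 2 * (a : ℝ) * (c : ℝ) ^ 2 = (c : ℝ) ^ 2 / (d χ₁ : ℝ) ^ 2 * (2 * (a : ℝ) * (d χ₁ : ℝ) ^ 2) := by
        field_simp
      rw [this]
      exact mul_lt_mul_of_pos_left k2 (by positivity)
    have k5 : (a : ℝ) * ((c : ℝ) ^ 2 - c) < 0 := by nlinarith
    have k6 : (c : ℝ) ≤ (c : ℝ) ^ 2 := by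
      have : c ≤ c ^ 2 := by
        rcases le_or_gt c 0 with h | h
        · nlinarith [sq_nonneg c]
        · nlinarith
      exact_mod_cast this
    have k7 : (0 : ℝ) ≤ (a : ℝ) * ((c : ℝ) ^ 2 - c) :=
      mul_nonneg (Nat.cast_nonneg a) (by linarith)
    linarith
  -- consequences
  have hzφ : ∀ φ ∈ S₁, z φ = if φ = χ₁ then -((a : ℤ) * n χ₁) else 0 := by
    intro φ hφ
    have h3 := hzc φ hφ
    rw [hc0, zero_mul, zero_sub] at h3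
    have hd1z : (d χ₁ : ℤ) ≠ 0 := by exact_mod_cast hd1
    apply mul_left_cancel₀ hd1z
    rw [h3]
    split_ifs <;> ring
  have hPe : P = - ((a : ℤ) • τ₁ χ₁) := by
    rw [hP, Finset.sum_eq_single χ₁]
    · rw [hz χ₁ hχ₁S, hzφ χ₁ hχ₁S, if_pos rfl, hτ₁i χ₁ hχ₁S χ₁ hχ₁S, hn χ₁ hχ₁S']
      have h3 : (n χ₁ : ℂ) ≠ 0 := by
        have := npos χ₁ hχ₁S'
        exact_mod_cast this.ne'
      rw [zs_eq, ← neg_smul]
      congr 1
      push_cast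
      field_simp
    · intro φ hφ hne
      rw [hz φ hφ, hzφ φ hφ, if_neg hne, Int.cast_zero, zero_div, zero_smul]
    · intro h; exact absurd hχ₁S h
  set X := f - P with hX
  have hXf : X = f + (a : ℤ) • τ₁ χ₁ := by rw [hX, hPe, sub_neg_eq_add]
  have hXg : IsGeneralizedCharacter G X := by
    rw [hXf]; exact isGen_add hfg (isGen_zsmul (hτ₁g χ₁ hχ₁S) _)
  have hXXr : (classInner X X).re = n χ := by
    rw [hquad, hc0] at hB2
    push_cast at hB2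
    rw [hffr] at hB2
    have e0 : (0 : ℝ) ^ 2 / (d χ₁ : ℝ) ^ 2 * Sg = 0 := by simp
    linarith
  have hXX : classInner X X = classInner χ χ := by
    rw [self_eq_re, self_eq_re χ, hXXr, hχχr]
  clear_value X
  have hXR : classInner X (τ (χ - Cfsg.conjFun χ)) = classInner χ χ := by
    rw [← hfR, hS.sum_eq χ hχ, classInner_sum_right, classInner_sum_right]
    exact Finset.sum_congr rfl hfP
  have hXτ : ∀ φ ∈ S₁, classInner X (τ₁ φ) = 0 := hB1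
  have hRτ : ∀ φ ∈ S₁, classInner (τ (χ - Cfsg.conjFun χ)) (τ₁ φ) = 0 := by
    intro φ hφ
    rw [← classInner_conj_symm, hS.sum_eq χ hχ, classInner_sum_right, Finset.sum_eq_zero, map_zero]
    exact fun α hα => hRorth φ hφ α hα
  have hRR : classInner (τ (χ - Cfsg.conjFun χ)) (τ (χ - Cfsg.conjFun χ)) = 2 * classInner χ χ := by
    rw [hS.isometry.2.2.1 _ (CS.sub_mem hS hχ) _ (CS.sub_mem hS hχ), classInner_sub_left,
      CS.inner_sub hS hχ, classInner_sub_right, CS.conj_orth' hS hχ, CS.conj_self]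
    ring
  have hRX : classInner (τ (χ - Cfsg.conjFun χ)) X = classInner χ χ := by
    rw [← classInner_conj_symm, hXR, classInner_conj_symm]
  -- symmetric versions
  have hτX : ∀ φ ∈ S₁, classInner (τ₁ φ) X = 0 := fun φ hφ => inner_symm_zero (hXτ φ hφ)
  have hτR : ∀ φ ∈ S₁, classInner (τ₁ φ) (τ (χ - Cfsg.conjFun χ)) = 0 :=
    fun φ hφ => inner_symm_zero (hRτ φ hφ)
  have hmemS : ∀ φ, φ ∈ (↑S₁ ∪ {χ, Cfsg.conjFun χ} : Set (L → ℂ)) → φ ∈ S := by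
    rintro φ (h | h | h)
    · exact hS₁ h
    · rw [h]; exact hχ
    · rw [show φ = Cfsg.conjFun χ from h]; exact hS.conj_mem χ hχ
  have hχne : Cfsg.conjFun χ ≠ χ := hS.conj_ne χ hχ
  -- the values
  set F : (L → ℂ) → (G → ℂ) := fun φ => if φ = χ then X else if φ = Cfsg.conjFun χ then
    X - τ (χ - Cfsg.conjFun χ) else τ₁ φ with hF
  have F1 : F χ = X := by simp only [hF, if_true]
  have F2 : F (Cfsg.conjFun χ) = X - τ (χ - Cfsg.conjFun χ) := by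
    simp only [hF, if_neg hχne, if_true]
  have F3 : ∀ φ ∈ S₁, F φ = τ₁ φ := by
    intro φ hφ
    simp only [hF]
    rw [if_neg (fun h : φ = χ => hχ₁ (h ▸ hφ)), if_neg (fun h : φ = Cfsg.conjFun χ => hχ₂ (h ▸ hφ))]
  obtain ⟨τ₂, g1, g2, g3, g4⟩ := exists_iso_of_values (S := (↑S₁ ∪ {χ, Cfsg.conjFun χ} : Set (L → ℂ)))
    (F := F) (fun φ hφ ψ hψ h => hS.orthogonal φ (hmemS φ hφ) ψ (hmemS ψ hψ) h)
    (fun φ hφ => CS.ne0 hS (hmemS φ hφ)) (by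
      rintro φ (h | h | h)
      · rw [F3 φ h]; exact hτ₁g φ h
      · rw [h, F1]; exact hXg
      · rw [show φ = Cfsg.conjFun χ from h, F2]
        exact isGen_sub hXg (hS.isometry.2.2.2 _ (CS.sub_mem hS hχ)))
    (by
      have s1 : ∀ φ ∈ S₁, classInner φ χ = 0 := fun φ hφ => inner_symm_zero (hχφ φ hφ)
      have s2 : ∀ φ ∈ S₁, classInner φ (Cfsg.conjFun χ) = 0 := fun φ hφ =>
        hS.orthogonal φ (hS₁ hφ) _ (hS.conj_mem χ hχ) (fun h => hχ₂ (h ▸ hφ))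
      rintro φ (h | h | h) ψ (k | k | k)
      · rw [F3 φ h, F3 ψ k]; exact hτ₁i φ h ψ k
      · rw [F3 φ h, k, F1, hτX φ h, s1 φ h]
      · rw [F3 φ h, show ψ = Cfsg.conjFun χ from k, F2, classInner_sub_right, hτX φ h, hτR φ h,
          s2 φ h, sub_zero]
      · rw [h, F1, F3 ψ k, hXτ ψ k, hχφ ψ k]
      · rw [h, k, F1, hXX]
      · rw [h, show ψ = Cfsg.conjFun χ from k, F1, F2, classInner_sub_right, hXX, hXR,
          CS.conj_orth hS hχ, sub_self]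
      · rw [show φ = Cfsg.conjFun χ from h, F2, F3 ψ k, classInner_sub_left, hXτ ψ k, hRτ ψ k,
          inner_symm_zero (s2 ψ k), sub_zero]
      · rw [show φ = Cfsg.conjFun χ from h, k, F1, F2, classInner_sub_left, hXX, hRX,
          CS.conj_orth' hS hχ, sub_self]
      · rw [show φ = Cfsg.conjFun χ from h, show ψ = Cfsg.conjFun χ from k, F2,
          classInner_sub_left X, classInner_sub_right X, classInner_sub_right _ X, hXX, hXR, hRX, hRR, CS.conj_self]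
        ring)
  refine ⟨⟨α₀, zspanOn_mono Set.subset_union_left _ hα₀, hα₀0⟩, τ₂, g1, ?_⟩
  intro α hα
  rw [mem_zspanOn] at hα
  obtain ⟨m1, m2⟩ := hα
  -- decompose
  have m3 : α ∈ Submodule.span ℤ (↑S₁ : Set (L → ℂ)) ⊔ Submodule.span ℤ {χ, Cfsg.conjFun χ} := by
    rw [← Submodule.span_union]; exact m1
  obtain ⟨α₁, hα₁, β, hβ2, rfl⟩ := Submodule.mem_sup.1 m3
  obtain ⟨k, l, rfl⟩ := Submodule.mem_span_pair.1 hβ2
  have q1 : ∀ α ∈ zspan (↑S₁ : Set (L → ℂ)), τ₁ α = τ₂ α := by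
    apply iso_ext_on h1 (iso_mono g1 (zspan_mono Set.subset_union_left))
    intro φ hφ
    rw [g2 φ (Or.inl hφ), F3 φ hφ]
  have hγ : α₁ + ((k + l) * a : ℤ) • χ₁ ∈ zspanOn (↑S₁ : Set (L → ℂ)) {1}ᶜ := by
    rw [mem_zspanOn]
    refine ⟨zspan_add hα₁ (zspan_smul _ (zspan_self hχ₁S)), ?_⟩
    rw [Pi.add_apply, Pi.add_apply, zs_apply, zs_apply, CS.conj_one hS hχ, hd χ hχ, ha] at m2
    rw [Pi.add_apply, zs_apply, hd χ₁ hχ₁S']
    push_cast at m2 ⊢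
    linear_combination m2
  have q2 : α₁ + (k • χ + l • Cfsg.conjFun χ) = (α₁ + ((k + l) * a : ℤ) • χ₁) +
      ((k + l) • (χ - (a : ℤ) • χ₁) + (-l) • (χ - Cfsg.conjFun χ)) := by
    ext x
    simp only [Pi.add_apply, Pi.sub_apply, zs_apply]
    push_cast; ring
  have hm1 := zspanOn_mono hS₁ {1}ᶜ hγ
  have hm2 := zspanOn_smul (k + l) hβ
  have hm3 := zspanOn_smul (-l) (CS.sub_mem hS hχ)
  have lhs : τ₂ (α₁ + (k • χ + l • Cfsg.conjFun χ)) = τ₁ α₁ + (k • X + l •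
      (X - τ (χ - Cfsg.conjFun χ))) := by
    rw [g3, g3, zs_eq, zs_eq, g4, g4, g2 χ (Or.inr (Or.inl rfl)),
      g2 (Cfsg.conjFun χ) (Or.inr (Or.inr rfl)), F1, F2, q1 α₁ hα₁, zs_eq, zs_eq]
  rw [lhs, q2, hS.isometry.1 _ hm1 _ (zspanOn_add hm2 hm3), hS.isometry.1 _ hm2 _ hm3,
    hS.isometry.2.1 _ hβ, hS.isometry.2.1 _ (CS.sub_mem hS hχ), ← h2 _ hγ,
    h1.1 _ hα₁ _ (zspan_smul _ (zspan_self hχ₁S)), h1.2.1 _ (zspan_self hχ₁S), ← hf, hXf]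
  ext x
  simp only [Pi.add_apply, Pi.sub_apply, zs_apply]
  push_cast; ring

end CS

end CfsgH4
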