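import Cfsg.Agent.H4.Coh3

/-!
# Coherence, IV: sets of constant degree; irreducible characters
-/

set_option autoImplicit false
open Cfsg ComplexConjugate

namespace CfsgH4

section CS

variable {L : Type*} [Group L] [Fintype L] {G : Type*} [Group G] [Fintype G]
variable {S : Set (L → ℂ)} {τ : (L → ℂ) → (G → ℂ)} {R : (L → ℂ) → Finset (G → ℂ)}

theorem inner_span_zero {H : Type*} [Group H] [Fintype H] {R : Finset (H → ℂ)} (c : (H → ℂ) → ℂ)
    {h : H → ℂ} (hh : ∀ β ∈ R, classInner h β = 0) : classInner h (∑ β ∈ R, c β • β) = 0 := by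
  rw [classInner_sum_right]
  apply Finset.sum_eq_zero
  intro β hβ
  rw [classInner_smul_right, hh β hβ, mul_zero]

theorem CS.sub_mem_of_deg (hdeg : ∀ φ ∈ S, ∀ ψ ∈ S, φ 1 = ψ 1) {χ φ : L → ℂ} (hχ : χ ∈ S)
    (hφ : φ ∈ S) : χ - φ ∈ zspanOn S {1}ᶜ := by
  rw [mem_zspanOn]
  refine ⟨zspan_sub (zspan_self hχ) (zspan_self hφ), ?_⟩
  rw [Pi.sub_apply, hdeg χ hχ φ hφ, sub_self]

/-- the decomposition of `τ (χ - φ)` -/
theorem CS.decomp (hS : IsCoherenceSystem S τ R) (hdeg : ∀ φ ∈ S, ∀ ψ ∈ S, φ 1 = ψ 1)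
    {χ φ : L → ℂ} (hχ : χ ∈ S) (hφ : φ ∈ S) (h1 : φ ≠ χ) (h2 : φ ≠ Cfsg.conjFun χ) :
    ∃ X : G → ℂ, X = ∑ α ∈ R χ, classInner (τ (χ - φ)) α • α ∧ IsGeneralizedCharacter G X ∧
      classInner X X = classInner χ χ ∧
      (∀ α ∈ R χ, classInner (τ (χ - φ) - X) α = 0) ∧
      (∃ c : (G → ℂ) → ℂ, τ (χ - φ) - X = ∑ β ∈ R φ, c β • β) := by
  have hmem := CS.sub_mem_of_deg hdeg hχ hφ
  set f := τ (χ - φ) with hf
  have hfg : IsGeneralizedCharacter G f := hS.isometry.2.2.2 _ hmem
  have o1 : classInner φ χ = 0 := hS.orthogonal φ hφ χ hχ h1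
  have o2 : classInner φ (Cfsg.conjFun χ) = 0 := hS.orthogonal φ hφ _ (hS.conj_mem χ hχ) h2
  have o3 : classInner χ φ = 0 := inner_symm_zero o1
  have o4 : classInner χ (Cfsg.conjFun φ) = 0 := by
    refine hS.orthogonal χ hχ _ (hS.conj_mem φ hφ) (fun h => h2 ?_)
    rw [h, conjFun_conjFun]
  have hff : (classInner f f).re = (classInner χ χ).re + (classInner φ φ).re := by
    rw [hf, hS.isometry.2.2.1 _ hmem _ hmem, classInner_sub_left, classInner_sub_right,
      classInner_sub_right, o1, o3, ← Complex.add_re]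
    congr 1; ring
  have hfχ : classInner f (τ (χ - Cfsg.conjFun χ)) = classInner χ χ := by
    rw [hf, hS.isometry.2.2.1 _ hmem _ (CS.sub_mem hS hχ), classInner_sub_left, CS.inner_sub hS hχ,
      classInner_sub_right, o1, o2, sub_zero, sub_zero]
  have hfφ : classInner (-f) (τ (φ - Cfsg.conjFun φ)) = classInner φ φ := by
    rw [classInner_neg_left, hf, hS.isometry.2.2.1 _ hmem _ (CS.sub_mem hS hφ), classInner_sub_left,
      CS.inner_sub hS hφ, classInner_sub_right, o3, o4, sub_zero, zero_sub, neg_neg]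
  set X := ∑ α ∈ R χ, classInner f α • α with hX
  obtain ⟨p1, p2⟩ := CS.pyth hS hχ f
  rw [← hX] at p1 p2
  have hXφ : ∀ β ∈ R φ, classInner X β = 0 := by
    intro β hβ
    rw [hX, classInner_sum_left]
    apply Finset.sum_eq_zero
    intro α hα
    rw [classInner_smul_left, hS.disjoint φ hφ χ hχ o3 o4 α hα β hβ, mul_zero]
  set g := X - f with hg
  have hgφ : ∀ β ∈ R φ, classInner g β = classInner (-f) β := by
    intro β hβ
    rw [hg, classInner_sub_left, hXφ β hβ, classInner_neg_left, zero_sub]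
  obtain ⟨q1, q2⟩ := CS.pyth hS hφ g
  have hgg : (classInner (f - X) (f - X)).re = (classInner g g).re := by
    rw [show f - X = -g from by rw [hg, neg_sub], classInner_neg_left, classInner_neg_right, neg_neg]
  have r1 := (CS.proj hS hχ hfg hfχ).1
  have r2 := (CS.proj hS hφ (isGen_neg hfg) hfφ).1
  have r3 : ∑ β ∈ R φ, ‖classInner g β‖ ^ 2 = ∑ β ∈ R φ, ‖classInner (-f) β‖ ^ 2 :=
    Finset.sum_congr rfl fun β hβ => by rw [hgφ β hβ]
  have r4 := self_re_nonneg (g - ∑ β ∈ R φ, classInner g β • β)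
  rw [hgg] at p2
  rw [r3] at q2
  have s1 : ∑ α ∈ R χ, ‖classInner f α‖ ^ 2 = (classInner χ χ).re := by linarith
  have s2 : (classInner (g - ∑ β ∈ R φ, classInner g β • β)
      (g - ∑ β ∈ R φ, classInner g β • β)).re = 0 := by linarith
  have s3 : g = ∑ β ∈ R φ, classInner g β • β := sub_eq_zero.1 (eq_zero_of_re s2)
  refine ⟨X, rfl, ?_, ?_, p1, ⟨fun β => - classInner g β, ?_⟩⟩
  · rw [hX]
    refine isGen_sum _ _ fun α hα => ?_
    obtain ⟨n, hn⟩ := IsGen.inner_int hfg (hS.virtual χ hχ α hα)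
    rw [hn, ← zs_eq]
    exact isGen_zsmul (hS.virtual χ hχ α hα) _
  · have t1 : classInner (f - X) X = 0 := by
      conv_lhs => arg 2; rw [hX]
      exact inner_span_zero _ p1
    have t2 : classInner X (f - X) = 0 := inner_symm_zero t1
    have t3 : (classInner f f).re = (classInner X X).re + (classInner (f - X) (f - X)).re := by
      have : f = X + (f - X) := by abel
      conv_lhs => rw [this]
      rw [classInner_add_left, classInner_add_right, classInner_add_right, t1, t2, ← Complex.add_re]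
      congr 1; ring
    rw [self_eq_re X, self_eq_re χ]
    congr 1
    rw [hgg] at t3
    linarith
  · rw [show f - X = -g from by rw [hg, neg_sub]]
    conv_lhs => rw [s3]
    rw [← Finset.sum_neg_distrib]
    exact Finset.sum_congr rfl fun β _ => by rw [neg_smul]

/-- Peterfalvi (5.7) -/
theorem CS.same_degree (hS : IsCoherenceSystem S τ R) (hdeg : ∀ φ ∈ S, ∀ ψ ∈ S, φ 1 = ψ 1) :
    IsCoherent S {1}ᶜ τ := by
  classical
  obtain ⟨χ, hχ⟩ := hS.nonempty
  have hreal : conj (classInner χ χ) = classInner χ χ := classInner_conj_symm χ χ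
  have hχc := hS.conj_mem χ hχ
  suffices hX : ∃ X : G → ℂ, IsGeneralizedCharacter G X ∧ classInner X X = classInner χ χ ∧
      ∀ φ ∈ S, φ ≠ χ → classInner (τ (χ - φ)) X = classInner χ χ by
    obtain ⟨X, h1, h2, h3⟩ := hX
    refine coh_base (χ₁ := χ) hS.orthogonal (fun φ hφ => CS.ne0 hS hφ) hS.isometry hχ
      (CS.one_pos hS hχ) (fun _ => 1) rfl (fun φ hφ => ?_) h1 h2 (fun φ hφ hne => ?_) ?_
    · rw [Int.cast_one, one_mul]; exact hdeg φ hφ χ hχ
    · rw [one_zsmul, h3 φ hφ hne, Int.cast_one, one_mul]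
    · exact ⟨χ - Cfsg.conjFun χ, CS.sub_mem hS hχ, fun h => hS.conj_ne χ hχ (sub_eq_zero.1 h).symm⟩
  have hRR : classInner (τ (χ - Cfsg.conjFun χ)) (τ (χ - Cfsg.conjFun χ)) = 2 * classInner χ χ := by
    rw [hS.isometry.2.2.1 _ (CS.sub_mem hS hχ) _ (CS.sub_mem hS hχ), classInner_sub_left,
      CS.inner_sub hS hχ, classInner_sub_right, CS.conj_orth' hS hχ, CS.conj_self]
    ring
  by_cases hcase : ∀ φ ∈ S, φ = χ ∨ φ = Cfsg.conjFun χ
  · -- half of `R χ`
    obtain ⟨m, hm⟩ := IsGen.inner_int (hS.isometry.2.2.2 _ (CS.sub_mem hS hχ))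
      (hS.isometry.2.2.2 _ (CS.sub_mem hS hχ))
    have hg : IsGeneralizedCharacter L χ := by
      refine ⟨χ, 0, hS.isCharacter χ hχ, isCharacter_zero, by simp⟩
    obtain ⟨n, hn⟩ := IsGen.inner_int hg hg
    have hn0 : 0 ≤ n := by
      have := self_re_nonneg χ
      rw [hn, Complex.intCast_re] at this
      exact_mod_cast this
    have hcardR : ((R χ).card : ℂ) = 2 * classInner χ χ := by
      rw [← hRR, hS.sum_eq χ hχ, classInner_sum_left]
      have : ∀ α ∈ R χ, classInner α (∑ β ∈ R χ, β) = 1 := by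
        intro α hα
        rw [classInner_sum_right, Finset.sum_eq_single α]
        · exact CS.R_self hS hχ hα
        · intro β hβ hne; exact CS.R_orth hS hχ α hα β hβ (Ne.symm hne)
        · intro h; exact absurd hα h
      rw [Finset.sum_congr rfl this]; simp
    have hcard' : ((R χ).card : ℤ) = 2 * n := by
      rw [hn] at hcardR
      exact_mod_cast hcardR
    obtain ⟨T, hT, hTc⟩ := Finset.exists_subset_card_eq (s := R χ) (n := n.toNat) (by omega)
    have hTi : ∀ α ∈ T, classInner (∑ β ∈ T, β) α = 1 := by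
      intro α hα
      rw [classInner_sum_left, Finset.sum_eq_single α]
      · exact CS.R_self hS hχ (hT hα)
      · intro β hβ hne; exact CS.R_orth hS hχ β (hT hβ) α (hT hα) hne
      · intro h; exact absurd hα h
    have hRi : ∀ α ∈ T, classInner (∑ β ∈ R χ, β) α = 1 := by
      intro α hα
      rw [classInner_sum_left, Finset.sum_eq_single α]
      · exact CS.R_self hS hχ (hT hα)
      · intro β hβ hne; exact CS.R_orth hS hχ β hβ α (hT hα) hne
      · intro h; exact absurd (hT hα) h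
    have hTn : (T.card : ℂ) = classInner χ χ := by
      rw [hTc, hn]
      have : ((n.toNat : ℤ) : ℂ) = n := by rw [Int.toNat_of_nonneg hn0]
      exact_mod_cast this
    refine ⟨∑ β ∈ T, β, isGen_sum _ _ (fun β hβ => hS.virtual χ hχ β (hT hβ)), ?_, ?_⟩
    · rw [classInner_sum_right, Finset.sum_congr rfl hTi]
      simp [hTn]
    · intro φ hφ hne
      rcases hcase φ hφ with h | h
      · exact absurd h hne
      · rw [h, hS.sum_eq χ hχ, classInner_sum_right, Finset.sum_congr rfl hRi]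
        simp [hTn]
  · push Not at hcase
    obtain ⟨φ, hφ, hne1, hne2⟩ := hcase
    obtain ⟨X, hXd, hXg, hXX, hXo, c, hc⟩ := CS.decomp hS hdeg hχ hφ hne1 hne2
    have o3 : classInner χ φ = 0 := hS.orthogonal χ hχ φ hφ (Ne.symm hne1)
    have o4 : classInner χ (Cfsg.conjFun φ) = 0 := by
      refine hS.orthogonal χ hχ _ (hS.conj_mem φ hφ) (fun h => hne2 ?_)
      rw [h, conjFun_conjFun]
    have hXo' : classInner (τ (χ - φ) - X) X = 0 := by
      have := inner_span_zero (fun α => classInner (τ (χ - φ)) α) hXo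
      rw [← hXd] at this
      exact this
    -- anything orthogonal to `R φ`... 
    have hXφ : ∀ β ∈ R φ, classInner β X = 0 := by
      intro β hβ
      rw [hXd]
      exact inner_span_zero _ fun α hα => hS.disjoint χ hχ φ hφ (inner_symm_zero o3) (by
        refine hS.orthogonal φ hφ _ (hS.conj_mem χ hχ) hne2) β hβ α hα
    have hXf : classInner (τ (χ - φ)) X = classInner χ χ := by
      rw [classInner_sub_left, hXX] at hXo'
      exact sub_eq_zero.1 hXo'
    refine ⟨X, hXg, hXX, fun ψ hψ hneψ => ?_⟩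
    by_cases e1 : ψ = Cfsg.conjFun χ
    · rw [e1, ← hreal, ← classInner_conj_symm, hS.sum_eq χ hχ]
      congr 1
      have h4 : classInner (τ (χ - φ) - X) (∑ α ∈ R χ, α) = 0 := by
        rw [classInner_sum_right]
        exact Finset.sum_eq_zero hXo
      rw [classInner_sub_left, sub_eq_zero] at h4
      rw [← h4, ← hS.sum_eq χ hχ, hS.isometry.2.2.1 _ (CS.sub_mem_of_deg hdeg hχ hφ) _ (CS.sub_mem hS hχ),
        classInner_sub_left, CS.inner_sub hS hχ, classInner_sub_right, inner_symm_zero o3,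
        hS.orthogonal φ hφ _ (hS.conj_mem χ hχ) hne2, sub_zero, sub_zero]
    by_cases e2 : ψ = φ
    · rw [e2]; exact hXf
    by_cases e3 : ψ = Cfsg.conjFun φ
    · have h5 : χ - ψ = (χ - φ) + (φ - Cfsg.conjFun φ) := by rw [e3]; abel
      rw [h5, hS.isometry.1 _ (CS.sub_mem_of_deg hdeg hχ hφ) _ (CS.sub_mem hS hφ),
        classInner_add_left, hXf, hS.sum_eq φ hφ, classInner_sum_left,
        Finset.sum_eq_zero hXφ, add_zero]
    · obtain ⟨X', hXd', hXg', hXX', hXo'', c', hc'⟩ := CS.decomp hS hdeg hχ hψ hneψ e1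
      have p1 : classInner φ ψ = 0 := hS.orthogonal φ hφ ψ hψ (Ne.symm e2)
      have p2 : classInner φ (Cfsg.conjFun ψ) = 0 := by
        refine hS.orthogonal φ hφ _ (hS.conj_mem ψ hψ) (fun h => e3 ?_)
        rw [h, conjFun_conjFun]
      have p3 : classInner χ ψ = 0 := hS.orthogonal χ hχ ψ hψ (Ne.symm hneψ)
      have p4 : classInner ψ φ = 0 := inner_symm_zero p1
      -- `τ (χ - ψ)` is orthogonal to `R φ`
      have h6 : ∀ β ∈ R φ, classInner (τ (χ - ψ)) β = 0 := by
        intro β hβ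
        apply inner_symm_zero
        have h7 : τ (χ - ψ) = X' + (τ (χ - ψ) - X') := by abel
        rw [h7, classInner_add_right, hc', hXd',
          inner_span_zero _ (fun α hα => hS.disjoint χ hχ φ hφ (inner_symm_zero o3)
            (hS.orthogonal φ hφ _ (hS.conj_mem χ hχ) hne2) β hβ α hα),
          inner_span_zero _ (fun α hα => hS.disjoint ψ hψ φ hφ p1 p2 β hβ α hα), add_zero]
      have h8 : classInner (τ (χ - ψ)) (τ (χ - φ) - X) = 0 := by
        rw [hc]; exact inner_span_zero _ h6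
      rw [classInner_sub_right, sub_eq_zero] at h8
      rw [← h8, hS.isometry.2.2.1 _ (CS.sub_mem_of_deg hdeg hχ hψ) _ (CS.sub_mem_of_deg hdeg hχ hφ),
        classInner_sub_left, classInner_sub_right, classInner_sub_right, o3, p4,
        inner_symm_zero p3]
      ring

end CS

end CfsgH4
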