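import Cfsg.Agent.H4.Coh4

/-!
# Coherence, V: irreducible characters (Feit)
-/

set_option autoImplicit false
open Cfsg ComplexConjugate

namespace CfsgH4

section Irr

variable {N : Type*} [Group N] [Fintype N] {G : Type*} [Group G] [Fintype G]

theorem orth_irr {S : Set (N → ℂ)} (hirr : ∀ ξ ∈ S, IsIrrCharacter N ξ) :
    ∀ χ ∈ S, ∀ φ ∈ S, χ ≠ φ → classInner χ φ = 0 :=
  fun χ hχ φ hφ h => classInner_irr_ne (hirr χ hχ) (hirr φ hφ) h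

theorem irr_ne0 {χ : N → ℂ} (h : IsIrrCharacter N χ) : χ ≠ 0 := by
  intro h0; apply IsIrr.one_ne_zero h; rw [h0]; rfl

/-- extending coherence by one irreducible character -/
theorem coh_insert (S₀ : Finset (N → ℂ)) (χ : N → ℂ)
    (hirr : ∀ ξ ∈ S₀, IsIrrCharacter N ξ) (hχ : IsIrrCharacter N χ) (hχS : χ ∉ S₀)
    (d : (N → ℂ) → ℕ) (hd : ∀ ξ, ξ = χ ∨ ξ ∈ S₀ → ξ 1 = (d ξ : ℂ)) (τ : (N → ℂ) → (G → ℂ))
    (hτ : IsLinearIsometryOn (zspanOn (insert χ (↑S₀ : Set (N → ℂ))) {1}ᶜ) τ)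
    (hτ1 : ∀ α ∈ zspanOn (insert χ (↑S₀ : Set (N → ℂ))) {1}ᶜ, τ α 1 = 0)
    (hcoh : IsCoherent (↑S₀ : Set (N → ℂ)) {1}ᶜ τ) (ψ : N → ℂ) (hψ : ψ ∈ S₀)
    (hdvd : d ψ ∣ d χ) (hlt : 2 * d ψ * d χ < ∑ ξ ∈ S₀, d ξ ^ 2) :
    IsCoherent (insert χ (↑S₀ : Set (N → ℂ))) {1}ᶜ τ := by
  classical
  obtain ⟨⟨α₀, hα₀, hα₀0⟩, τ₁, h1, h2⟩ := hcoh
  obtain ⟨a, ha⟩ := hdvd
  have hsub : (↑S₀ : Set (N → ℂ)) ⊆ insert χ (↑S₀ : Set (N → ℂ)) := Set.subset_insert _ _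
  have hdpos : ∀ ξ ∈ S₀, (0 : ℝ) < d ξ := by
    intro ξ hξ
    have h3 := IsIrr.one_ne_zero (hirr ξ hξ)
    rw [hd ξ (Or.inr hξ)] at h3
    have : d ξ ≠ 0 := fun h => h3 (by rw [h]; simp)
    exact_mod_cast Nat.pos_of_ne_zero this
  have hdψ := hdpos ψ hψ
  have hdχ : (0 : ℝ) < d χ := by
    have h3 := IsIrr.one_ne_zero hχ
    rw [hd χ (Or.inl rfl)] at h3
    have : d χ ≠ 0 := fun h => h3 (by rw [h]; simp)
    exact_mod_cast Nat.pos_of_ne_zero this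
  have hapos : (0 : ℝ) < a := by
    rcases Nat.eq_zero_or_pos a with h | h
    · rw [ha, h] at hdχ; simp at hdχ
    · exact_mod_cast h
  have hτ₁g : ∀ φ ∈ S₀, IsGeneralizedCharacter G (τ₁ φ) := fun φ hφ => h1.2.2.2 φ (zspan_self hφ)
  have hin : ∀ φ ∈ S₀, ∀ ξ ∈ S₀, classInner φ ξ = if φ = ξ then 1 else 0 := fun φ hφ ξ hξ =>
    classInner_irr (hirr φ hφ) (hirr ξ hξ)
  have hτ₁i : ∀ φ ∈ S₀, ∀ ξ ∈ S₀, classInner (τ₁ φ) (τ₁ ξ) = if φ = ξ then 1 else 0 :=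
    fun φ hφ ξ hξ => by rw [h1.2.2.1 φ (zspan_self hφ) ξ (zspan_self hξ), hin φ hφ ξ hξ]
  have hsgn : ∀ φ ∈ S₀, IsSgn (τ₁ φ) := fun φ hφ => isSgn_of_norm_one (hτ₁g φ hφ) (by
    rw [hτ₁i φ hφ φ hφ, if_pos rfl])
  have hχφ : ∀ φ ∈ S₀, classInner χ φ = 0 := fun φ hφ =>
    classInner_irr_ne hχ (hirr φ hφ) (fun h => hχS (h ▸ hφ))
  have hφχ : ∀ φ ∈ S₀, classInner φ χ = 0 := fun φ hφ => inner_symm_zero (hχφ φ hφ)
  -- the element `f`
  have hβ : χ - (a : ℤ) • ψ ∈ zspanOn (insert χ (↑S₀ : Set (N → ℂ))) {1}ᶜ := by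
    rw [mem_zspanOn]
    refine ⟨zspan_sub (zspan_self (Or.inl rfl)) (zspan_smul _ (zspan_self (Or.inr hψ))), ?_⟩
    rw [Pi.sub_apply, nat_zsmul, hd χ (Or.inl rfl), hd ψ (Or.inr hψ), ha]
    push_cast; ring
  set f := τ (χ - (a : ℤ) • ψ) with hf
  have hfg : IsGeneralizedCharacter G f := hτ.2.2.2 _ hβ
  have hff : classInner f f = 1 + (a : ℂ) ^ 2 := by
    rw [hf, hτ.2.2.1 _ hβ _ hβ, zs_eq, classInner_sub_left, classInner_sub_right,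
      classInner_sub_right, classInner_smul_left, classInner_smul_left, classInner_smul_right,
      classInner_smul_right, conj_int, classInner_irr_self hχ, hin ψ hψ ψ hψ, if_pos rfl,
      hχφ ψ hψ, hφχ ψ hψ]
    push_cast; ring
  have hz : ∀ φ ∈ S₀, ∃ z : ℤ, classInner f (τ₁ φ) = z := fun φ hφ => IsGen.inner_int hfg (hτ₁g φ hφ)
  choose! z hz using hz
  set c : ℤ := z ψ + a with hc
  have hzc : ∀ φ ∈ S₀, (d ψ : ℤ) * z φ = c * d φ - (if φ = ψ then (a : ℤ) * d ψ else 0) := by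
    intro φ hφ
    have hγ : (d ψ : ℤ) • φ - (d φ : ℤ) • ψ ∈ zspanOn (↑S₀ : Set (N → ℂ)) {1}ᶜ := by
      rw [mem_zspanOn]
      refine ⟨zspan_sub (zspan_smul _ (zspan_self hφ)) (zspan_smul _ (zspan_self hψ)), ?_⟩
      rw [Pi.sub_apply, nat_zsmul, nat_zsmul, hd φ (Or.inr hφ), hd ψ (Or.inr hψ)]
      ring
    have e1 : classInner f (τ ((d ψ : ℤ) • φ - (d φ : ℤ) • ψ)) =
        (d ψ : ℂ) * z φ - (d φ : ℂ) * z ψ := by
      rw [← h2 _ hγ, iso_sub' h1 (zspan_smul _ (zspan_self hφ)) (zspan_smul _ (zspan_self hψ)),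
        h1.2.1 φ (zspan_self hφ), h1.2.1 ψ (zspan_self hψ), zs_eq, zs_eq, classInner_sub_right,
        classInner_smul_right, classInner_smul_right, conj_int, conj_int, hz φ hφ, hz ψ hψ]
      push_cast; ring
    have e2 : classInner f (τ ((d ψ : ℤ) • φ - (d φ : ℤ) • ψ)) =
        (a : ℂ) * d φ - a * d ψ * classInner ψ φ := by
      rw [hf, hτ.2.2.1 _ hβ _ (zspanOn_mono hsub _ hγ), zs_eq, zs_eq, zs_eq,
        classInner_sub_left, classInner_sub_right, classInner_sub_right, classInner_smul_left,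
        classInner_smul_left, classInner_smul_right, classInner_smul_right, classInner_smul_right,
        classInner_smul_right, conj_int, conj_int, hχφ φ hφ, hχφ ψ hψ, hin ψ hψ ψ hψ, if_pos rfl]
      push_cast; ring
    have e3 : ((d ψ : ℤ) * z φ - (d φ : ℤ) * z ψ : ℤ) = (a : ℤ) * d φ -
        (if φ = ψ then (a : ℤ) * d ψ else 0) := by
      have e4 := e1.symm.trans e2
      rw [hin ψ hψ φ hφ] at e4
      by_cases h : φ = ψ
      · rw [if_pos h]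
        rw [if_pos h.symm] at e4
        have e5 : (((d ψ : ℤ) * z φ - (d φ : ℤ) * z ψ : ℤ) : ℂ) =
            (((a : ℤ) * d φ - (a : ℤ) * d ψ : ℤ) : ℂ) := by push_cast; rw [e4]; ring
        exact_mod_cast e5
      · rw [if_neg h]
        rw [if_neg (Ne.symm h)] at e4
        have e5 : (((d ψ : ℤ) * z φ - (d φ : ℤ) * z ψ : ℤ) : ℂ) =
            (((a : ℤ) * d φ - 0 : ℤ) : ℂ) := by push_cast; rw [e4]; ring
        exact_mod_cast e5
    rw [hc]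
    linear_combination e3
  -- Bessel
  have hτne : ∀ φ ∈ S₀, τ₁ φ ≠ 0 := by
    intro φ hφ h
    have h3 := hτ₁i φ hφ φ hφ
    rw [h, classInner_zero_left, if_pos rfl] at h3
    exact zero_ne_one h3
  have hB := bessel S₀ τ₁ (fun φ hφ ξ hξ h => by rw [hτ₁i φ hφ ξ hξ, if_neg h]) hτne f
  set P := ∑ j ∈ S₀, (classInner f (τ₁ j) / classInner (τ₁ j) (τ₁ j)) • τ₁ j with hP
  obtain ⟨hB1, hB2⟩ := hB
  have hPz : P = ∑ j ∈ S₀, z j • τ₁ j := by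
    rw [hP]
    refine Finset.sum_congr rfl fun j hj => ?_
    rw [hτ₁i j hj j hj, if_pos rfl, div_one, hz j hj, ← zs_eq]
  have hfPg : IsGeneralizedCharacter G (f - P) := by
    rw [hPz]
    exact isGen_sub hfg (isGen_sum _ _ fun φ hφ => isGen_zsmul (hτ₁g φ hφ) _)
  set Sg : ℝ := ∑ φ ∈ S₀, (d φ : ℝ) ^ 2 with hSg
  have hlt' : 2 * (a : ℝ) * (d ψ : ℝ) ^ 2 < Sg := by
    have h3 : ((2 * d ψ * d χ : ℕ) : ℝ) < ((∑ ξ ∈ S₀, d ξ ^ 2 : ℕ) : ℝ) := by exact_mod_cast hlt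
    rw [ha] at h3
    push_cast at h3
    rw [hSg]
    linarith
  have hquad : ∑ φ ∈ S₀, ‖classInner f (τ₁ φ)‖ ^ 2 / (classInner (τ₁ φ) (τ₁ φ)).re =
      (c : ℝ) ^ 2 / (d ψ : ℝ) ^ 2 * Sg - 2 * a * c + (a : ℝ) ^ 2 := by
    have e1 : ∀ φ ∈ S₀, ‖classInner f (τ₁ φ)‖ ^ 2 / (classInner (τ₁ φ) (τ₁ φ)).re =
        (c : ℝ) ^ 2 / (d ψ : ℝ) ^ 2 * (d φ : ℝ) ^ 2 +
          (if φ = ψ then - 2 * (a : ℝ) * c + (a : ℝ) ^ 2 else 0) := by
      intro φ hφ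
      rw [hτ₁i φ hφ φ hφ, if_pos rfl, hz φ hφ, Complex.norm_intCast, sq_abs, Complex.one_re, div_one]
      have e2 := hzc φ hφ
      have e3 : (z φ : ℝ) = (c * d φ - (if φ = ψ then (a : ℝ) * d ψ else 0)) / d ψ := by
        rw [eq_div_iff hdψ.ne']
        have e4 : (((d ψ : ℤ) * z φ : ℤ) : ℝ) =
          ((c * d φ - (if φ = ψ then (a : ℤ) * d ψ else 0) : ℤ) : ℝ) := by rw [e2]
        push_cast at e4
        linear_combination e4
      rw [e3]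
      by_cases h : φ = ψ
      · rw [if_pos h, if_pos h, h]
        field_simp
        ring
      · rw [if_neg h, if_neg h]
        field_simp
        ring
    rw [Finset.sum_congr rfl e1, Finset.sum_add_distrib, ← Finset.mul_sum, Finset.sum_ite_eq' S₀ ψ,
      if_pos hψ]
    ring
  have hffr : (classInner f f).re = 1 + (a : ℝ) ^ 2 := by
    rw [hff]
    have : (1 + (a : ℂ) ^ 2 : ℂ) = ((1 + (a : ℝ) ^ 2 : ℝ) : ℂ) := by push_cast; ring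
    rw [this, Complex.ofReal_re]
  rw [hffr, hquad] at hB2
  -- values at one
  have hone : ∀ φ ∈ S₀, (d ψ : ℂ) * τ₁ φ 1 = (d φ : ℂ) * τ₁ ψ 1 := by
    intro φ hφ
    have hγ : (d ψ : ℤ) • φ - (d φ : ℤ) • ψ ∈ zspanOn (↑S₀ : Set (N → ℂ)) {1}ᶜ := by
      rw [mem_zspanOn]
      refine ⟨zspan_sub (zspan_smul _ (zspan_self hφ)) (zspan_smul _ (zspan_self hψ)), ?_⟩
      rw [Pi.sub_apply, nat_zsmul, nat_zsmul, hd φ (Or.inr hφ), hd ψ (Or.inr hψ)]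
      ring
    have h3 := hτ1 _ (zspanOn_mono hsub _ hγ)
    rw [← h2 _ hγ, iso_sub' h1 (zspan_smul _ (zspan_self hφ)) (zspan_smul _ (zspan_self hψ)),
      h1.2.1 φ (zspan_self hφ), h1.2.1 ψ (zspan_self hψ), Pi.sub_apply, nat_zsmul, nat_zsmul] at h3
    exact sub_eq_zero.1 h3
  have hψ1 : τ₁ ψ 1 ≠ 0 := (hsgn ψ hψ).one_ne
  have hc0 : c = 0 := by
    by_contra hcne
    have hcc : (c : ℝ) ≤ (c : ℝ) ^ 2 ∧ (1 : ℝ) ≤ (c : ℝ) ^ 2 := by
      have : c ≤ c ^ 2 ∧ 1 ≤ c ^ 2 := by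
        rcases lt_or_gt_of_ne hcne with h | h
        · exact ⟨by nlinarith [sq_nonneg c], by nlinarith⟩
        · exact ⟨by nlinarith, by nlinarith⟩
      exact_mod_cast this
    have k4 : 2 * (a : ℝ) * (c : ℝ) ^ 2 < (c : ℝ) ^ 2 / (d ψ : ℝ) ^ 2 * Sg := by
      have e0 : 2 * (a : ℝ) * (c : ℝ) ^ 2 = (c : ℝ) ^ 2 / (d ψ : ℝ) ^ 2 * (2 * (a : ℝ) * (d ψ : ℝ) ^ 2) := by
        field_simp
      rw [e0]
      exact mul_lt_mul_of_pos_left hlt' (by positivity)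
    have k5 : (0 : ℝ) ≤ (a : ℝ) * ((c : ℝ) ^ 2 - c) := mul_nonneg hapos.le (by linarith [hcc.1])
    have k6 := self_re_nonneg (f - P)
    have k7 : (classInner (f - P) (f - P)).re < 1 := by nlinarith
    -- integrality
    obtain ⟨m, hm⟩ := IsGen.inner_int hfPg hfPg
    have k8 : f - P = 0 := by
      apply eq_zero_of_re
      rw [hm, Complex.intCast_re] at k6 k7 ⊢
      have k9 : (0 : ℤ) ≤ m := by exact_mod_cast k6
      have k10 : m < 1 := by exact_mod_cast k7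
      have : m = 0 := by omega
      rw [this]; simp
    have k9 : f = P := sub_eq_zero.1 k8
    have k10 : f 1 = 0 := hτ1 _ hβ
    rw [k9, hPz, Finset.sum_apply] at k10
    have k11 : ∑ φ ∈ S₀, (d ψ : ℂ) ^ 2 * (z φ • τ₁ φ) 1 = ((c : ℂ) * ∑ φ ∈ S₀, (d φ : ℂ) ^ 2 -
        a * (d ψ : ℂ) ^ 2) * τ₁ ψ 1 := by
      have e1 : ∀ φ ∈ S₀, (d ψ : ℂ) ^ 2 * (z φ • τ₁ φ) 1 = (c : ℂ) * (d φ : ℂ) ^ 2 * τ₁ ψ 1 -
          (if φ = ψ then a * (d ψ : ℂ) ^ 2 * τ₁ ψ 1 else 0) := by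
        intro φ hφ
        rw [zs_apply]
        have e2 : (((d ψ : ℤ) * z φ : ℤ) : ℂ) = ((c * d φ - (if φ = ψ then (a : ℤ) * d ψ else 0) : ℤ) : ℂ) := by
          rw [hzc φ hφ]
        have e3 := hone φ hφ
        by_cases h : φ = ψ
        · rw [if_pos h] at e2 ⊢
          push_cast at e2
          rw [h] at e2 ⊢
          linear_combination (d ψ : ℂ) * τ₁ ψ 1 * e2
        · rw [if_neg h] at e2 ⊢
          push_cast at e2
          linear_combination (d ψ : ℂ) * τ₁ φ 1 * e2 + (c : ℂ) * d φ * e3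
      rw [Finset.sum_congr rfl e1, Finset.sum_sub_distrib, Finset.sum_ite_eq' S₀ ψ, if_pos hψ,
        Finset.mul_sum, sub_mul, Finset.sum_mul]
    rw [← Finset.mul_sum, k10, mul_zero] at k11
    have k12 := (mul_eq_zero.1 k11.symm).resolve_right hψ1
    have k13 : (c : ℝ) * Sg = a * (d ψ : ℝ) ^ 2 := by
      have : (c : ℂ) * ∑ φ ∈ S₀, (d φ : ℂ) ^ 2 = a * (d ψ : ℂ) ^ 2 := sub_eq_zero.1 k12
      rw [hSg]
      exact_mod_cast this
    have k14 : (0 : ℝ) < a * (d ψ : ℝ) ^ 2 := by positivity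
    have hSgpos : 0 < Sg := by nlinarith
    have hcpos : (0 : ℝ) < c := by
      by_contra hcn
      push Not at hcn
      have := mul_nonneg (neg_nonneg.2 hcn) hSgpos.le
      linarith
    have hc1 : (1 : ℝ) ≤ c := by
      have : (0 : ℤ) < c := by exact_mod_cast hcpos
      exact_mod_cast this
    nlinarith
  have hzφ : ∀ φ ∈ S₀, z φ = if φ = ψ then -(a : ℤ) else 0 := by
    intro φ hφ
    have h3 := hzc φ hφ
    rw [hc0, zero_mul, zero_sub] at h3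
    have hd1z : (d ψ : ℤ) ≠ 0 := by exact_mod_cast hdψ.ne'
    apply mul_left_cancel₀ hd1z
    rw [h3]
    split_ifs <;> ring
  have hPe : P = - ((a : ℤ) • τ₁ ψ) := by
    rw [hPz, Finset.sum_eq_single ψ]
    · rw [hzφ ψ hψ, if_pos rfl, neg_smul]
    · intro φ hφ hne
      rw [hzφ φ hφ, if_neg hne, zero_smul]
    · intro h; exact absurd hψ h
  set X := f - P with hX
  have hXf : X = f + (a : ℤ) • τ₁ ψ := by rw [hX, hPe, sub_neg_eq_add]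
  have hXX : classInner X X = 1 := by
    rw [hc0] at hB2
    push_cast at hB2
    have e0 : (0 : ℝ) ^ 2 / (d ψ : ℝ) ^ 2 * Sg = 0 := by simp
    rw [self_eq_re, show (classInner X X).re = 1 from by linarith, Complex.ofReal_one]
  clear_value X
  have hXτ : ∀ φ ∈ S₀, classInner X (τ₁ φ) = 0 := hB1
  have hτX : ∀ φ ∈ S₀, classInner (τ₁ φ) X = 0 := fun φ hφ => inner_symm_zero (hXτ φ hφ)
  set F : (N → ℂ) → (G → ℂ) := fun φ => if φ = χ then X else τ₁ φ with hF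
  have F1 : F χ = X := by simp only [hF, if_true]
  have F3 : ∀ φ ∈ S₀, F φ = τ₁ φ := by
    intro φ hφ
    simp only [hF]
    rw [if_neg (fun h : φ = χ => hχS (h ▸ hφ))]
  have hirr' : ∀ φ ∈ insert χ (↑S₀ : Set (N → ℂ)), IsIrrCharacter N φ := by
    rintro φ (h | h)
    · rw [h]; exact hχ
    · exact hirr φ h
  obtain ⟨τ₂, g1, g2, g3, g4⟩ := exists_iso_of_values (S := insert χ (↑S₀ : Set (N → ℂ)))
    (F := F) (orth_irr hirr') (fun φ hφ => irr_ne0 (hirr' φ hφ)) (by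
      rintro φ (h | h)
      · rw [h, F1]; exact hfPg
      · rw [F3 φ h]; exact hτ₁g φ h)
    (by
      rintro φ (h | h) ξ (k | k)
      · rw [h, k, F1, hXX, classInner_irr_self hχ]
      · rw [h, F1, F3 ξ k, hXτ ξ k, hχφ ξ k]
      · rw [k, F1, F3 φ h, hτX φ h, hφχ φ h]
      · rw [F3 φ h, F3 ξ k, hτ₁i φ h ξ k, hin φ h ξ k])
  refine ⟨⟨α₀, zspanOn_mono hsub _ hα₀, hα₀0⟩, τ₂, g1, ?_⟩
  intro α hα
  rw [mem_zspanOn] at hα
  obtain ⟨m1, m2⟩ := hα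
  obtain ⟨k, α₁, hα₁, rfl⟩ := Submodule.mem_span_insert.1 m1
  have q1 : ∀ α ∈ zspan (↑S₀ : Set (N → ℂ)), τ₁ α = τ₂ α := by
    apply iso_ext_on h1 (iso_mono g1 (zspan_mono hsub))
    intro φ hφ
    rw [g2 φ (Or.inr hφ), F3 φ hφ]
  have hγ : α₁ + (k * a : ℤ) • ψ ∈ zspanOn (↑S₀ : Set (N → ℂ)) {1}ᶜ := by
    rw [mem_zspanOn]
    refine ⟨zspan_add hα₁ (zspan_smul _ (zspan_self hψ)), ?_⟩
    rw [Pi.add_apply, zs_apply, hd χ (Or.inl rfl), ha] at m2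
    rw [Pi.add_apply, zs_apply, hd ψ (Or.inr hψ)]
    push_cast at m2 ⊢
    linear_combination m2
  have q2 : k • χ + α₁ = (α₁ + (k * a : ℤ) • ψ) + k • (χ - (a : ℤ) • ψ) := by
    ext x
    simp only [Pi.add_apply, Pi.sub_apply, zs_apply]
    push_cast; ring
  have hm1 := zspanOn_mono hsub {1}ᶜ hγ
  have hm2 := zspanOn_smul k hβ
  have lhs : τ₂ (k • χ + α₁) = k • X + τ₁ α₁ := by
    rw [g3, zs_eq, g4, g2 χ (Or.inl rfl), F1, q1 α₁ hα₁, zs_eq]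
  rw [lhs, q2, hτ.1 _ hm1 _ hm2, hτ.2.1 _ hβ, ← h2 _ hγ,
    h1.1 _ hα₁ _ (zspan_smul _ (zspan_self hψ)), h1.2.1 _ (zspan_self hψ), ← hf, hXf]
  ext x
  simp only [Pi.add_apply, zs_apply]
  push_cast; ring

end Irr

end CfsgH4
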