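import Cfsg.Agent.H4.Coh5

/-!
# Coherence, VI: unions
-/

set_option autoImplicit false
open Cfsg ComplexConjugate

namespace CfsgH4

section Irr

variable {N : Type*} [Group N] [Fintype N] {G : Type*} [Group G] [Fintype G]

theorem irr_deg {χ : N → ℂ} (h : IsIrrCharacter N χ) : ∃ d : ℕ, 0 < d ∧ χ 1 = d := by
  obtain ⟨n, hn⟩ := IsCharacter.one_nat (IsIrr.isCharacter h)
  refine ⟨n, ?_, hn⟩
  rcases Nat.eq_zero_or_pos n with h0 | h0
  · exact absurd (by rw [hn, h0]; simp) (IsIrr.one_ne_zero h)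
  · exact h0

theorem coh_union_orth (S X Y : Set (N → ℂ)) (hirr : ∀ ξ ∈ S, IsIrrCharacter N ξ)
    (hXS : X ⊆ S) (hYS : Y ⊆ S) (hXY : Disjoint X Y) (hX2 : ∃ a ∈ X, ∃ b ∈ X, a ≠ b)
    (hY2 : ∃ a ∈ Y, ∃ b ∈ Y, a ≠ b) (α : (N → ℂ) → (G → ℂ))
    (hα : IsLinearIsometryOn (zspanOn S {1}ᶜ) α) (hα1 : ∀ θ ∈ zspanOn S {1}ᶜ, α θ 1 = 0)
    (σ τ : (N → ℂ) → (G → ℂ)) (hσ : IsLinearIsometryOn (zspan X) σ)
    (hσα : ∀ θ ∈ zspanOn X {1}ᶜ, σ θ = α θ) (hτ : IsLinearIsometryOn (zspan Y) τ)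
    (hτα : ∀ θ ∈ zspanOn Y {1}ᶜ, τ θ = α θ) : ∀ χ ∈ X, ∀ η ∈ Y, classInner (σ χ) (τ η) = 0 := by
  classical
  intro χ hχ η hη
  obtain ⟨χ', hχ', hne⟩ : ∃ χ' ∈ X, χ' ≠ χ := by
    obtain ⟨a, ha, b, hb, hab⟩ := hX2
    by_cases h : a = χ
    · exact ⟨b, hb, fun h' => hab (h.trans h'.symm)⟩
    · exact ⟨a, ha, h⟩
  obtain ⟨η', hη', hne'⟩ : ∃ η' ∈ Y, η' ≠ η := by
    obtain ⟨a, ha, b, hb, hab⟩ := hY2
    by_cases h : a = η
    · exact ⟨b, hb, fun h' => hab (h.trans h'.symm)⟩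
    · exact ⟨a, ha, h⟩
  have iX : ∀ ξ ∈ X, IsIrrCharacter N ξ := fun ξ h => hirr ξ (hXS h)
  have iY : ∀ ξ ∈ Y, IsIrrCharacter N ξ := fun ξ h => hirr ξ (hYS h)
  have oXY : ∀ ξ ∈ X, ∀ ζ ∈ Y, classInner ξ ζ = 0 := fun ξ hξ ζ hζ =>
    classInner_irr_ne (iX ξ hξ) (iY ζ hζ) (fun h => (Set.disjoint_left.1 hXY hξ) (h ▸ hζ))
  obtain ⟨a, ha, hae⟩ := irr_deg (iX χ hχ)
  obtain ⟨a', ha', hae'⟩ := irr_deg (iX χ' hχ')
  obtain ⟨b, hb, hbe⟩ := irr_deg (iY η hη)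
  obtain ⟨b', hb', hbe'⟩ := irr_deg (iY η' hη')
  have sX : ∀ ξ ∈ X, IsSgn (σ ξ) := fun ξ hξ => isSgn_of_norm_one (hσ.2.2.2 ξ (zspan_self hξ)) (by
    rw [hσ.2.2.1 ξ (zspan_self hξ) ξ (zspan_self hξ), classInner_irr_self (iX ξ hξ)])
  have sY : ∀ ξ ∈ Y, IsSgn (τ ξ) := fun ξ hξ => isSgn_of_norm_one (hτ.2.2.2 ξ (zspan_self hξ)) (by
    rw [hτ.2.2.1 ξ (zspan_self hξ) ξ (zspan_self hξ), classInner_irr_self (iY ξ hξ)])
  have hγ : (a : ℤ) • χ' - (a' : ℤ) • χ ∈ zspanOn X {1}ᶜ := by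
    rw [mem_zspanOn]
    refine ⟨zspan_sub (zspan_smul _ (zspan_self hχ')) (zspan_smul _ (zspan_self hχ)), ?_⟩
    rw [Pi.sub_apply, nat_zsmul, nat_zsmul, hae, hae']; ring
  have hδ : (b : ℤ) • η' - (b' : ℤ) • η ∈ zspanOn Y {1}ᶜ := by
    rw [mem_zspanOn]
    refine ⟨zspan_sub (zspan_smul _ (zspan_self hη')) (zspan_smul _ (zspan_self hη)), ?_⟩
    rw [Pi.sub_apply, nat_zsmul, nat_zsmul, hbe, hbe']; ring
  have eγ : α ((a : ℤ) • χ' - (a' : ℤ) • χ) = (a : ℂ) • σ χ' - (a' : ℂ) • σ χ := by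
    rw [← hσα _ hγ, iso_sub' hσ (zspan_smul _ (zspan_self hχ')) (zspan_smul _ (zspan_self hχ)),
      hσ.2.1 _ (zspan_self hχ'), hσ.2.1 _ (zspan_self hχ), zs_eq, zs_eq]
    push_cast; rfl
  have eδ : α ((b : ℤ) • η' - (b' : ℤ) • η) = (b : ℂ) • τ η' - (b' : ℂ) • τ η := by
    rw [← hτα _ hδ, iso_sub' hτ (zspan_smul _ (zspan_self hη')) (zspan_smul _ (zspan_self hη)),
      hτ.2.1 _ (zspan_self hη'), hτ.2.1 _ (zspan_self hη), zs_eq, zs_eq]
    push_cast; rfl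
  have h0 : classInner ((a : ℂ) • σ χ' - (a' : ℂ) • σ χ) ((b : ℂ) • τ η' - (b' : ℂ) • τ η) = 0 := by
    rw [← eγ, ← eδ, hα.2.2.1 _ (zspanOn_mono hXS _ hγ) _ (zspanOn_mono hYS _ hδ), zs_eq, zs_eq, zs_eq,
      zs_eq, classInner_sub_left, classInner_sub_right, classInner_sub_right, classInner_smul_left,
      classInner_smul_left, classInner_smul_left, classInner_smul_left, classInner_smul_right,
      classInner_smul_right, classInner_smul_right, classInner_smul_right, oXY χ' hχ' η' hη',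
      oXY χ' hχ' η hη, oXY χ hχ η' hη', oXY χ hχ η hη]
    ring
  have v1 : (a : ℂ) * σ χ' 1 = a' * σ χ 1 := by
    have := hα1 _ (zspanOn_mono hXS _ hγ)
    rw [eγ] at this
    exact sub_eq_zero.1 this
  have v2 : (b : ℂ) * τ η' 1 = b' * τ η 1 := by
    have := hα1 _ (zspanOn_mono hYS _ hδ)
    rw [eδ] at this
    exact sub_eq_zero.1 this
  have nc : ∀ n : ℕ, conj (n : ℂ) = n := fun n => map_natCast _ n
  rw [classInner_sub_left, classInner_sub_right, classInner_sub_right, classInner_smul_left,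
      classInner_smul_left, classInner_smul_left, classInner_smul_left, classInner_smul_right,
      classInner_smul_right, classInner_smul_right, classInner_smul_right, nc, nc] at h0
  have o1 : classInner (σ χ') (σ χ) = 0 := by
    rw [hσ.2.2.1 _ (zspan_self hχ') _ (zspan_self hχ), classInner_irr_ne (iX χ' hχ') (iX χ hχ) hne]
  have o2 : classInner (τ η') (τ η) = 0 := by
    rw [hτ.2.2.1 _ (zspan_self hη') _ (zspan_self hη), classInner_irr_ne (iY η' hη') (iY η hη) hne']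
  have hτ1 : τ η 1 ≠ 0 := (sY η hη).one_ne
  by_contra hcon
  obtain ⟨ε, hε, hεe⟩ : ∃ ε : ℂ, (ε = 1 ∨ ε = -1) ∧ σ χ = ε • τ η := by
    rcases (sX χ hχ).cases (sY η hη) with h | h | h
    · exact ⟨1, Or.inl rfl, by rw [h, one_smul]⟩
    · exact ⟨-1, Or.inr rfl, by rw [h, neg_smul, one_smul]⟩
    · exact absurd h hcon
  have hεr : conj ε = ε := by rcases hε with h | h <;> rw [h] <;> simp
  have hε0 : ε ≠ 0 := by rcases hε with h | h <;> rw [h] <;> norm_num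
  have i1 : classInner (σ χ') (τ η) = 0 := by
    rw [hεe, classInner_smul_right, hεr] at o1
    exact (mul_eq_zero.1 o1).resolve_left hε0
  have i2 : classInner (σ χ) (τ η') = 0 := by
    rw [hεe, classInner_smul_left, inner_symm_zero o2, mul_zero]
  have i3 : classInner (σ χ) (τ η) = ε := by
    rw [hεe, classInner_smul_left, (sY η hη).self, mul_one]
  rw [i1, i2, i3] at h0
  obtain ⟨ε', hε', hεe'⟩ : ∃ ε' : ℂ, (ε' = 1 ∨ ε' = -1) ∧ σ χ' = ε' • τ η' := by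
    rcases (sX χ' hχ').cases (sY η' hη') with h | h | h
    · exact ⟨1, Or.inl rfl, by rw [h, one_smul]⟩
    · exact ⟨-1, Or.inr rfl, by rw [h, neg_smul, one_smul]⟩
    · exfalso
      rw [h] at h0
      have h3 : (a' : ℂ) * b' * ε = 0 := by linear_combination h0
      have h4 : (a' : ℂ) ≠ 0 := by exact_mod_cast ha'.ne'
      have h5 : (b' : ℂ) ≠ 0 := by exact_mod_cast hb'.ne'
      exact (mul_ne_zero (mul_ne_zero h4 h5) hε0) h3
  have i4 : classInner (σ χ') (τ η') = ε' := by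
    rw [hεe', classInner_smul_left, (sY η' hη').self, mul_one]
  rw [i4] at h0
  have w1 : (a : ℂ) * ε' * (b' * τ η 1) = a' * ε * b * τ η 1 := by
    rw [hεe', hεe, Pi.smul_apply, Pi.smul_apply, smul_eq_mul, smul_eq_mul] at v1
    linear_combination (b : ℂ) * v1 - (a : ℂ) * ε' * v2
  have w2 : (a : ℂ) * ε' * b' = a' * ε * b := by
    apply mul_right_cancel₀ hτ1
    linear_combination w1
  have w3 : (a : ℂ) * b * ε' + a' * b' * ε = 0 := by linear_combination h0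
  have haR : (0 : ℝ) < a := by exact_mod_cast ha
  have haR' : (0 : ℝ) < a' := by exact_mod_cast ha'
  have hbR : (0 : ℝ) < b := by exact_mod_cast hb
  have hbR' : (0 : ℝ) < b' := by exact_mod_cast hb'
  have t1 : (0 : ℝ) < a * b := by positivity
  have t2 : (0 : ℝ) < a' * b' := by positivity
  have t3 : (0 : ℝ) < a * b' := by positivity
  have t4 : (0 : ℝ) < a' * b := by positivity
  rcases hε with rfl | rfl <;> rcases hε' with rfl | rfl
  · have : (a : ℝ) * b * 1 + a' * b' * 1 = 0 := by exact_mod_cast w3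
    linarith
  · have : (a : ℝ) * (-1) * b' = a' * 1 * b := by exact_mod_cast w2
    linarith
  · have : (a : ℝ) * 1 * b' = a' * (-1) * b := by exact_mod_cast w2
    linarith
  · have : (a : ℝ) * b * (-1) + a' * b' * (-1) = 0 := by exact_mod_cast w3
    linarith

theorem coh_union (S X Y : Set (N → ℂ)) (hirr : ∀ ξ ∈ S, IsIrrCharacter N ξ)
    (hXS : X ⊆ S) (hYS : Y ⊆ S) (hXY : Disjoint X Y) (hX2 : ∃ a ∈ X, ∃ b ∈ X, a ≠ b)
    (hY2 : ∃ a ∈ Y, ∃ b ∈ Y, a ≠ b) (α : (N → ℂ) → (G → ℂ))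
    (hα : IsLinearIsometryOn (zspanOn S {1}ᶜ) α) (hα1 : ∀ θ ∈ zspanOn S {1}ᶜ, α θ 1 = 0)
    (σ τ : (N → ℂ) → (G → ℂ)) (hσ : IsLinearIsometryOn (zspan X) σ)
    (hσα : ∀ θ ∈ zspanOn X {1}ᶜ, σ θ = α θ) (hτ : IsLinearIsometryOn (zspan Y) τ)
    (hτα : ∀ θ ∈ zspanOn Y {1}ᶜ, τ θ = α θ)
    (hex : ∃ χ₀ ∈ X, ∃ η₀ ∈ Y, α (χ₀ 1 • η₀ - η₀ 1 • χ₀) = χ₀ 1 • τ η₀ - η₀ 1 • σ χ₀) :
    IsCoherent (X ∪ Y) {1}ᶜ α := by
  classical
  have horth := coh_union_orth S X Y hirr hXS hYS hXY hX2 hY2 α hα hα1 σ τ hσ hσα hτ hτα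
  have iX : ∀ ξ ∈ X, IsIrrCharacter N ξ := fun ξ h => hirr ξ (hXS h)
  have iY : ∀ ξ ∈ Y, IsIrrCharacter N ξ := fun ξ h => hirr ξ (hYS h)
  have oXY : ∀ ξ ∈ X, ∀ ζ ∈ Y, classInner ξ ζ = 0 := fun ξ hξ ζ hζ =>
    classInner_irr_ne (iX ξ hξ) (iY ζ hζ) (fun h => (Set.disjoint_left.1 hXY hξ) (h ▸ hζ))
  have hUS : X ∪ Y ⊆ S := Set.union_subset hXS hYS
  have iU : ∀ ξ ∈ X ∪ Y, IsIrrCharacter N ξ := fun ξ h => hirr ξ (hUS h)
  set F : (N → ℂ) → (G → ℂ) := fun φ => if φ ∈ X then σ φ else τ φ with hF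
  have F1 : ∀ φ ∈ X, F φ = σ φ := fun φ h => by simp only [hF, if_pos h]
  have F2 : ∀ φ ∈ Y, F φ = τ φ := fun φ h => by
    simp only [hF, if_neg (Set.disjoint_right.1 hXY h)]
  obtain ⟨τ₂, g1, g2, g3, g4⟩ := exists_iso_of_values (S := X ∪ Y) (F := F) (orth_irr iU)
    (fun φ hφ => irr_ne0 (iU φ hφ)) (by
      rintro φ (h | h)
      · rw [F1 φ h]; exact hσ.2.2.2 φ (zspan_self h)
      · rw [F2 φ h]; exact hτ.2.2.2 φ (zspan_self h))
    (by
      rintro φ (h | h) ξ (k | k)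
      · rw [F1 φ h, F1 ξ k]; exact hσ.2.2.1 φ (zspan_self h) ξ (zspan_self k)
      · rw [F1 φ h, F2 ξ k, horth φ h ξ k, oXY φ h ξ k]
      · rw [F2 φ h, F1 ξ k, inner_symm_zero (horth ξ k φ h), inner_symm_zero (oXY ξ k φ h)]
      · rw [F2 φ h, F2 ξ k]; exact hτ.2.2.1 φ (zspan_self h) ξ (zspan_self k))
  have q1 : ∀ θ ∈ zspan X, σ θ = τ₂ θ :=
    iso_ext_on hσ (iso_mono g1 (zspan_mono Set.subset_union_left))
      (fun φ hφ => by rw [g2 φ (Or.inl hφ), F1 φ hφ])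
  have q2 : ∀ θ ∈ zspan Y, τ θ = τ₂ θ :=
    iso_ext_on hτ (iso_mono g1 (zspan_mono Set.subset_union_right))
      (fun φ hφ => by rw [g2 φ (Or.inr hφ), F2 φ hφ])
  have g5 : ∀ a b, τ₂ (a - b) = τ₂ a - τ₂ b := by
    intro a b
    have := g4 (-1) b
    rw [neg_one_smul, neg_one_smul] at this
    rw [sub_eq_add_neg, g3, this, sub_eq_add_neg]
  refine ⟨?_, τ₂, g1, ?_⟩
  · obtain ⟨a, ha, b, hb, hab⟩ := hX2
    obtain ⟨m, hm, hme⟩ := irr_deg (iX a ha)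
    obtain ⟨n, hn, hne⟩ := irr_deg (iX b hb)
    refine ⟨(n : ℤ) • a - (m : ℤ) • b, ?_, ?_⟩
    · rw [mem_zspanOn]
      refine ⟨zspan_sub (zspan_smul _ (zspan_self (Or.inl ha))) (zspan_smul _ (zspan_self (Or.inl hb))), ?_⟩
      rw [Pi.sub_apply, nat_zsmul, nat_zsmul, hme, hne]; ring
    · intro h
      have h2 : classInner ((n : ℤ) • a - (m : ℤ) • b) a = 0 := by rw [h, classInner_zero_left]
      rw [zs_eq, zs_eq, classInner_sub_left, classInner_smul_left, classInner_smul_left,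
        classInner_irr_self (iX a ha), classInner_irr_ne (iX b hb) (iX a ha) (Ne.symm hab)] at h2
      have h3 : (n : ℂ) = 0 := by
        push_cast at h2; linear_combination h2
      have : n = 0 := by exact_mod_cast h3
      omega
  · obtain ⟨χ₀, hχ₀, η₀, hη₀, hαe⟩ := hex
    obtain ⟨m, hm, hme⟩ := irr_deg (iX χ₀ hχ₀)
    obtain ⟨n, hn, hne⟩ := irr_deg (iY η₀ hη₀)
    intro θ hθ
    rw [mem_zspanOn] at hθ
    obtain ⟨m1, m2⟩ := hθ
    have m3 : θ ∈ Submodule.span ℤ X ⊔ Submodule.span ℤ Y := by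
      rw [← Submodule.span_union]; exact m1
    obtain ⟨θ₁, h1, θ₂, h2, rfl⟩ := Submodule.mem_sup.1 m3
    -- integral value at one
    have hint : ∃ t : ℤ, θ₁ 1 = t := by
      have hg : IsGeneralizedCharacter N θ₁ := by
        have : ∀ x ∈ Submodule.span ℤ X, IsGeneralizedCharacter N x := by
          intro x hx
          induction hx using Submodule.span_induction with
          | mem x hx => exact (show IsSgn x from Or.inl (iX x hx)).gen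
          | zero => exact isGen_zero
          | add x y _ _ ihx ihy => exact isGen_add ihx ihy
          | smul n x _ ihx => exact isGen_zsmul ihx n
        exact this θ₁ h1
      exact IsGen.one_int hg
    obtain ⟨t, ht⟩ := hint
    have ht2 : θ₂ 1 = -t := by
      rw [Pi.add_apply, ht] at m2
      linear_combination m2
    have c1 : ((m * n : ℕ) : ℤ) • θ₁ - (t * n) • χ₀ ∈ zspanOn X {1}ᶜ := by
      rw [mem_zspanOn]
      refine ⟨zspan_sub (zspan_smul _ h1) (zspan_smul _ (zspan_self hχ₀)), ?_⟩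
      rw [Pi.sub_apply, zs_apply, zs_apply, ht, hme]; push_cast; ring
    have c2 : ((m * n : ℕ) : ℤ) • θ₂ + (t * m) • η₀ ∈ zspanOn Y {1}ᶜ := by
      rw [mem_zspanOn]
      refine ⟨zspan_add (zspan_smul _ h2) (zspan_smul _ (zspan_self hη₀)), ?_⟩
      rw [Pi.add_apply, zs_apply, zs_apply, ht2, hne]; push_cast; ring
    have c3 : (m : ℤ) • η₀ - (n : ℤ) • χ₀ ∈ zspanOn S {1}ᶜ := by
      rw [mem_zspanOn]
      refine ⟨zspan_sub (zspan_smul _ (zspan_self (hYS hη₀))) (zspan_smul _ (zspan_self (hXS hχ₀))), ?_⟩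
      rw [Pi.sub_apply, nat_zsmul, nat_zsmul, hme, hne]; ring
    have hαe' : α ((m : ℤ) • η₀ - (n : ℤ) • χ₀) = (m : ℂ) • τ η₀ - (n : ℂ) • σ χ₀ := by
      rw [← hme, ← hne, ← hαe, zs_eq, zs_eq]
      congr 2
      · rw [hme]; push_cast; rfl
      · rw [hne]; push_cast; rfl
    have hθS : θ₁ + θ₂ ∈ zspanOn S {1}ᶜ := zspanOn_mono hUS _ (by rw [mem_zspanOn]; exact ⟨m1, m2⟩)
    have hsum : ((m * n : ℕ) : ℤ) • (θ₁ + θ₂) = (((m * n : ℕ) : ℤ) • θ₁ - (t * n) • χ₀) +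
        ((((m * n : ℕ) : ℤ) • θ₂ + (t * m) • η₀) + (-t) • ((m : ℤ) • η₀ - (n : ℤ) • χ₀)) := by
      ext x
      simp only [Pi.add_apply, Pi.sub_apply, zs_apply]
      push_cast; ring
    have d1 := zspanOn_mono hXS _ c1
    have d2 := zspanOn_mono hYS _ c2
    have key : ((m * n : ℕ) : ℤ) • α (θ₁ + θ₂) = ((m * n : ℕ) : ℤ) • τ₂ (θ₁ + θ₂) := by
      rw [← hα.2.1 _ hθS, hsum, hα.1 _ d1 _ (zspanOn_add d2 (zspanOn_smul _ c3)),
        hα.1 _ d2 _ (zspanOn_smul _ c3), hα.2.1 _ c3, hαe', ← hσα _ c1, ← hτα _ c2, q1 _ c1.1,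
        q2 _ c2.1, g3, g3, g5, q1 _ (zspan_self hχ₀), q2 _ (zspan_self hη₀), zs_eq, zs_eq, zs_eq, zs_eq,
        zs_eq, zs_eq, g4, g4, g4, g4]
      ext x
      simp only [Pi.add_apply, Pi.sub_apply, Pi.smul_apply, smul_eq_mul]
      push_cast; ring
    have hmn : ((m * n : ℕ) : ℤ) ≠ 0 := by
      have : m * n ≠ 0 := Nat.mul_ne_zero (by omega) (by omega)
      exact_mod_cast this
    ext x
    have := congrFun key x
    rw [zs_apply, zs_apply] at this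
    have h5 : (((m * n : ℕ) : ℤ) : ℂ) ≠ 0 := by exact_mod_cast hmn
    exact (mul_left_cancel₀ h5 this).symm

end Irr

end CfsgH4
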