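import Cfsg.Agent.H4.Cyc1
import Cfsg.Agent.H4.Galois
import Cfsg.Agent.H2.TIHall

/-!
# The cyclic TI situation, II
-/

set_option autoImplicit false
open Cfsg ComplexConjugate

namespace CfsgH4

section Cyc

variable {G : Type*} [Group G] {W₁ W₂ : Subgroup G}

theorem IsSNC.hab (hW : IsSelfNormalizingCyclic W₁ W₂) (a b : ↥(W₁ ⊔ W₂)) : a * b = b * a := by
  haveI := hW.2.2.2.2.1
  exact (IsCyclic.isMulCommutative (α := ↥(W₁ ⊔ W₂))).is_comm.comm a b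

/-- the TI property -/
theorem tiW [Finite G] (hW : IsSelfNormalizingCyclic W₁ W₂) {t g : G} (ht : t ∈ W₁ ⊔ W₂)
    (h1 : t ∉ W₁) (h2 : t ∉ W₂) (hg : g * t * g⁻¹ ∈ W₁ ⊔ W₂) : g ∈ W₁ ⊔ W₂ := by
  obtain ⟨-, -, -, -, hcyc, hN⟩ := hW
  haveI := hcyc
  -- `⟨t⟩ = ⟨g t g⁻¹⟩`
  have hord : orderOf (g * t * g⁻¹) = orderOf t := by
    rw [show g * t * g⁻¹ = MulAut.conj g t from rfl]
    exact orderOf_injective (MulAut.conj g).toMonoidHom (MulAut.conj g).injective t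
  have hz : ∀ s : G, s ∈ W₁ ⊔ W₂ → orderOf s = orderOf t → Subgroup.zpowers s = Subgroup.zpowers t := by
    intro s hs ho
    have h3 : Subgroup.zpowers (⟨s, hs⟩ : ↥(W₁ ⊔ W₂)) = Subgroup.zpowers (⟨t, ht⟩ : ↥(W₁ ⊔ W₂)) := by
      apply CfsgH2.zpowers_eq_of_orderOf_eq
      rw [Subgroup.orderOf_mk, Subgroup.orderOf_mk, ho]
    have h4 := congrArg (Subgroup.map (W₁ ⊔ W₂).subtype) h3
    rwa [MonoidHom.map_zpowers, MonoidHom.map_zpowers] at h4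
  set X : Set G := {s | Subgroup.zpowers s = Subgroup.zpowers t} with hX
  have hXW : X ⊆ (↑(W₁ ⊔ W₂) : Set G) \ (↑W₁ ∪ ↑W₂) := by
    intro s hs
    have hs' : Subgroup.zpowers s = Subgroup.zpowers t := hs
    have hst : s ∈ Subgroup.zpowers t := by rw [← hs']; exact Subgroup.mem_zpowers s
    have hts : t ∈ Subgroup.zpowers s := by rw [hs']; exact Subgroup.mem_zpowers t
    refine ⟨(Subgroup.zpowers_le.2 ht) hst, ?_⟩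
    rintro (h5 | h5)
    · exact h1 ((Subgroup.zpowers_le.2 h5) hts)
    · exact h2 ((Subgroup.zpowers_le.2 h5) hts)
  have hNX := hN X hXW ⟨t, rfl⟩
  rw [← hNX]
  show ∀ s : G, s ∈ X ↔ g * s * g⁻¹ ∈ X
  have key : ∀ s : G, Subgroup.zpowers (g * s * g⁻¹) = (Subgroup.zpowers s).map (MulAut.conj g).toMonoidHom := by
    intro s; rw [MonoidHom.map_zpowers]; rfl
  have hgt : Subgroup.zpowers (g * t * g⁻¹) = Subgroup.zpowers t := hz _ hg hord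
  intro s
  constructor
  · intro hs
    show Subgroup.zpowers (g * s * g⁻¹) = Subgroup.zpowers t
    rw [key, show Subgroup.zpowers s = Subgroup.zpowers t from hs, ← key, hgt]
  · intro hs
    have hs' : Subgroup.zpowers (g * s * g⁻¹) = Subgroup.zpowers t := hs
    rw [← hgt, key, key] at hs'
    exact Subgroup.map_injective (MulAut.conj g).injective hs'

/-- the support of `alf` -/
theorem alf_supp {φ ψ : ↥(W₁ ⊔ W₂) →* ℂˣ} (hφ : Tr2 W₁ W₂ φ) (hψ : Tr1 W₁ W₂ ψ) (x : ↥(W₁ ⊔ W₂))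
    (hx : (x : G) ∉ (↑(W₁ ⊔ W₂) : Set G) \ (↑W₁ ∪ ↑W₂)) : alf φ ψ x = 0 := by
  apply alf_zero hφ hψ
  by_contra hcon
  push Not at hcon
  exact hx ⟨x.2, fun h => h.elim hcon.1 hcon.2⟩

theorem tiW' [Finite G] (hW : IsSelfNormalizingCyclic W₁ W₂) (g : G) (hg : g ∉ W₁ ⊔ W₂) (t : G)
    (ht : t ∈ (↑(W₁ ⊔ W₂) : Set G) \ (↑W₁ ∪ ↑W₂))
    (ht' : g * t * g⁻¹ ∈ (↑(W₁ ⊔ W₂) : Set G) \ (↑W₁ ∪ ↑W₂)) : t = 1 :=
  absurd (tiW hW ht.1 (fun h => ht.2 (Or.inl h)) (fun h => ht.2 (Or.inr h)) ht'.1) hg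

open Classical in
theorem alf_alf [Fintype ↥(W₁ ⊔ W₂)] (hcomm : ∀ a ∈ W₁, ∀ b ∈ W₂, a * b = b * a)
    {φ ψ φ' ψ' : ↥(W₁ ⊔ W₂) →* ℂˣ} (hφ : Tr2 W₁ W₂ φ) (hψ : Tr1 W₁ W₂ ψ) (hφ' : Tr2 W₁ W₂ φ')
    (hψ' : Tr1 W₁ W₂ ψ') (nφ : φ ≠ 1) (nφ' : φ' ≠ 1) (nψ : ψ ≠ 1) (nψ' : ψ' ≠ 1) :
    classInner (alf φ ψ) (alf φ' ψ') =
      1 + (if φ = φ' then 1 else 0) + (if ψ = ψ' then 1 else 0) +
        (if φ = φ' then 1 else 0) * (if ψ = ψ' then 1 else 0) := by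
  have h1 := alf_inner hcomm hφ hψ (Tr2.one (W₁ := W₁) (W₂ := W₂)) (Tr1.one (W₁ := W₁) (W₂ := W₂))
  have h2 := alf_inner hcomm hφ hψ hφ' (Tr1.one (W₁ := W₁) (W₂ := W₂))
  have h3 := alf_inner hcomm hφ hψ (Tr2.one (W₁ := W₁) (W₂ := W₂)) hψ'
  have h4 := alf_inner hcomm hφ hψ hφ' hψ'
  rw [mul_one (1 : ↥(W₁ ⊔ W₂) →* ℂˣ)] at h1
  rw [mul_one φ'] at h2
  rw [one_mul ψ'] at h3
  rw [if_pos rfl, if_neg nφ.symm, if_neg nψ.symm] at h1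
  rw [if_neg nφ', if_pos rfl, if_neg nψ.symm] at h2
  rw [if_pos rfl, if_neg nφ.symm, if_neg nψ'] at h3
  rw [if_neg nφ', if_neg nψ'] at h4
  rw [alf_eq φ' ψ', classInner_add_right, classInner_sub_right, classInner_sub_right, h1, h2, h3, h4]
  simp only [eq_comm (a := φ') (b := φ), eq_comm (a := ψ') (b := ψ)]
  ring

theorem alf_one_left (ψ : ↥(W₁ ⊔ W₂) →* ℂˣ) : alf (1 : ↥(W₁ ⊔ W₂) →* ℂˣ) ψ = 0 := by
  ext w; simp [alf]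

theorem alf_one_right (φ : ↥(W₁ ⊔ W₂) →* ℂˣ) : alf φ (1 : ↥(W₁ ⊔ W₂) →* ℂˣ) = 0 := by
  ext w; simp [alf]

variable [Fintype G]

/-- the induced functions in terms of the family -/
theorem cyc_ind {χ : (↥(W₁ ⊔ W₂) →* ℂˣ) → (G → ℂ)} (hχ : IsCyclicTIFamily W₁ W₂ χ)
    {φ ψ : ↥(W₁ ⊔ W₂) →* ℂˣ} (hφ : Tr2 W₁ W₂ φ) (hψ : Tr1 W₁ W₂ ψ) :
    indFun (W₁ ⊔ W₂) (alf φ ψ) = χ 1 - χ φ - χ ψ + χ (φ * ψ) := by
  by_cases nφ : φ = 1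
  · subst nφ
    rw [alf_one_left, indFun_zero, one_mul ψ]
    abel
  by_cases nψ : ψ = 1
  · subst nψ
    rw [alf_one_right, indFun_zero, mul_one φ]
    abel
  have := hχ.induced_eq φ ψ nφ nψ hφ hψ
  rw [hχ.map_one]
  show indFun (W₁ ⊔ W₂) (fun w => 1 - (φ w : ℂ) - (ψ w : ℂ) + (φ w : ℂ) * (ψ w : ℂ)) = _
  rw [this]; rfl

/-- the Fourier coefficients against the family -/
theorem cyc_inner {χ : (↥(W₁ ⊔ W₂) →* ℂˣ) → (G → ℂ)} (hχ : IsCyclicTIFamily W₁ W₂ χ)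
    [Fintype ↥(W₁ ⊔ W₂)] {θ : G → ℂ} (hθ : IsClassFunction G θ)
    {φ ψ : ↥(W₁ ⊔ W₂) →* ℂˣ} (hφ : Tr2 W₁ W₂ φ) (hψ : Tr1 W₁ W₂ ψ) :
    classInner (fun w : ↥(W₁ ⊔ W₂) => θ w) (alf φ ψ) =
      classInner θ (χ 1) - classInner θ (χ φ) - classInner θ (χ ψ) + classInner θ (χ (φ * ψ)) := by
  rw [← frobenius_right (W₁ ⊔ W₂) (alf φ ψ) hθ, cyc_ind hχ hφ hψ, classInner_add_right,
    classInner_sub_right, classInner_sub_right]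

theorem cyc_vanish (hW : IsSelfNormalizingCyclic W₁ W₂)
    {χ : (↥(W₁ ⊔ W₂) →* ℂˣ) → (G → ℂ)} (hχ : IsCyclicTIFamily W₁ W₂ χ)
    {θ : G → ℂ} (hθ : IsClassFunction G θ) (h : ∀ φ ψ, Tr2 W₁ W₂ φ → Tr1 W₁ W₂ ψ →
      classInner θ (χ 1) - classInner θ (χ φ) - classInner θ (χ ψ) + classInner θ (χ (φ * ψ)) = 0)
    {w : ↥(W₁ ⊔ W₂)} (h1 : (w : G) ∉ W₁) (h2 : (w : G) ∉ W₂) : θ w = 0 := by
  haveI : Fintype ↥(W₁ ⊔ W₂) := Fintype.ofFinite _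
  refine zero_of_orth (f := fun w : ↥(W₁ ⊔ W₂) => θ w) hW.2.2.2.1 hW.2.2.1 (IsSNC.hab hW) ?_ h1 h2
  intro φ ψ hφ hψ
  have h3 := cyc_inner hχ hθ hφ hψ
  rw [h φ ψ hφ hψ] at h3
  rw [← classInner_conj_symm, h3, map_zero]

/-- the rectangle identity -/
theorem cyc_rect {χ : (↥(W₁ ⊔ W₂) →* ℂˣ) → (G → ℂ)} (hχ : IsCyclicTIFamily W₁ W₂ χ)
    {θ : G → ℂ} (hθ : IsClassFunction G θ)
    (hθV : ∀ w : ↥(W₁ ⊔ W₂), (w : G) ∉ W₁ → (w : G) ∉ W₂ → θ w = 0)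
    {φ ψ : ↥(W₁ ⊔ W₂) →* ℂˣ} (hφ : Tr2 W₁ W₂ φ) (hψ : Tr1 W₁ W₂ ψ) :
    classInner θ (χ (φ * ψ)) = classInner θ (χ φ) + classInner θ (χ ψ) - classInner θ (χ 1) := by
  haveI : Fintype ↥(W₁ ⊔ W₂) := Fintype.ofFinite _
  have h3 := cyc_inner hχ hθ hφ hψ
  have h4 : classInner (fun w : ↥(W₁ ⊔ W₂) => θ w) (alf φ ψ) = 0 := by
    rw [classInner_def, Finset.sum_eq_zero, mul_zero]
    intro w _
    by_cases h1 : (w : G) ∈ W₁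
    · rw [alf_zero hφ hψ (Or.inl h1), map_zero, mul_zero]
    · by_cases h2 : (w : G) ∈ W₂
      · rw [alf_zero hφ hψ (Or.inr h2), map_zero, mul_zero]
      · show θ w * _ = 0
        rw [hθV w h1 h2, zero_mul]
  rw [h4] at h3
  linear_combination -h3

end Cyc

section Count

variable {G : Type*} [Group G] [Finite G] {W₁ W₂ : Subgroup G}

theorem finite_hom_units (H : Type*) [Group H] [Finite H] : Finite (H →* ℂˣ) := by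
  refine Finite.of_injective (fun ω : H →* ℂˣ =>
    (⟨lch ω, isCharacter_one_dim ω⟩ : IrrCharacter H)) ?_
  intro ω ω' hh
  exact linHom_injective (congrArg Subtype.val hh)

theorem card_hom_units_comm (H : Type*) [Group H] [Finite H] (hab : ∀ a b : H, a * b = b * a) :
    Nat.card (H →* ℂˣ) = Nat.card H := by
  rw [card_hom_units]
  have : commutator H = ⊥ := by
    rw [commutator_def, Subgroup.commutator_eq_bot_iff_le_centralizer]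
    intro a _
    rw [Subgroup.mem_centralizer_iff]
    intro b _
    exact hab b a
  rw [this, Subgroup.index_bot]

/-- the pair decomposition of the dual -/
noncomputable def dualEquiv (hcomm : ∀ a ∈ W₁, ∀ b ∈ W₂, a * b = b * a) (hdisj : W₁ ⊓ W₂ = ⊥) :
    {φ : ↥(W₁ ⊔ W₂) →* ℂˣ // Tr2 W₁ W₂ φ} × {ψ : ↥(W₁ ⊔ W₂) →* ℂˣ // Tr1 W₁ W₂ ψ} ≃
      (↥(W₁ ⊔ W₂) →* ℂˣ) :=
  Equiv.ofBijective (fun q => q.1.1 * q.2.1) ⟨by
    rintro ⟨⟨φ, hφ⟩, ⟨ψ, hψ⟩⟩ ⟨⟨φ', hφ'⟩, ⟨ψ', hψ'⟩⟩ hh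
    obtain ⟨h3, h4⟩ := hom_dec_unique hcomm hφ hψ hφ' hψ' hh
    subst h3; subst h4; rfl, by
    intro ω
    obtain ⟨φ, ψ, hφ, hψ, hω⟩ := hom_dec hcomm hdisj ω
    exact ⟨(⟨φ, hφ⟩, ⟨ψ, hψ⟩), hω.symm⟩⟩

theorem card_Tr (hcomm : ∀ a ∈ W₁, ∀ b ∈ W₂, a * b = b * a) (hdisj : W₁ ⊓ W₂ = ⊥)
    (hab : ∀ a b : ↥(W₁ ⊔ W₂), a * b = b * a) :
    Nat.card {φ : ↥(W₁ ⊔ W₂) →* ℂˣ // Tr2 W₁ W₂ φ} = Nat.card W₁ ∧
    Nat.card {ψ : ↥(W₁ ⊔ W₂) →* ℂˣ // Tr1 W₁ W₂ ψ} = Nat.card W₂ := by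
  haveI := finite_hom_units ↥(W₁ ⊔ W₂)
  haveI := finite_hom_units W₁
  haveI := finite_hom_units W₂
  have hab1 : ∀ a b : W₁, a * b = b * a := by
    intro a b
    have h5 := congrArg Subtype.val (hab ⟨a, Subgroup.mem_sup_left a.2⟩ ⟨b, Subgroup.mem_sup_left b.2⟩)
    exact Subtype.ext h5
  have hab2 : ∀ a b : W₂, a * b = b * a := by
    intro a b
    have h5 := congrArg Subtype.val (hab ⟨a, Subgroup.mem_sup_right a.2⟩ ⟨b, Subgroup.mem_sup_right b.2⟩)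
    exact Subtype.ext h5
  have le1 : Nat.card {φ : ↥(W₁ ⊔ W₂) →* ℂˣ // Tr2 W₁ W₂ φ} ≤ Nat.card W₁ := by
    rw [← card_hom_units_comm W₁ hab1]
    refine Nat.card_le_card_of_injective (fun φ => φ.1.comp (Subgroup.inclusion le_sup_left)) ?_
    intro φ φ' h
    apply Subtype.ext
    refine hom_ext_W hcomm (fun w hw => ?_) (fun w hw => by rw [φ.2 w hw, φ'.2 w hw])
    exact congrArg (fun f : W₁ →* ℂˣ => f ⟨w, hw⟩) h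
  have le2 : Nat.card {ψ : ↥(W₁ ⊔ W₂) →* ℂˣ // Tr1 W₁ W₂ ψ} ≤ Nat.card W₂ := by
    rw [← card_hom_units_comm W₂ hab2]
    refine Nat.card_le_card_of_injective (fun φ => φ.1.comp (Subgroup.inclusion le_sup_right)) ?_
    intro φ φ' h
    apply Subtype.ext
    refine hom_ext_W hcomm (fun w hw => by rw [φ.2 w hw, φ'.2 w hw]) (fun w hw => ?_)
    exact congrArg (fun f : W₂ →* ℂˣ => f ⟨w, hw⟩) h
  have hprod : Nat.card {φ : ↥(W₁ ⊔ W₂) →* ℂˣ // Tr2 W₁ W₂ φ} *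
      Nat.card {ψ : ↥(W₁ ⊔ W₂) →* ℂˣ // Tr1 W₁ W₂ ψ} = Nat.card W₁ * Nat.card W₂ := by
    rw [← Nat.card_prod, Nat.card_congr (dualEquiv hcomm hdisj), card_hom_units_comm _ hab]
    exact card_sup_disj (norm_of_comm hcomm) hdisj
  have p1 : 0 < Nat.card W₁ := Nat.card_pos
  have p2 : 0 < Nat.card W₂ := Nat.card_pos
  have e1 : Nat.card {φ : ↥(W₁ ⊔ W₂) →* ℂˣ // Tr2 W₁ W₂ φ} = Nat.card W₁ := by
    apply le_antisymm le1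
    by_contra hcon
    push Not at hcon
    have := Nat.mul_lt_mul_of_lt_of_le hcon le2 p2
    rw [hprod] at this
    exact lt_irrefl _ this
  refine ⟨e1, ?_⟩
  rw [e1] at hprod
  exact Nat.eq_of_mul_eq_mul_left p1 hprod

end Count

end CfsgH4
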