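import Cfsg.Agent.H4.Cyc2

/-!
# The cyclic TI situation, III
-/

set_option autoImplicit false
open Cfsg ComplexConjugate

namespace CfsgH4

section Mat

theorem exists_two_ne {K : Type*} [Fintype K] [DecidableEq K] (k : K) (hK : 3 ≤ Fintype.card K) :
    ∃ k' k'' : K, k' ≠ k ∧ k'' ≠ k ∧ k' ≠ k'' := by
  have h1 : 1 < (Finset.univ.erase k).card := by
    rw [Finset.card_erase_of_mem (Finset.mem_univ k), Finset.card_univ]; omega
  obtain ⟨a, ha, b, hb, hab⟩ := Finset.one_lt_card.1 h1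
  exact ⟨a, b, (Finset.mem_erase.1 ha).1, (Finset.mem_erase.1 hb).1, hab⟩

theorem two_le_sum {K : Type*} [Fintype K] [DecidableEq K] (F : K → ℕ) (a b : K) (hab : a ≠ b) :
    F a + F b ≤ ∑ k, F k := by
  rw [← Finset.sum_pair hab]
  exact Finset.sum_le_sum_of_subset (Finset.subset_univ _)

variable {I J : Type*}

/-- a matrix `f i + g j` with nonzero entries in at most two places vanishes -/
theorem rank_one_few [Finite I] [Finite J] (f : I → ℂ) (g : J → ℂ) (hI : 3 ≤ Nat.card I)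
    (hJ : 3 ≤ Nat.card J) (q₁ q₂ : I × J)
    (h : ∀ i j, f i + g j ≠ 0 → (i, j) = q₁ ∨ (i, j) = q₂) (i : I) (j : J) : f i + g j = 0 := by
  classical
  haveI := Fintype.ofFinite I
  haveI := Fintype.ofFinite J
  rw [Nat.card_eq_fintype_card] at hI hJ
  by_contra hne
  obtain ⟨i', i'', hi', hi'', hii⟩ := exists_two_ne i hI
  obtain ⟨j', j'', hj', hj'', hjj⟩ := exists_two_ne j hJ
  have hrect : ∀ (a : I) (b : J), a ≠ i → b ≠ j → ∃ q : I × J, f q.1 + g q.2 ≠ 0 ∧
      (q = (i, b) ∨ q = (a, j) ∨ q = (a, b)) := by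
    intro a b ha hb
    by_contra hcon
    push Not at hcon
    have h1 : f i + g b = 0 := by
      by_contra h2; exact (hcon (i, b) h2).1 rfl
    have h2 : f a + g j = 0 := by
      by_contra h2; exact (hcon (a, j) h2).2.1 rfl
    have h3 : f a + g b = 0 := by
      by_contra h2; exact (hcon (a, b) h2).2.2 rfl
    exact hne (by linear_combination h1 + h2 - h3)
  obtain ⟨q', hq', hq'e⟩ := hrect i' j' hi' hj'
  obtain ⟨q'', hq'', hq''e⟩ := hrect i'' j'' hi'' hj''
  have n1 : q' ≠ (i, j) := by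
    rcases hq'e with h1 | h1 | h1 <;> rw [h1] <;> intro h2 <;> simp_all
  have n2 : q'' ≠ (i, j) := by
    rcases hq''e with h1 | h1 | h1 <;> rw [h1] <;> intro h2 <;> simp_all
  have n3 : q' ≠ q'' := by
    rcases hq'e with h1 | h1 | h1 <;> rcases hq''e with h2 | h2 | h2 <;> rw [h1, h2] <;>
      intro h3 <;> simp_all
  have m0 := h i j hne
  have m1 := h q'.1 q'.2 hq'
  have m2 := h q''.1 q''.2 hq''
  rw [Prod.mk.eta] at m1 m2
  rcases m0 with m0 | m0 <;> rcases m1 with m1 | m1 <;> rcases m2 with m2 | m2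
  · exact n1 (m1.trans m0.symm)
  · exact n1 (m1.trans m0.symm)
  · exact n2 (m2.trans m0.symm)
  · exact n3 (m1.trans m2.symm)
  · exact n3 (m1.trans m2.symm)
  · exact n2 (m2.trans m0.symm)
  · exact n1 (m1.trans m0.symm)
  · exact n1 (m1.trans m0.symm)

/-- classification of the matrices `f i + g j` with few nonzero entries -/
theorem rank_one_classify [Fintype I] [Fintype J] [DecidableEq I] [DecidableEq J]
    (f : I → ℂ) (g : J → ℂ)
    (hI : 3 ≤ Fintype.card I) (hIJ : Fintype.card I + 2 ≤ Fintype.card J)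
    (h : (Finset.univ.filter (fun q : I × J => f q.1 + g q.2 ≠ 0)).card < 2 * Fintype.card I) :
    (∀ i j, f i + g j = 0) ∨ (∃ (j₀ : J) (a : ℂ), ∀ i j, f i + g j = if j = j₀ then a else 0) ∨
    (∃ (i₀ : I) (a : ℂ), ∀ i j, f i + g j = if i = i₀ then a else 0) := by
  classical
  set n : J → ℕ := fun j => (Finset.univ.filter (fun i : I => f i + g j ≠ 0)).card with hn
  set m : I → ℕ := fun i => (Finset.univ.filter (fun j : J => f i + g j ≠ 0)).card with hm
  have hN : (Finset.univ.filter (fun q : I × J => f q.1 + g q.2 ≠ 0)).card = ∑ j, n j := by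
    simp only [hn, Finset.card_filter]
    rw [Fintype.sum_prod_type_right]
  have hM : (Finset.univ.filter (fun q : I × J => f q.1 + g q.2 ≠ 0)).card = ∑ i, m i := by
    simp only [hm, Finset.card_filter]
    rw [Fintype.sum_prod_type]
  haveI : Nonempty I := Fintype.card_pos_iff.1 (by omega)
  haveI : Nonempty J := Fintype.card_pos_iff.1 (by omega)
  obtain ⟨i₀⟩ := ‹Nonempty I›
  obtain ⟨j₀⟩ := ‹Nonempty J›
  by_cases hf : ∀ i, f i = f i₀
  · -- `f` constant
    have hnj : ∀ j, f i₀ + g j ≠ 0 → n j = Fintype.card I := by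
      intro j hj
      simp only [hn]
      rw [Finset.filter_true_of_mem, Finset.card_univ]
      intro i _; rw [hf i]; exact hj
    by_cases hz : ∀ j, f i₀ + g j = 0
    · left; intro i j; rw [hf i]; exact hz j
    · push Not at hz
      obtain ⟨j₁, hj₁⟩ := hz
      right; left
      refine ⟨j₁, f i₀ + g j₁, fun i j => ?_⟩
      by_cases hj : j = j₁
      · rw [if_pos hj, hj, hf i]
      · rw [if_neg hj, hf i]
        by_contra hne
        have := two_le_sum n j j₁ hj
        rw [← hN, hnj j hne, hnj j₁ hj₁] at this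
        omega
  by_cases hg : ∀ j, g j = g j₀
  · have hmi : ∀ i, f i + g j₀ ≠ 0 → m i = Fintype.card J := by
      intro i hi
      simp only [hm]
      rw [Finset.filter_true_of_mem, Finset.card_univ]
      intro j _; rw [hg j]; exact hi
    by_cases hz : ∀ i, f i + g j₀ = 0
    · left; intro i j; rw [hg j]; exact hz i
    · push Not at hz
      obtain ⟨i₁, hi₁⟩ := hz
      right; right
      refine ⟨i₁, f i₁ + g j₀, fun i j => ?_⟩
      by_cases hi : i = i₁
      · rw [if_pos hi, hi, hg j]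
      · rw [if_neg hi, hg j]
        by_contra hne
        have := two_le_sum m i i₁ hi
        rw [← hM, hmi i hne, hmi i₁ hi₁] at this
        omega
  -- neither constant
  exfalso
  push Not at hf hg
  obtain ⟨i₁, hi₁⟩ := hf
  have h1 : ∀ j, 1 ≤ n j := by
    intro j
    simp only [hn]
    rw [Nat.one_le_iff_ne_zero, ← Nat.pos_iff_ne_zero, Finset.card_pos]
    by_contra hemp
    rw [Finset.not_nonempty_iff_eq_empty, Finset.filter_eq_empty_iff] at hemp
    have e1 := hemp (Finset.mem_univ i₀)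
    have e2 := hemp (Finset.mem_univ i₁)
    push Not at e1 e2
    exact hi₁ (by linear_combination e2 - e1)
  by_cases h2 : ∀ j, 2 ≤ n j
  · have : Fintype.card J * 2 ≤ ∑ j, n j := by
      rw [← Finset.card_univ, ← smul_eq_mul, ← Finset.sum_const]
      exact Finset.sum_le_sum fun j _ => h2 j
    omega
  · push Not at h2
    obtain ⟨j₁, hj₁⟩ := h2
    have hj₁' : n j₁ = 1 := le_antisymm (by omega) (h1 j₁)
    obtain ⟨i₂, hi₂⟩ := Finset.card_eq_one.1 hj₁'
    have hfi : ∀ i, i ≠ i₂ → f i + g j₁ = 0 := by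
      intro i hi
      by_contra hne
      have : i ∈ Finset.univ.filter (fun i : I => f i + g j₁ ≠ 0) :=
        Finset.mem_filter.2 ⟨Finset.mem_univ i, hne⟩
      rw [hi₂, Finset.mem_singleton] at this
      exact hi this
    obtain ⟨j₂, hj₂⟩ : ∃ j₂, g j₂ ≠ g j₁ := by
      obtain ⟨j₃, hj₃⟩ := hg
      by_cases h4 : g j₃ = g j₁
      · exact ⟨j₀, fun h5 => hj₃ (h4.trans h5.symm)⟩
      · exact ⟨j₃, h4⟩
    have hn2 : Fintype.card I - 1 ≤ n j₂ := by
      rw [← Finset.card_univ, ← Finset.card_erase_of_mem (Finset.mem_univ i₂)]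
      apply Finset.card_le_card
      intro i hi
      refine Finset.mem_filter.2 ⟨Finset.mem_univ i, fun h5 => hj₂ ?_⟩
      have := hfi i (Finset.mem_erase.1 hi).1
      linear_combination h5 - this
    have hsum : n j₂ + (Fintype.card J - 1) ≤ ∑ j, n j := by
      rw [← Finset.add_sum_erase Finset.univ n (Finset.mem_univ j₂)]
      gcongr
      rw [← Finset.card_univ, ← Finset.card_erase_of_mem (Finset.mem_univ j₂)]
      have := Finset.sum_le_sum (s := Finset.univ.erase j₂) (f := fun _ => 1) (g := n)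
        (fun j _ => h1 j)
      simpa using this
    omega

end Mat

section Cyc

variable {G : Type*} [Group G] [Fintype G] {W₁ W₂ : Subgroup G}

theorem IsSgn.classFun {f : G → ℂ} (h : IsSgn f) : IsClassFunction G f := by
  rcases h with h | h
  · exact IsCharacter.isClassFunction (IsIrr.isCharacter h)
  · intro x y
    have := IsCharacter.isClassFunction (IsIrr.isCharacter h) x y
    simpa using this

theorem IsSgn.aut {f : G → ℂ} (h : IsSgn f) (σ : ℂ ≃+* ℂ) : IsSgn (fun g => σ (f g)) := by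
  rcases h with h | h
  · exact Or.inl (isIrrCharacter_aut σ h)
  · right
    have := isIrrCharacter_aut σ h
    have e : (fun g => σ ((-f) g)) = -(fun g => σ (f g)) := by
      ext g; simp
    rwa [e] at this

theorem three_le_of_odd {H : Subgroup G} (h1 : H ≠ ⊥) (hodd : Odd (Nat.card H)) : 3 ≤ Nat.card H := by
  have h2 : Nat.card H ≠ 1 := fun h => h1 (Subgroup.eq_bot_of_card_eq H h)
  have h3 : 0 < Nat.card H := Nat.card_pos
  obtain ⟨k, hk⟩ := hodd
  omega

theorem odd_of_le {H K : Subgroup G} (h : H ≤ K) (hodd : Odd (Nat.card K)) : Odd (Nat.card H) :=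
  Odd.of_dvd_nat hodd (Subgroup.card_dvd_of_le h)

/-- compatibility of the family with field automorphisms -/
theorem cyc_aut (hW : IsSelfNormalizingCyclic W₁ W₂) (hodd : Odd (Nat.card ↥(W₁ ⊔ W₂)))
    {χ : (↥(W₁ ⊔ W₂) →* ℂˣ) → (G → ℂ)} (hχ : IsCyclicTIFamily W₁ W₂ χ) (σ : ℂ ≃+* ℂ)
    {ω ω' : ↥(W₁ ⊔ W₂) →* ℂˣ} (hω : ∀ w, (ω' w : ℂ) = σ (ω w)) :
    (fun g => σ (χ ω g)) = χ ω' := by
  classical
  have hcomm := hW.2.2.2.1
  have hdisj := hW.2.2.1
  have hab := IsSNC.hab hW
  haveI := finite_hom_units ↥(W₁ ⊔ W₂)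
  have hsg : ∀ ω, IsSgn (χ ω) := hχ.irr_or_neg
  have hs1 : IsSgn (fun g => σ (χ ω g)) := (hsg ω).aut σ
  set θ : G → ℂ := (fun g => σ (χ ω g)) - χ ω' with hθ
  have hθc : IsClassFunction G θ := by
    intro x y
    have h1 := hs1.classFun x y
    have h2 := (hsg ω').classFun x y
    show σ (χ ω (y * x * y⁻¹)) - χ ω' (y * x * y⁻¹) = σ (χ ω x) - χ ω' x
    rw [h1, h2]
  have hθV : ∀ w : ↥(W₁ ⊔ W₂), (w : G) ∉ W₁ → (w : G) ∉ W₂ → θ w = 0 := by
    intro w h1 h2
    show σ (χ ω w) - χ ω' w = 0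
    rw [hχ.eq_on ω w h1 h2, hχ.eq_on ω' w h1 h2, hω w, sub_self]
  obtain ⟨c1, c2⟩ := card_Tr hcomm hdisj hab
  have t1 : 3 ≤ Nat.card {φ : ↥(W₁ ⊔ W₂) →* ℂˣ // Tr2 W₁ W₂ φ} := by
    rw [c1]; exact three_le_of_odd hW.1 (odd_of_le le_sup_left hodd)
  have t2 : 3 ≤ Nat.card {ψ : ↥(W₁ ⊔ W₂) →* ℂˣ // Tr1 W₁ W₂ ψ} := by
    rw [c2]; exact three_le_of_odd hW.2.1 (odd_of_le le_sup_right hodd)
  -- a candidate for the second nonzero place
  obtain ⟨ω₁, hω₁⟩ : ∃ ω₁, ∀ ω'', classInner (fun g => σ (χ ω g)) (χ ω'') ≠ 0 → ω'' = ω₁ := by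
    by_cases hex : ∃ ω₁, classInner (fun g => σ (χ ω g)) (χ ω₁) ≠ 0
    · obtain ⟨ω₁, h1⟩ := hex
      refine ⟨ω₁, fun ω'' h2 => ?_⟩
      by_contra hne
      have h3 := hχ.orthonormal ω'' ω₁
      rw [if_neg hne] at h3
      rcases hs1.cases (hsg ω'') with h4 | h4 | h4
      · rw [h4] at h1; exact h1 h3
      · rw [h4, classInner_neg_left] at h1; exact h1 (by rw [h3, neg_zero])
      · exact h2 h4
    · push Not at hex
      exact ⟨1, fun ω'' h2 => absurd (hex ω'') h2⟩
  set e := dualEquiv hcomm hdisj with he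
  have key := rank_one_few (I := {φ : ↥(W₁ ⊔ W₂) →* ℂˣ // Tr2 W₁ W₂ φ})
    (J := {ψ : ↥(W₁ ⊔ W₂) →* ℂˣ // Tr1 W₁ W₂ ψ})
    (fun φ => classInner θ (χ φ.1)) (fun ψ => classInner θ (χ ψ.1) - classInner θ (χ 1)) t1 t2
    (e.symm ω') (e.symm ω₁) (by
      intro φ ψ hne
      have h1 : classInner θ (χ (φ.1 * ψ.1)) ≠ 0 := by
        rw [cyc_rect hχ hθc hθV φ.2 ψ.2]
        intro h2; apply hne; linear_combination h2
      rw [hθ, classInner_sub_left, hχ.orthonormal] at h1
      by_cases h3 : ω' = φ.1 * ψ.1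
      · left
        rw [h3]
        exact (e.symm_apply_apply (φ, ψ)).symm
      · right
        rw [if_neg h3, sub_zero] at h1
        rw [← hω₁ _ h1]
        exact (e.symm_apply_apply (φ, ψ)).symm)
  obtain ⟨φ, ψ, hφ, hψ, hdec⟩ := hom_dec hcomm hdisj ω'
  have h5 := key ⟨φ, hφ⟩ ⟨ψ, hψ⟩
  have h6 : classInner θ (χ ω') = 0 := by
    rw [hdec, cyc_rect hχ hθc hθV hφ hψ]
    simp only at h5
    linear_combination h5
  rw [hθ, classInner_sub_left, hχ.orthonormal, if_pos rfl] at h6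
  rcases hs1.cases (hsg ω') with h4 | h4 | h4
  · exact h4
  · rw [h4, classInner_neg_left, hχ.orthonormal, if_pos rfl] at h6
    norm_num at h6
  · rw [h4] at h6; norm_num at h6

end Cyc

end CfsgH4
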