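import Cfsg.Agent.H4.Grid2

/-!
# The grid lemma, III
-/

set_option autoImplicit false

namespace CfsgH4

section Grid

variable {X I J : Type*} [Fintype X] [DecidableEq X] [Fintype I] [DecidableEq I] [Fintype J]
  [DecidableEq J]

structure GGrid (v : I → J → X → ℤ) : Prop where
  inn : ∀ i j k l, ∑ x, v i j x * v k l x = (if i = k then 1 else 0) + (if j = l then 1 else 0) +
    (if i = k then 1 else 0) * (if j = l then 1 else 0)
  row : ∀ i j l x, 0 ≤ v i j x * v i l x
  col : ∀ i k j x, 0 ≤ v i j x * v k j x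

theorem GGrid.swap {v : I → J → X → ℤ} (h : GGrid v) : GGrid (fun j i => v i j) :=
  ⟨fun j i l k => by rw [h.inn i j k l]; ring, fun j i k x => h.col i k j x,
    fun j l i x => h.row i j l x⟩

theorem GGrid.three {v : I → J → X → ℤ} (h : GGrid v) (i : I) (j : J) :
    ∑ x, v i j x * v i j x = 3 := by
  rw [h.inn, if_pos rfl, if_pos rfl]; norm_num

theorem GGrid.val {v : I → J → X → ℤ} (h : GGrid v) (i : I) (j : J) (x : X) :
    v i j x = 0 ∨ v i j x = 1 ∨ v i j x = -1 := by
  have h1 : v i j x * v i j x ≤ 3 := by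
    rw [← h.three i j]
    exact Finset.single_le_sum (f := fun x => v i j x * v i j x) (fun y _ => mul_self_nonneg (v i j y))
      (Finset.mem_univ x)
  have h2 : -1 ≤ v i j x := by nlinarith
  have h3 : v i j x ≤ 1 := by nlinarith
  omega

/-- the support -/
def gsup (v : I → J → X → ℤ) (i : I) (j : J) : Finset X := Finset.univ.filter (fun x => v i j x ≠ 0)

theorem mem_gsup {v : I → J → X → ℤ} {i : I} {j : J} {x : X} : x ∈ gsup v i j ↔ v i j x ≠ 0 := by
  simp [gsup]

theorem GGrid.card_sup {v : I → J → X → ℤ} (h : GGrid v) (i : I) (j : J) : (gsup v i j).card = 3 := by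
  have h1 : ((gsup v i j).card : ℤ) = 3 := by
    rw [← h.three i j, gsup, Finset.card_filter]
    push_cast
    refine Finset.sum_congr rfl fun x _ => ?_
    rcases h.val i j x with h2 | h2 | h2 <;> rw [h2] <;> norm_num
  exact_mod_cast h1

theorem GGrid.card_inter {v : I → J → X → ℤ} (h : GGrid v) (i : I) {j l : J} (hjl : j ≠ l) :
    (gsup v i j ∩ gsup v i l).card = 1 := by
  have h1 : ((gsup v i j ∩ gsup v i l).card : ℤ) = 1 := by
    have h0 : ∑ x, v i j x * v i l x = 1 := by
      rw [h.inn, if_pos rfl, if_neg hjl]; norm_num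
    rw [← h0, gsup, gsup, ← Finset.filter_and, Finset.card_filter]
    push_cast
    refine Finset.sum_congr rfl fun x _ => ?_
    have h5 := h.row i j l x
    rcases h.val i j x with h2 | h2 | h2 <;> rcases h.val i l x with h3 | h3 | h3 <;>
      first
      | (simp [h2, h3]; done)
      | (rw [h2, h3] at h5; norm_num at h5)
  exact_mod_cast h1

theorem GGrid.card_inter' {v : I → J → X → ℤ} (h : GGrid v) {i k : I} (j : J) (hik : i ≠ k) :
    (gsup v i j ∩ gsup v k j).card = 1 :=
  h.swap.card_inter j hik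

/-- the sign of a row at a point -/
noncomputable def gsgn (v : I → J → X → ℤ) (i : I) (x : X) : ℤ :=
  open Classical in if ∃ j, v i j x = -1 then -1 else 1

theorem gsgn_sq (v : I → J → X → ℤ) (i : I) (x : X) : gsgn v i x * gsgn v i x = 1 := by
  unfold gsgn
  split_ifs <;> norm_num

theorem GGrid.eq_gsgn {v : I → J → X → ℤ} (h : GGrid v) {i : I} {j : J} {x : X} (hx : v i j x ≠ 0) :
    v i j x = gsgn v i x := by
  unfold gsgn
  rcases h.val i j x with h2 | h2 | h2
  · exact absurd h2 hx
  · rw [if_neg, h2]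
    rintro ⟨l, hl⟩
    have := h.row i j l x
    rw [h2, hl] at this
    norm_num at this
  · rw [if_pos ⟨j, h2⟩, h2]

theorem GGrid.sum_gsup {v : I → J → X → ℤ} (h : GGrid v) (i : I) (j : J) (f : X → ℤ) :
    ∑ x ∈ gsup v i j, gsgn v i x * f x = ∑ x, v i j x * f x := by
  rw [gsup, Finset.sum_filter]
  refine Finset.sum_congr rfl fun x _ => ?_
  by_cases hx : v i j x ≠ 0
  · rw [if_pos hx, h.eq_gsgn hx]
  · rw [if_neg hx]
    push Not at hx
    rw [hx, zero_mul]

theorem GGrid.good {v : I → J → X → ℤ} (h : GGrid v) {i k : I} (hik : i ≠ k) (j : J) :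
    GGood (gsup v i j) (fun x => gsgn v i x * v k j x) := by
  refine ⟨h.card_sup i j, ?_, ?_, ?_⟩
  · rw [h.sum_gsup i j, h.inn, if_neg hik, if_pos rfl]; norm_num
  · intro x hx
    rw [← h.eq_gsgn (mem_gsup.1 hx)]
    exact h.col i k j x
  · rw [← h.three k j]
    refine Finset.sum_congr rfl fun x _ => ?_
    have := gsgn_sq v i x
    linear_combination (v k j x * v k j x) * this

theorem GGrid.rel {v : I → J → X → ℤ} (h : GGrid v) {i k : I} (hik : i ≠ k) {j l : J} (hjl : j ≠ l) :
    GRel (gsup v i j) (fun x => gsgn v i x * v k j x) (gsup v i l) (fun x => gsgn v i x * v k l x) := by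
  refine ⟨h.card_inter i hjl, ?_, ?_, ?_, ?_⟩
  · rw [h.sum_gsup i j, h.inn, if_neg hik, if_neg hjl]; norm_num
  · rw [h.sum_gsup i l, h.inn, if_neg hik, if_neg hjl.symm]; norm_num
  · have h0 : ∑ x, v k j x * v k l x = 1 := by
      rw [h.inn, if_pos rfl, if_neg hjl]; norm_num
    rw [← h0]
    refine Finset.sum_congr rfl fun x _ => ?_
    have := gsgn_sq v i x
    linear_combination (v k j x * v k l x) * this
  · intro x
    have h1 := h.row k j l x
    have := gsgn_sq v i x
    have h2 : gsgn v i x * v k j x * (gsgn v i x * v k l x) = v k j x * v k l x := by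
      linear_combination (v k j x * v k l x) * this
    rw [h2]; exact h1

theorem GGrid.common4 {v : I → J → X → ℤ} (h : GGrid v) {i k : I} (hik : i ≠ k) {a b c d : J}
    (hab : a ≠ b) (hac : a ≠ c) (had : a ≠ d) (hbc : b ≠ c) (hbd : b ≠ d) (hcd : c ≠ d) :
    ∃ x, v i a x ≠ 0 ∧ v i b x ≠ 0 ∧ v i c x ≠ 0 ∧ v i d x ≠ 0 := by
  obtain ⟨x, h1, h2, h3, h4⟩ := row_common (h.good hik a) (h.good hik b) (h.good hik c) (h.good hik d)
    (h.rel hik hab) (h.rel hik hac) (h.rel hik had) (h.rel hik hbc) (h.rel hik hbd) (h.rel hik hcd)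
  exact ⟨x, mem_gsup.1 h1, mem_gsup.1 h2, mem_gsup.1 h3, mem_gsup.1 h4⟩

theorem GGrid.point {v : I → J → X → ℤ} (h : GGrid v) {i k : I} (hik : i ≠ k)
    (hJ : 4 ≤ Fintype.card J) : ∃ x, ∀ j, v i j x ≠ 0 := by
  obtain ⟨a, b, hab⟩ : ∃ a b : J, a ≠ b := by
    have := Fintype.one_lt_card_iff.1 (show 1 < Fintype.card J by omega)
    exact this
  obtain ⟨p, hp1, hp2⟩ := inter_ex (h.card_inter i hab)
  refine ⟨p, fun j => ?_⟩
  by_cases hja : j = a
  · rw [hja]; exact mem_gsup.1 hp1
  by_cases hjb : j = b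
  · rw [hjb]; exact mem_gsup.1 hp2
  obtain ⟨d, hd⟩ : ∃ d : J, d ∉ ({a, b, j} : Finset J) := by
    by_contra hcon
    push Not at hcon
    have h1 : (Finset.univ : Finset J) ⊆ {a, b, j} := fun x _ => hcon x
    have h2 := Finset.card_le_card h1
    have h3 : ({a, b, j} : Finset J).card ≤ 3 := Finset.card_le_three
    rw [Finset.card_univ] at h2
    omega
  simp only [Finset.mem_insert, Finset.mem_singleton] at hd
  push Not at hd
  obtain ⟨x, x1, x2, x3, -⟩ := h.common4 hik hab (Ne.symm hja) (Ne.symm hd.1) (Ne.symm hjb)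
    (Ne.symm hd.2.1) (Ne.symm hd.2.2)
  have : x = p := inter_uniq (h.card_inter i hab) (mem_gsup.2 x1) (mem_gsup.2 x2) hp1 hp2
  rw [← this]; exact x3

/-- the point of a row does not occur in another row -/
theorem GGrid.point_not {v : I → J → X → ℤ} (h : GGrid v) (hJ : 4 ≤ Fintype.card J) {i k : I}
    (hik : i ≠ k) {p : X} (hp : ∀ j, v i j p ≠ 0) (l : J) : v k l p = 0 := by
  classical
  by_contra hne
  -- for `j ≠ l` there is another common point of `v i j` and `v k l`
  have key : ∀ j, j ≠ l → ∃ y, y ≠ p ∧ v i j y ≠ 0 ∧ v k l y ≠ 0 := by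
    intro j hj
    by_contra hcon
    push Not at hcon
    have h1 : ∑ x, v i j x * v k l x = 0 := by
      rw [h.inn, if_neg hik, if_neg hj]; norm_num
    rw [Finset.sum_eq_single p] at h1
    · rcases mul_eq_zero.1 h1 with h2 | h2
      · exact hp j h2
      · exact hne h2
    · intro y _ hy
      by_cases h3 : v i j y = 0
      · rw [h3, zero_mul]
      · rw [hcon y hy h3, mul_zero]
    · intro h; exact absurd (Finset.mem_univ p) h
  haveI : Nonempty X := ⟨p⟩
  choose! y hy1 hy2 hy3 using key
  -- injectivity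
  have hinj : Set.InjOn y ((Finset.univ.erase l : Finset J) : Set J) := by
    intro j hj j' hj' hyy
    by_contra hjj
    have hjl := (Finset.mem_erase.1 hj).1
    have hjl' := (Finset.mem_erase.1 hj').1
    have := inter_uniq (h.card_inter i hjj) (mem_gsup.2 (hy2 j hjl))
      (mem_gsup.2 (by rw [hyy]; exact hy2 j' hjl')) (mem_gsup.2 (hp j)) (mem_gsup.2 (hp j'))
    exact hy1 j hjl this
  have hsub : (Finset.univ.erase l : Finset J).image y ⊆ (gsup v k l).erase p := by
    intro x hx
    obtain ⟨j, hj, rfl⟩ := Finset.mem_image.1 hx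
    have hjl := (Finset.mem_erase.1 hj).1
    exact Finset.mem_erase.2 ⟨hy1 j hjl, mem_gsup.2 (hy3 j hjl)⟩
  have h1 := Finset.card_le_card hsub
  rw [Finset.card_image_of_injOn hinj, Finset.card_erase_of_mem (Finset.mem_univ l),
    Finset.card_erase_of_mem (mem_gsup.2 hne), h.card_sup, Finset.card_univ] at h1
  omega

/-- the grid theorem -/
theorem GGrid.main {v : I → J → X → ℤ} (h : GGrid v) (hJ : 4 ≤ Fintype.card J)
    (hI : Fintype.card I = 2 ∨ 4 ≤ Fintype.card I) :
    ∃ (px : I → X) (py : J → X) (pz : I → J → X) (sx : I → ℤ) (sy : J → ℤ) (sz : I → J → ℤ),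
      (∀ i, sx i = 1 ∨ sx i = -1) ∧ (∀ j, sy j = 1 ∨ sy j = -1) ∧ (∀ i j, sz i j = 1 ∨ sz i j = -1) ∧
      Function.Injective px ∧ Function.Injective py ∧ (∀ i j, px i ≠ py j) ∧
      (∀ i j k, pz i j ≠ px k) ∧ (∀ i j l, pz i j ≠ py l) ∧
      (∀ i j k l, pz i j = pz k l → i = k ∧ j = l) ∧
      (∀ i j x, v i j x = (if x = px i then sx i else 0) + (if x = py j then sy j else 0) +
        (if x = pz i j then sz i j else 0)) := by
  classical
  have hex : ∀ i : I, ∃ k, k ≠ i := by
    intro i
    have h1 : 1 < Fintype.card I := by omega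
    obtain ⟨k, hk⟩ := Fintype.exists_ne_of_one_lt_card h1 i
    exact ⟨k, hk⟩
  have hpx : ∀ i, ∃ x, ∀ j, v i j x ≠ 0 := by
    intro i
    obtain ⟨k, hk⟩ := hex i
    exact h.point hk.symm hJ
  choose px hpx using hpx
  have hpx0 : ∀ i k, i ≠ k → ∀ l, v k l (px i) = 0 := fun i k hik l => h.point_not hJ hik (hpx i) l
  -- the column points
  obtain ⟨j₀⟩ : Nonempty J := Fintype.card_pos_iff.1 (by omega)
  have hpy : ∀ j, ∃ y, ∀ i, v i j y ≠ 0 := by
    intro j
    rcases hI with hI | hI
    · have h1 : 1 < Fintype.card I := by omega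
      obtain ⟨a, b, hab⟩ := Fintype.one_lt_card_iff.1 h1
      obtain ⟨y, y1, y2⟩ := inter_ex (h.card_inter' j hab)
      refine ⟨y, fun i => ?_⟩
      by_cases hia : i = a
      · rw [hia]; exact mem_gsup.1 y1
      by_cases hib : i = b
      · rw [hib]; exact mem_gsup.1 y2
      exfalso
      have h2 : ({a, b, i} : Finset I).card = 3 := by
        rw [Finset.card_insert_of_notMem, Finset.card_insert_of_notMem, Finset.card_singleton]
        · rw [Finset.mem_singleton]; exact Ne.symm hib
        · rw [Finset.mem_insert, Finset.mem_singleton]; push Not; exact ⟨hab, Ne.symm hia⟩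
      have h3 := Finset.card_le_univ ({a, b, i} : Finset I)
      omega
    · obtain ⟨l, hl⟩ := Fintype.exists_ne_of_one_lt_card (show 1 < Fintype.card J by omega) j
      exact h.swap.point hl.symm hI
  choose py hpy using hpy
  have hxy : ∀ i j, px i ≠ py j := by
    intro i j he
    obtain ⟨k, hk⟩ := hex i
    apply hpy j k
    rw [← he]
    exact hpx0 i k hk.symm j
  have hxinj : Function.Injective px := by
    intro i k he
    by_contra hne
    apply hpx i j₀
    rw [he]
    exact hpx0 k i (Ne.symm hne) j₀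
  obtain ⟨i₀⟩ : Nonempty I := Fintype.card_pos_iff.1 (by omega)
  have hyinj : Function.Injective py := by
    intro j l he
    by_contra hne
    have := inter_uniq (h.card_inter i₀ hne) (mem_gsup.2 (hpx i₀ j)) (mem_gsup.2 (hpx i₀ l))
      (mem_gsup.2 (hpy j i₀)) (mem_gsup.2 (by rw [he]; exact hpy l i₀))
    exact hxy i₀ j this
  -- the third points
  have hthird : ∀ i j, ∃ z, z ≠ px i ∧ z ≠ py j ∧ gsup v i j = {px i, py j, z} := fun i j =>
    third (h.card_sup i j) (mem_gsup.2 (hpx i j)) (mem_gsup.2 (hpy j i)) (hxy i j)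
  choose pz hz1 hz2 hz3 using hthird
  have hzne : ∀ i j, v i j (pz i j) ≠ 0 := by
    intro i j
    apply mem_gsup.1
    rw [hz3]; simp
  have hzx : ∀ i j k, pz i j ≠ px k := by
    intro i j k he
    by_cases hik : i = k
    · rw [← hik] at he; exact hz1 i j he
    · apply hzne i j
      rw [he]; exact hpx0 k i (Ne.symm hik) j
  have hzy : ∀ i j l, pz i j ≠ py l := by
    intro i j l he
    by_cases hjl : j = l
    · rw [← hjl] at he; exact hz2 i j he
    · have := inter_uniq (h.card_inter i hjl) (mem_gsup.2 (hpx i j)) (mem_gsup.2 (hpx i l))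
        (mem_gsup.2 (hzne i j)) (mem_gsup.2 (by rw [he]; exact hpy l i))
      exact hz1 i j this.symm
  have hzz : ∀ i j k l, pz i j = pz k l → i = k ∧ j = l := by
    intro i j k l he
    by_cases hik : i = k
    · subst hik
      refine ⟨rfl, ?_⟩
      by_contra hjl
      have := inter_uniq (h.card_inter i hjl) (mem_gsup.2 (hpx i j)) (mem_gsup.2 (hpx i l))
        (mem_gsup.2 (hzne i j)) (mem_gsup.2 (by rw [he]; exact hzne i l))
      exact hz1 i j this.symm
    · by_cases hjl : j = l
      · subst hjl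
        exfalso
        have := inter_uniq (h.card_inter' j hik) (mem_gsup.2 (hpy j i)) (mem_gsup.2 (hpy j k))
          (mem_gsup.2 (hzne i j)) (mem_gsup.2 (by rw [he]; exact hzne k j))
        exact hz2 i j this.symm
      · exfalso
        have h1 : ∑ x, v i j x * v k l x = 0 := by
          rw [h.inn, if_neg hik, if_neg hjl]; norm_num
        rw [Finset.sum_eq_single (pz i j)] at h1
        · rcases mul_eq_zero.1 h1 with h2 | h2
          · exact hzne i j h2
          · rw [he] at h2; exact hzne k l h2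
        · intro x _ hx
          by_contra h3
          have h4 : x ∈ gsup v i j := mem_gsup.2 (fun h5 => h3 (by rw [h5, zero_mul]))
          have h6 : x ∈ gsup v k l := mem_gsup.2 (fun h5 => h3 (by rw [h5, mul_zero]))
          rw [hz3] at h4 h6
          simp only [Finset.mem_insert, Finset.mem_singleton] at h4 h6
          rcases h4 with h4 | h4 | h4
          · rcases h6 with h6 | h6 | h6
            · exact hik (hxinj (h4.symm.trans h6))
            · exact hxy i l (h4.symm.trans h6)
            · exact hzx k l i (h6.symm.trans h4)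
          · rcases h6 with h6 | h6 | h6
            · exact hxy k j (h6.symm.trans h4)
            · exact hjl (hyinj (h4.symm.trans h6))
            · exact hzy k l j (h6.symm.trans h4)
          · exact hx h4
        · intro h; exact absurd (Finset.mem_univ _) h
  -- signs
  have hpm : ∀ {i : I} {j : J} {x : X}, v i j x ≠ 0 → v i j x = 1 ∨ v i j x = -1 := by
    intro i j x hx
    rcases h.val i j x with h1 | h1 | h1
    · exact absurd h1 hx
    · exact Or.inl h1
    · exact Or.inr h1
  have hsx : ∀ i j, v i j (px i) = v i j₀ (px i) := by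
    intro i j
    have h1 := h.row i j j₀ (px i)
    rcases hpm (hpx i j) with h2 | h2 <;> rcases hpm (hpx i j₀) with h3 | h3 <;>
      rw [h2, h3] at h1 ⊢ <;> norm_num at h1
  have hsy : ∀ i j, v i j (py j) = v i₀ j (py j) := by
    intro i j
    have h1 := h.col i i₀ j (py j)
    rcases hpm (hpy j i) with h2 | h2 <;> rcases hpm (hpy j i₀) with h3 | h3 <;>
      rw [h2, h3] at h1 ⊢ <;> norm_num at h1
  refine ⟨px, py, pz, fun i => v i j₀ (px i), fun j => v i₀ j (py j), fun i j => v i j (pz i j),
    fun i => hpm (hpx i j₀), fun j => hpm (hpy j i₀), fun i j => hpm (hzne i j), hxinj, hyinj, hxy,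
    hzx, hzy, hzz, ?_⟩
  intro i j x
  by_cases e1 : x = px i
  · rw [if_pos e1, if_neg (fun e2 => hxy i j (e1.symm.trans e2)),
      if_neg (fun e2 => hz1 i j (e2.symm.trans e1)), e1, hsx i j]; ring
  · by_cases e2 : x = py j
    · rw [if_neg e1, if_pos e2, if_neg (fun e3 => hz2 i j (e3.symm.trans e2)), e2, hsy i j]; ring
    · by_cases e3 : x = pz i j
      · rw [if_neg e1, if_neg e2, if_pos e3, e3]; ring
      · rw [if_neg e1, if_neg e2, if_neg e3]
        by_contra h0
        have h4 : x ∈ gsup v i j := mem_gsup.2 (fun h5 => h0 (by rw [h5]; ring))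
        rw [hz3] at h4
        simp only [Finset.mem_insert, Finset.mem_singleton] at h4
        rcases h4 with h4 | h4 | h4
        · exact e1 h4
        · exact e2 h4
        · exact e3 h4

end Grid

end CfsgH4
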