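import Cfsg.Agent.H4.Cyc3
import Cfsg.Agent.H4.Grid3
import Cfsg.Agent.H4.Isom

/-!
# The cyclic TI situation, IV: existence of the family
-/

set_option autoImplicit false
open Cfsg ComplexConjugate

namespace CfsgH4

section Swap

variable {X I J : Type*} [Fintype X] [DecidableEq X] [Fintype I] [DecidableEq I] [Fintype J]
  [DecidableEq J]

theorem GGrid.main' {v : I → J → X → ℤ} (h : GGrid v)
    (hc : (4 ≤ Fintype.card J ∧ (Fintype.card I = 2 ∨ 4 ≤ Fintype.card I)) ∨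
      (4 ≤ Fintype.card I ∧ (Fintype.card J = 2 ∨ 4 ≤ Fintype.card J))) :
    ∃ (px : I → X) (py : J → X) (pz : I → J → X) (sx : I → ℤ) (sy : J → ℤ) (sz : I → J → ℤ),
      (∀ i, sx i = 1 ∨ sx i = -1) ∧ (∀ j, sy j = 1 ∨ sy j = -1) ∧ (∀ i j, sz i j = 1 ∨ sz i j = -1) ∧
      Function.Injective px ∧ Function.Injective py ∧ (∀ i j, px i ≠ py j) ∧
      (∀ i j k, pz i j ≠ px k) ∧ (∀ i j l, pz i j ≠ py l) ∧
      (∀ i j k l, pz i j = pz k l → i = k ∧ j = l) ∧
      (∀ i j x, v i j x = (if x = px i then sx i else 0) + (if x = py j then sy j else 0) +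
        (if x = pz i j then sz i j else 0)) := by
  rcases hc with ⟨h1, h2⟩ | ⟨h1, h2⟩
  · exact h.main h1 h2
  · obtain ⟨px, py, pz, sx, sy, sz, a1, a2, a3, a4, a5, a6, a7, a8, a9, a10⟩ := h.swap.main h1 h2
    refine ⟨py, px, fun i j => pz j i, sy, sx, fun i j => sz j i, a2, a1, fun i j => a3 j i, a5, a4,
      fun i j => (a6 j i).symm, fun i j k => a8 j i k, fun i j l => a7 j i l,
      fun i j k l he => (a9 j i l k he).symm, fun i j x => ?_⟩
    rw [a10 j i x]; ring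

end Swap

section NoOpp

variable {G : Type*} [Group G] [Fintype G]

theorem no_opp {β γ χ : G → ℂ} (hβ : classInner β β = 3) (hγ : classInner γ γ = 3)
    (hβγ : classInner β γ = 1) (h1 : β 1 = γ 1) (hχ : IsIrrCharacter G χ)
    (hb : classInner β χ = 1) (hc : classInner γ χ = -1) : False := by
  have e1 : classInner γ β = 1 := by rw [← classInner_conj_symm, hβγ, map_one]
  have e2 : classInner χ β = 1 := by rw [← classInner_conj_symm, hb, map_one]
  have e3 : classInner χ γ = -1 := by rw [← classInner_conj_symm, hc, map_neg, map_one]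
  have h2 : classInner (β - γ - (2 : ℂ) • χ) (β - γ - (2 : ℂ) • χ) = 0 := by
    simp only [classInner_sub_left, classInner_sub_right, classInner_smul_left, classInner_smul_right,
      hβ, hγ, hβγ, e1, e2, e3, hb, hc, classInner_irr_self hχ, Complex.conj_ofNat]
    norm_num
  have h3 := classInner_self_eq_zero h2
  have h4 := congrFun h3 1
  rw [Pi.sub_apply, Pi.sub_apply, h1, sub_self, Pi.smul_apply, smul_eq_mul, zero_sub, Pi.zero_apply,
    neg_eq_zero] at h4
  rcases mul_eq_zero.1 h4 with h5 | h5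
  · norm_num at h5
  · exact IsIrr.one_ne_zero hχ h5

end NoOpp

section Cyc

variable {G : Type*} [Group G] [Fintype G] {W₁ W₂ : Subgroup G}

theorem coprime_W (hW : IsSelfNormalizingCyclic W₁ W₂) : (Nat.card W₁).Coprime (Nat.card W₂) := by
  obtain ⟨-, -, hdisj, -, hcyc, -⟩ := hW
  haveI := hcyc
  by_contra hcon
  obtain ⟨p, hp, h1, h2⟩ := Nat.Prime.not_coprime_iff_dvd.1 hcon
  haveI := Fact.mk hp
  obtain ⟨a, ha⟩ := exists_prime_orderOf_dvd_card' p h1
  obtain ⟨b, hb⟩ := exists_prime_orderOf_dvd_card' p h2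
  have h3 : Subgroup.zpowers (⟨a, Subgroup.mem_sup_left a.2⟩ : ↥(W₁ ⊔ W₂)) =
      Subgroup.zpowers (⟨b, Subgroup.mem_sup_right b.2⟩ : ↥(W₁ ⊔ W₂)) := by
    apply CfsgH2.zpowers_eq_of_orderOf_eq
    rw [Subgroup.orderOf_mk, Subgroup.orderOf_mk, Subgroup.orderOf_coe, Subgroup.orderOf_coe, ha, hb]
  have h4 := congrArg (Subgroup.map (W₁ ⊔ W₂).subtype) h3
  rw [MonoidHom.map_zpowers, MonoidHom.map_zpowers] at h4
  have h5 : (a : G) ∈ Subgroup.zpowers (b : G) := by
    have : (a : G) ∈ Subgroup.zpowers (a : G) := Subgroup.mem_zpowers _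
    have h6 : Subgroup.zpowers (a : G) = Subgroup.zpowers (b : G) := h4
    rw [← h6]; exact this
  have h6 : (a : G) ∈ W₂ := (Subgroup.zpowers_le.2 b.2) h5
  have h7 : (a : G) ∈ W₁ ⊓ W₂ := ⟨a.2, h6⟩
  rw [hdisj, Subgroup.mem_bot] at h7
  have h8 : a = 1 := Subtype.ext h7
  rw [h8, orderOf_one] at ha
  exact hp.one_lt.ne ha

/-- existence of the family -/
theorem cyc_exists (hW : IsSelfNormalizingCyclic W₁ W₂) (hodd : Odd (Nat.card ↥(W₁ ⊔ W₂))) :
    ∃ χ : (↥(W₁ ⊔ W₂) →* ℂˣ) → (G → ℂ), IsCyclicTIFamily W₁ W₂ χ := by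
  classical
  have hcomm := hW.2.2.2.1
  have hdisj := hW.2.2.1
  have hab := IsSNC.hab hW
  haveI := finite_hom_units ↥(W₁ ⊔ W₂)
  haveI : Fintype ↥(W₁ ⊔ W₂) := Fintype.ofFinite _
  obtain ⟨c1, c2⟩ := card_Tr hcomm hdisj hab
  have t1 : 3 ≤ Nat.card W₁ := three_le_of_odd hW.1 (odd_of_le le_sup_left hodd)
  have t2 : 3 ≤ Nat.card W₂ := three_le_of_odd hW.2.1 (odd_of_le le_sup_right hodd)
  have o1 : Odd (Nat.card W₁) := odd_of_le le_sup_left hodd
  have o2 : Odd (Nat.card W₂) := odd_of_le le_sup_right hodd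
  have hcop := coprime_W hW
  let T2 := {φ : ↥(W₁ ⊔ W₂) →* ℂˣ // Tr2 W₁ W₂ φ}
  let T1 := {ψ : ↥(W₁ ⊔ W₂) →* ℂˣ // Tr1 W₁ W₂ ψ}
  let I := {φ : T2 // φ.1 ≠ 1}
  let J := {ψ : T1 // ψ.1 ≠ 1}
  haveI : Fintype T2 := Fintype.ofFinite _
  haveI : Fintype T1 := Fintype.ofFinite _
  haveI : Fintype I := Fintype.ofFinite _
  haveI : Fintype J := Fintype.ofFinite _
  have hcI : Fintype.card I = Nat.card W₁ - 1 := by
    have h1 : Fintype.card I = Fintype.card {φ : T2 // ¬ φ = ⟨1, Tr2.one⟩} :=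
      Fintype.card_congr (Equiv.subtypeEquivRight fun φ => by
        rw [Ne, Subtype.ext_iff])
    rw [h1, Fintype.card_subtype_compl, Fintype.card_subtype_eq, ← c1, Nat.card_eq_fintype_card]
  have hcJ : Fintype.card J = Nat.card W₂ - 1 := by
    have h1 : Fintype.card J = Fintype.card {φ : T1 // ¬ φ = ⟨1, Tr1.one⟩} :=
      Fintype.card_congr (Equiv.subtypeEquivRight fun φ => by
        rw [Ne, Subtype.ext_iff])
    rw [h1, Fintype.card_subtype_compl, Fintype.card_subtype_eq, ← c2, Nat.card_eq_fintype_card]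
  -- the functions `β`
  have hWg : ∀ (φ ψ : ↥(W₁ ⊔ W₂) →* ℂˣ), IsGeneralizedCharacter ↥(W₁ ⊔ W₂) (alf φ ψ) := by
    intro φ ψ
    have hl : ∀ ω : ↥(W₁ ⊔ W₂) →* ℂˣ, IsGeneralizedCharacter ↥(W₁ ⊔ W₂) (lch ω) := fun ω =>
      IsCharacter.isGen (IsIrr.isCharacter (isCharacter_one_dim ω))
    rw [alf_eq]
    exact isGen_add (isGen_sub (isGen_sub (hl 1) (hl φ)) (hl ψ)) (hl (φ * ψ))
  set one : G → ℂ := fun _ => 1 with hone
  have hone_irr : IsIrrCharacter G one := isIrrCharacter_one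
  set β : I → J → (G → ℂ) := fun i j => indFun (W₁ ⊔ W₂) (alf i.1.1 j.1.1) - one with hβ
  have hβg : ∀ i j, IsGeneralizedCharacter G (β i j) := fun i j =>
    isGen_sub (isGen_indFun _ (hWg _ _)) (IsCharacter.isGen (IsIrr.isCharacter hone_irr))
  have hind1 : ∀ (i : I) (j : J), classInner (indFun (W₁ ⊔ W₂) (alf i.1.1 j.1.1)) one = 1 := by
    intro i j
    rw [frobenius _ _ isClassFunction_one]
    have h1 := alf_inner hcomm i.1.2 j.1.2 (Tr2.one (W₁ := W₁) (W₂ := W₂)) (Tr1.one (W₁ := W₁) (W₂ := W₂))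
    rw [mul_one (1 : ↥(W₁ ⊔ W₂) →* ℂˣ), if_pos rfl, if_neg (Ne.symm i.2), if_neg (Ne.symm j.2)] at h1
    have h2 : (lch (1 : ↥(W₁ ⊔ W₂) →* ℂˣ)) = fun _ => 1 := by ext w; simp [lch]
    rw [h2] at h1
    rw [h1]; ring
  have hβ1 : ∀ i j, classInner (β i j) one = 0 := by
    intro i j
    rw [hβ]
    simp only
    rw [classInner_sub_left, hind1 i j, classInner_irr_self hone_irr, sub_self]
  have hβone : ∀ i j, β i j 1 = -1 := by
    intro i j
    show indFun (W₁ ⊔ W₂) (alf i.1.1 j.1.1) 1 - 1 = -1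
    rw [indFun_one]
    simp [alf]
  have hββ : ∀ i j k l, classInner (β i j) (β k l) = (if i = k then 1 else 0) + (if j = l then 1 else 0) +
      (if i = k then 1 else 0) * (if j = l then 1 else 0) := by
    intro i j k l
    have h1 : classInner (indFun (W₁ ⊔ W₂) (alf i.1.1 j.1.1)) (indFun (W₁ ⊔ W₂) (alf k.1.1 l.1.1)) =
        classInner (alf i.1.1 j.1.1) (alf k.1.1 l.1.1) := by
      refine classInner_indFun_TI ((↑(W₁ ⊔ W₂) : Set G) \ (↑W₁ ∪ ↑W₂)) (W₁ ⊔ W₂) (tiW' hW) _ _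
        ?_ (alf_supp i.1.2 j.1.2) (alf_supp k.1.2 l.1.2) ?_
      · intro x y
        congr 1
        rw [hab y x]; group
      · simp [alf]
    have h2 : classInner (indFun (W₁ ⊔ W₂) (alf k.1.1 l.1.1)) one = 1 := hind1 k l
    have h3 : classInner one (indFun (W₁ ⊔ W₂) (alf k.1.1 l.1.1)) = 1 := by
      rw [← classInner_conj_symm, h2, map_one]
    rw [hβ]
    simp only
    rw [classInner_sub_left, classInner_sub_right, classInner_sub_right, h1, hind1 i j, h3,
      classInner_irr_self hone_irr, alf_alf hcomm i.1.2 j.1.2 k.1.2 l.1.2 i.2 k.2 j.2 l.2]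
    have e1 : (i.1.1 = k.1.1) = (i = k) := by
      apply propext
      exact ⟨fun h => Subtype.ext (Subtype.ext h), fun h => by rw [h]⟩
    have e2 : (j.1.1 = l.1.1) = (j = l) := by
      apply propext
      exact ⟨fun h => Subtype.ext (Subtype.ext h), fun h => by rw [h]⟩
    simp only [e1, e2]
    ring
  -- integer coefficients
  have hvex : ∀ (i : I) (j : J) (χ : IrrCharacter G), ∃ n : ℤ, classInner (β i j) (χ : G → ℂ) = n :=
    fun i j χ => IsGen.inner_int (hβg i j) (IsCharacter.isGen (IsIrr.isCharacter χ.2))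
  choose v hv using hvex
  have hβ3 : ∀ i j, classInner (β i j) (β i j) = 3 := by
    intro i j; rw [hββ, if_pos rfl, if_pos rfl]; norm_num
  have hv1 : ∀ i j χ, v i j χ = 0 ∨ v i j χ = 1 ∨ v i j χ = -1 := by
    intro i j χ
    have h1 := sq_le_norm χ.2 (hv i j χ)
    rw [hβ3] at h1
    have h2 : ((v i j χ : ℝ)) ^ 2 ≤ 3 := by
      have : ((3 : ℂ)).re = 3 := by norm_num
      rwa [this] at h1
    have h3 : (v i j χ) ^ 2 ≤ 3 := by exact_mod_cast h2
    have h4 : -1 ≤ v i j χ := by nlinarith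
    have h5 : v i j χ ≤ 1 := by nlinarith
    omega
  have hgrid : GGrid v := by
    refine ⟨fun i j k l => ?_, fun i j l χ => ?_, fun i k j χ => ?_⟩
    · have h1 := hββ i j k l
      rw [parseval (IsGen.isClassFunction (hβg i j)) (IsGen.isClassFunction (hβg k l))] at h1
      have h2 : ∑ χ : IrrCharacter G, ((v i j χ * v k l χ : ℤ) : ℂ) =
          (((if i = k then 1 else 0) + (if j = l then 1 else 0) +
            (if i = k then 1 else 0) * (if j = l then 1 else 0) : ℤ) : ℂ) := by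
        push_cast
        rw [← h1]
        refine Finset.sum_congr rfl fun χ _ => ?_
        rw [hv i j χ, hv k l χ, map_intCast]
      exact_mod_cast h2
    · by_cases hjl : j = l
      · rw [hjl]; exact mul_self_nonneg _
      by_contra hneg
      have h0 : classInner (β i j) (β i l) = 1 := by
        rw [hββ, if_pos rfl, if_neg hjl]; norm_num
      have h0' : classInner (β i l) (β i j) = 1 := by
        rw [hββ, if_pos rfl, if_neg (Ne.symm hjl)]; norm_num
      rcases hv1 i j χ with h2 | h2 | h2 <;> rcases hv1 i l χ with h3 | h3 | h3 <;>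
        rw [h2, h3] at hneg <;> norm_num at hneg
      · exact no_opp (hβ3 i j) (hβ3 i l) h0 (by rw [hβone, hβone]) χ.2
          (by rw [hv, h2]; norm_num) (by rw [hv, h3]; norm_num)
      · exact no_opp (hβ3 i l) (hβ3 i j) h0' (by rw [hβone, hβone]) χ.2
          (by rw [hv, h3]; norm_num) (by rw [hv, h2]; norm_num)
    · by_cases hik : i = k
      · rw [hik]; exact mul_self_nonneg _
      by_contra hneg
      have h0 : classInner (β i j) (β k j) = 1 := by
        rw [hββ, if_pos rfl, if_neg hik]; norm_num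
      have h0' : classInner (β k j) (β i j) = 1 := by
        rw [hββ, if_pos rfl, if_neg (Ne.symm hik)]; norm_num
      rcases hv1 i j χ with h2 | h2 | h2 <;> rcases hv1 k j χ with h3 | h3 | h3 <;>
        rw [h2, h3] at hneg <;> norm_num at hneg
      · exact no_opp (hβ3 i j) (hβ3 k j) h0 (by rw [hβone, hβone]) χ.2
          (by rw [hv, h2]; norm_num) (by rw [hv, h3]; norm_num)
      · exact no_opp (hβ3 k j) (hβ3 i j) h0' (by rw [hβone, hβone]) χ.2
          (by rw [hv, h3]; norm_num) (by rw [hv, h2]; norm_num)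
  have hcards : (4 ≤ Fintype.card J ∧ (Fintype.card I = 2 ∨ 4 ≤ Fintype.card I)) ∨
      (4 ≤ Fintype.card I ∧ (Fintype.card J = 2 ∨ 4 ≤ Fintype.card J)) := by
    rw [hcI, hcJ]
    obtain ⟨a, ha⟩ := o1
    obtain ⟨b, hb⟩ := o2
    have : ¬ (Nat.card W₁ = 3 ∧ Nat.card W₂ = 3) := by
      rintro ⟨h1, h2⟩
      rw [h1, h2] at hcop
      norm_num at hcop
    omega
  obtain ⟨px, py, pz, sx, sy, sz, a1, a2, a3, a4, a5, a6, a7, a8, a9, a10⟩ := hgrid.main' hcards
  have ne1 : ∀ i j, pz i j ≠ px i := fun i j => a7 i j i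
  -- the principal character does not occur
  set tr : IrrCharacter G := ⟨one, hone_irr⟩ with htr
  have hvtr : ∀ i j, v i j tr = 0 := by
    intro i j
    have h1 := hv i j tr
    rw [show ((tr : IrrCharacter G) : G → ℂ) = one from rfl, hβ1 i j] at h1
    exact_mod_cast h1.symm
  obtain ⟨i₀⟩ : Nonempty I := Fintype.card_pos_iff.1 (by omega)
  obtain ⟨j₀⟩ : Nonempty J := Fintype.card_pos_iff.1 (by omega)
  have nz : ∀ {s : ℤ}, (s = 1 ∨ s = -1) → s ≠ 0 := by
    intro s hs; rcases hs with rfl | rfl <;> norm_num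
  have b1 : ∀ i, px i ≠ tr := by
    intro i he
    have h1 := a10 i j₀ (px i)
    rw [if_pos rfl, if_neg (a6 i j₀), if_neg (Ne.symm (a7 i j₀ i)), he, hvtr] at h1
    exact nz (a1 i) (by linarith)
  have b2 : ∀ j, py j ≠ tr := by
    intro j he
    have h1 := a10 i₀ j (py j)
    rw [if_neg (Ne.symm (a6 i₀ j)), if_pos rfl, if_neg (Ne.symm (a8 i₀ j j)), he, hvtr] at h1
    exact nz (a2 j) (by linarith)
  have b3 : ∀ i j, pz i j ≠ tr := by
    intro i j he
    have h1 := a10 i j (pz i j)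
    rw [if_neg (a7 i j i), if_neg (a8 i j j), if_pos rfl, he, hvtr] at h1
    exact nz (a3 i j) (by linarith)
  -- the family
  set e := dualEquiv hcomm hdisj with he
  set P : T2 × T1 → IrrCharacter G := fun q =>
    if h1 : q.1.1 = 1 then (if h2 : q.2.1 = 1 then tr else py ⟨q.2, h2⟩)
    else (if h2 : q.2.1 = 1 then px ⟨q.1, h1⟩ else pz ⟨q.1, h1⟩ ⟨q.2, h2⟩) with hP
  set Sg : T2 × T1 → ℤ := fun q =>
    if h1 : q.1.1 = 1 then (if h2 : q.2.1 = 1 then 1 else -sy ⟨q.2, h2⟩)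
    else (if h2 : q.2.1 = 1 then -sx ⟨q.1, h1⟩ else sz ⟨q.1, h1⟩ ⟨q.2, h2⟩) with hSg
  have hSgn : ∀ q, Sg q = 1 ∨ Sg q = -1 := by
    intro q
    simp only [hSg]
    split_ifs with h1 h2 h2
    · left; rfl
    · rcases a2 ⟨q.2, h2⟩ with h | h <;> rw [h] <;> norm_num
    · rcases a1 ⟨q.1, h1⟩ with h | h <;> rw [h] <;> norm_num
    · exact a3 _ _
  have hPinj : Function.Injective P := by
    rintro ⟨φ, ψ⟩ ⟨φ', ψ'⟩ hq
    simp only [hP] at hq
    by_cases h1 : φ.1 = 1 <;> by_cases h2 : ψ.1 = 1 <;> by_cases h3 : φ'.1 = 1 <;>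
      by_cases h4 : ψ'.1 = 1 <;>
      simp only [h1, h2, h3, h4, dif_pos, dif_neg, not_false_eq_true] at hq
    · exact Prod.ext (Subtype.ext (h1.trans h3.symm)) (Subtype.ext (h2.trans h4.symm))
    · exact absurd hq.symm (b2 _)
    · exact absurd hq.symm (b1 _)
    · exact absurd hq.symm (b3 _ _)
    · exact absurd hq (b2 _)
    · have := a5 hq
      exact Prod.ext (Subtype.ext (h1.trans h3.symm)) (congrArg (fun z : J => z.1) this)
    · exact absurd hq.symm (a6 _ _)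
    · exact absurd hq.symm (a8 _ _ _)
    · exact absurd hq (b1 _)
    · exact absurd hq (a6 _ _)
    · have := a4 hq
      exact Prod.ext (congrArg (fun z : I => z.1) this) (Subtype.ext (h2.trans h4.symm))
    · exact absurd hq.symm (a7 _ _ _)
    · exact absurd hq (b3 _ _)
    · exact absurd hq (a8 _ _ _)
    · exact absurd hq (a7 _ _ _)
    · have := a9 _ _ _ _ hq
      exact Prod.ext (congrArg (fun z : I => z.1) this.1) (congrArg (fun z : J => z.1) this.2)
  set F : (↥(W₁ ⊔ W₂) →* ℂˣ) → (G → ℂ) := fun ω => ((Sg (e.symm ω) : ℤ) : ℂ) • (P (e.symm ω) : G → ℂ)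
    with hF
  have hesymm : ∀ (φ : T2) (ψ : T1), e.symm (φ.1 * ψ.1) = (φ, ψ) := fun φ ψ =>
    e.symm_apply_apply (φ, ψ)
  have horth : ∀ ω ω', classInner (F ω) (F ω') = if ω = ω' then 1 else 0 := by
    intro ω ω'
    simp only [hF]
    rw [classInner_smul_left, classInner_smul_right, map_intCast, classInner_irr']
    by_cases h : ω = ω'
    · rw [h, if_pos rfl, if_pos rfl]
      rcases hSgn (e.symm ω') with h1 | h1 <;> rw [h1] <;> norm_num
    · rw [if_neg h, if_neg, mul_zero, mul_zero]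
      intro h1
      exact h (e.symm.injective (hPinj h1))
  have hFone : F 1 = one := by
    have h1 : e.symm 1 = (⟨1, Tr2.one⟩, ⟨1, Tr1.one⟩) := by
      have := hesymm ⟨1, Tr2.one⟩ ⟨1, Tr1.one⟩
      rwa [mul_one (1 : ↥(W₁ ⊔ W₂) →* ℂˣ)] at this
    simp only [hF, h1, hSg, hP, dif_pos]
    rw [Int.cast_one, one_smul]
  have hFφ : ∀ i : I, F i.1.1 = -((sx i : ℂ) • (px i : G → ℂ)) := by
    intro i
    have h1 : e.symm i.1.1 = (i.1, ⟨1, Tr1.one⟩) := by
      have := hesymm i.1 ⟨1, Tr1.one⟩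
      rwa [mul_one i.1.1] at this
    simp only [hF, h1, hSg, hP, dif_neg i.2, dif_pos]
    rw [Int.cast_neg, neg_smul]
  have hFψ : ∀ j : J, F j.1.1 = -((sy j : ℂ) • (py j : G → ℂ)) := by
    intro j
    have h1 : e.symm j.1.1 = (⟨1, Tr2.one⟩, j.1) := by
      have := hesymm ⟨1, Tr2.one⟩ j.1
      rwa [one_mul j.1.1] at this
    simp only [hF, h1, hSg, hP, dif_neg j.2, dif_pos]
    rw [Int.cast_neg, neg_smul]
  have hFφψ : ∀ (i : I) (j : J), F (i.1.1 * j.1.1) = (sz i j : ℂ) • (pz i j : G → ℂ) := by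
    intro i j
    simp only [hF, hesymm i.1 j.1, hSg, hP, dif_neg i.2, dif_neg j.2]
    rfl
  have hβe : ∀ i j, β i j = (sx i : ℂ) • (px i : G → ℂ) + (sy j : ℂ) • (py j : G → ℂ) +
      (sz i j : ℂ) • (pz i j : G → ℂ) := by
    intro i j
    rw [classFun_expand (IsGen.isClassFunction (hβg i j))]
    have h1 : ∀ χ : IrrCharacter G, classInner (β i j) (χ : G → ℂ) • (χ : G → ℂ) =
        (if χ = px i then (sx i : ℂ) • (χ : G → ℂ) else 0) +
        (if χ = py j then (sy j : ℂ) • (χ : G → ℂ) else 0) +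
        (if χ = pz i j then (sz i j : ℂ) • (χ : G → ℂ) else 0) := by
      intro χ
      rw [hv i j χ, a10 i j χ]
      by_cases e1 : χ = px i
      · rw [if_pos e1, if_neg (fun e2 => a6 i j (e1.symm.trans e2)),
          if_neg (fun e2 => a7 i j i (e2.symm.trans e1)), if_pos e1,
          if_neg (fun e2 => a6 i j (e1.symm.trans e2)),
          if_neg (fun e2 => a7 i j i (e2.symm.trans e1))]
        simp
      · by_cases e2 : χ = py j
        · rw [if_neg e1, if_pos e2, if_neg (fun e3 => a8 i j j (e3.symm.trans e2)), if_neg e1,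
            if_pos e2, if_neg (fun e3 => a8 i j j (e3.symm.trans e2))]
          simp
        · by_cases e3 : χ = pz i j
          · rw [if_neg e1, if_neg e2, if_pos e3, if_neg e1, if_neg e2, if_pos e3]; simp
          · rw [if_neg e1, if_neg e2, if_neg e3, if_neg e1, if_neg e2, if_neg e3]; simp
    rw [Finset.sum_congr rfl (fun χ _ => h1 χ), Finset.sum_add_distrib, Finset.sum_add_distrib,
      Finset.sum_ite_eq', Finset.sum_ite_eq', Finset.sum_ite_eq', if_pos (Finset.mem_univ _),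
      if_pos (Finset.mem_univ _), if_pos (Finset.mem_univ _)]
  have hind : ∀ φ ψ : ↥(W₁ ⊔ W₂) →* ℂˣ, φ ≠ 1 → ψ ≠ 1 → Tr2 W₁ W₂ φ → Tr1 W₁ W₂ ψ →
      indFun (W₁ ⊔ W₂) (alf φ ψ) = F 1 - F φ - F ψ + F (φ * ψ) := by
    intro φ ψ nφ nψ hφ hψ
    have h1 := hβe ⟨⟨φ, hφ⟩, nφ⟩ ⟨⟨ψ, hψ⟩, nψ⟩
    have h2 := hFφ ⟨⟨φ, hφ⟩, nφ⟩
    have h3 := hFψ ⟨⟨ψ, hψ⟩, nψ⟩
    have h4 := hFφψ ⟨⟨φ, hφ⟩, nφ⟩ ⟨⟨ψ, hψ⟩, nψ⟩
    simp only at h2 h3 h4
    rw [h2, h3, h4, hFone]
    have h5 : indFun (W₁ ⊔ W₂) (alf φ ψ) = one + β ⟨⟨φ, hφ⟩, nφ⟩ ⟨⟨ψ, hψ⟩, nψ⟩ := by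
      rw [hβ]; simp only; abel
    rw [h5, h1]; abel
  have hsgnF : ∀ ω, IsIrrCharacter G (F ω) ∨ IsIrrCharacter G (-F ω) := by
    intro ω
    simp only [hF]
    rcases hSgn (e.symm ω) with h | h
    · left; rw [h, Int.cast_one, one_smul]; exact (P (e.symm ω)).2
    · right; rw [h, Int.cast_neg, Int.cast_one, neg_smul, one_smul, neg_neg]; exact (P (e.symm ω)).2
  have hcfF : ∀ ω, IsClassFunction G (F ω) := fun ω => IsSgn.classFun (hsgnF ω)
  refine ⟨F, hsgnF, ?_, hFone, ?_, ?_⟩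
  · intro ω ω'
    rw [horth]
    congr
  · -- values
    intro ω w hw1 hw2
    have hz := zero_of_orth (f := fun w : ↥(W₁ ⊔ W₂) => F ω w - (ω w : ℂ)) hcomm hdisj hab ?_ hw1 hw2
    · exact sub_eq_zero.1 hz
    · intro φ ψ hφ hψ
      have h1 : (fun w : ↥(W₁ ⊔ W₂) => F ω w - (ω w : ℂ)) = (fun w : ↥(W₁ ⊔ W₂) => F ω w) - lch ω := rfl
      rw [h1, classInner_sub_right, ← frobenius (W₁ ⊔ W₂) (alf φ ψ) (hcfF ω)]
      have h2 : indFun (W₁ ⊔ W₂) (alf φ ψ) = F 1 - F φ - F ψ + F (φ * ψ) := by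
        by_cases nφ : φ = 1
        · subst nφ
          rw [alf_one_left, indFun_zero, one_mul ψ]; abel
        by_cases nψ : ψ = 1
        · subst nψ
          rw [alf_one_right, indFun_zero, mul_one φ]; abel
        exact hind φ ψ nφ nψ hφ hψ
      rw [h2, classInner_add_left, classInner_sub_left, classInner_sub_left, horth, horth, horth, horth,
        alf_eq, classInner_add_left, classInner_sub_left, classInner_sub_left, lch_inner, lch_inner,
        lch_inner, lch_inner]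
      ring
  · intro φ ψ nφ nψ hφ hψ
    have h1 := hind φ ψ nφ nψ hφ hψ
    rw [hFone] at h1
    exact h1

end Cyc

end CfsgH4
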