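import Cfsg.Agent.H4.Cyc4
import Cfsg.Agent.H4.Dade1

/-!
# The cyclic TI situation, V: the Frobenius-like case (Peterfalvi 4.3)
-/

set_option autoImplicit false
open Cfsg ComplexConjugate

namespace CfsgH4

section Setup

variable {L : Type*} [Group L] [Finite L] {K W₁ W₂ : Subgroup L}

/-- the standard hypothesis -/
structure Hyp42 (K W₁ W₂ : Subgroup L) : Prop where
  normal : K.Normal
  inf : K ⊓ W₁ = ⊥
  sup : K ⊔ W₁ = ⊤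
  ne1 : W₁ ≠ ⊥
  cyc1 : IsCyclic W₁
  hall : Nat.Coprime (Nat.card W₁) W₁.index
  ne2 : W₂ ≠ ⊥
  cyc2 : IsCyclic W₂
  le : W₂ ≤ K
  cent : ∀ x ∈ W₁, x ≠ 1 → K ⊓ Subgroup.centralizer ({x} : Set L) = W₂
  odd : Odd (Nat.card ↥(W₁ ⊔ W₂))

theorem Hyp42.comm (h : Hyp42 K W₁ W₂) : ∀ a ∈ W₁, ∀ b ∈ W₂, a * b = b * a := by
  intro a ha b hb
  by_cases h1 : a = 1
  · subst h1; simp
  · rw [← h.cent a ha h1] at hb
    exact (Subgroup.mem_centralizer_singleton_iff.1 hb.2).symm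

theorem Hyp42.disj (h : Hyp42 K W₁ W₂) : W₁ ⊓ W₂ = ⊥ := by
  rw [eq_bot_iff, ← h.inf]
  exact fun z hz => ⟨h.le hz.2, hz.1⟩

theorem Hyp42.index (h : Hyp42 K W₁ W₂) : W₁.index = Nat.card K := by
  haveI := h.normal
  have h1 := card_sup_disj (N := K) (D := W₁) (by rw [Subgroup.normalizer_eq_top]; exact le_top) h.inf
  rw [h.sup, Subgroup.card_top] at h1
  have h2 := Subgroup.card_mul_index W₁
  rw [h1] at h2
  exact Nat.eq_of_mul_eq_mul_left (Nat.card_pos (α := W₁)) (by rw [h2, mul_comm])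

theorem Hyp42.cop (h : Hyp42 K W₁ W₂) : Nat.Coprime (Nat.card W₁) (Nat.card K) := by
  rw [← h.index]; exact h.hall

theorem Hyp42.cop2 (h : Hyp42 K W₁ W₂) : Nat.Coprime (Nat.card W₁) (Nat.card W₂) :=
  Nat.Coprime.coprime_dvd_right (Subgroup.card_dvd_of_le h.le) h.cop

theorem Hyp42.dec (h : Hyp42 K W₁ W₂) : ∀ z ∈ W₁ ⊔ W₂, ∃ a ∈ W₁, ∃ b ∈ W₂, z = a * b :=
  fun _ hz => exists_of_mem_sup (norm_of_comm h.comm) hz

theorem Hyp42.abel (h : Hyp42 K W₁ W₂) : ∀ z ∈ W₁ ⊔ W₂, ∀ w ∈ W₁ ⊔ W₂, z * w = w * z := by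
  haveI := h.cyc1
  haveI := h.cyc2
  have c1 : ∀ a ∈ W₁, ∀ b ∈ W₁, a * b = b * a := fun a ha b hb => by
    letI := IsCyclic.commGroup (α := W₁)
    exact congrArg Subtype.val (mul_comm (⟨a, ha⟩ : W₁) ⟨b, hb⟩)
  have c2 : ∀ a ∈ W₂, ∀ b ∈ W₂, a * b = b * a := fun a ha b hb => by
    letI := IsCyclic.commGroup (α := W₂)
    exact congrArg Subtype.val (mul_comm (⟨a, ha⟩ : W₂) ⟨b, hb⟩)
  intro z hz w hw
  obtain ⟨a, ha, b, hb, rfl⟩ := h.dec z hz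
  obtain ⟨c, hc, d, hd, rfl⟩ := h.dec w hw
  calc a * b * (c * d) = a * (b * c) * d := by group
    _ = a * (c * b) * d := by rw [h.comm c hc b hb]
    _ = (a * c) * (b * d) := by group
    _ = (c * a) * (d * b) := by rw [c1 a ha c hc, c2 b hb d hd]
    _ = c * (a * d) * b := by group
    _ = c * (d * a) * b := by rw [h.comm a ha d hd]
    _ = c * d * (a * b) := by group

theorem Hyp42.abel' (h : Hyp42 K W₁ W₂) (a b : ↥(W₁ ⊔ W₂)) : a * b = b * a :=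
  Subtype.ext (h.abel a a.2 b b.2)

theorem Hyp42.ti (h : Hyp42 K W₁ W₂) {x g : L} (hx : x ∈ W₁ ⊔ W₂) (hx2 : x ∉ W₂)
    (hgx : g * x * g⁻¹ ∈ W₁ ⊔ W₂) : g ∈ W₁ ⊔ W₂ := by
  haveI hK := h.normal
  obtain ⟨a, ha, b, hb, hxe⟩ := h.dec x hx
  have ha1 : a ≠ 1 := by
    rintro rfl
    apply hx2
    rw [hxe, one_mul]; exact hb
  have hg2 : g ∈ K ⊔ W₁ := by rw [h.sup]; trivial
  obtain ⟨k, hk, w, hw, hge⟩ := exists_of_mem_sup
    (by rw [Subgroup.normalizer_eq_top]; exact le_top) hg2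
  have hwx : w * x * w⁻¹ = x := by
    rw [h.abel w (Subgroup.mem_sup_left hw) x hx]; group
  have h1 : k * x * k⁻¹ ∈ W₁ ⊔ W₂ := by
    have e : g * x * g⁻¹ = k * (w * x * w⁻¹) * k⁻¹ := by rw [hge]; group
    rwa [e, hwx] at hgx
  obtain ⟨c, hc, d, hd, hce⟩ := h.dec _ h1
  have hca : c = a := by
    have h2 : a⁻¹ * c ∈ K ⊓ W₁ := by
      refine ⟨?_, W₁.mul_mem (W₁.inv_mem ha) hc⟩
      have e : a⁻¹ * c = (a⁻¹ * k * a) * b * k⁻¹ * d⁻¹ := by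
        have : c = k * x * k⁻¹ * d⁻¹ := by rw [hce]; group
        rw [this, hxe]; group
      rw [e]
      refine K.mul_mem (K.mul_mem (K.mul_mem ?_ (h.le hb)) (K.inv_mem hk)) (K.inv_mem (h.le hd))
      have := hK.conj_mem k hk a⁻¹
      simpa using this
    rw [h.inf, Subgroup.mem_bot] at h2
    exact (inv_mul_eq_one.1 h2).symm
  have h3 : k * (b * a) * k⁻¹ = d * c := by
    rw [← h.comm a ha b hb, ← hxe, hce, h.comm c hc d hd]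
  have h4 := crt_conj (m := Nat.card W₂) (n := Nat.card W₁) h.cop2.symm (h.comm a ha b hb).symm
    (h.comm c hc d hd).symm (Subgroup.orderOf_dvd_natCard _ hb)
    (Subgroup.orderOf_dvd_natCard _ ha) (Subgroup.orderOf_dvd_natCard _ hd)
    (Subgroup.orderOf_dvd_natCard _ hc) h3
  rw [hca] at h4
  have h5 : k ∈ W₂ := by
    rw [← h.cent a ha ha1]
    exact ⟨hk, Subgroup.mem_centralizer_singleton_iff.2 (mul_inv_eq_iff_eq_mul.1 h4)⟩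
  rw [hge]
  exact Subgroup.mul_mem _ (Subgroup.mem_sup_right h5) (Subgroup.mem_sup_left hw)

theorem Hyp42.ti' (h : Hyp42 K W₁ W₂) (g : L) (hg : g ∉ W₁ ⊔ W₂) (t : L)
    (ht : t ∈ (↑(W₁ ⊔ W₂) : Set L) \ ↑W₂) (ht' : g * t * g⁻¹ ∈ (↑(W₁ ⊔ W₂) : Set L) \ ↑W₂) : t = 1 :=
  absurd (h.ti ht.1 ht.2 ht'.1) hg

end Setup

section Dual

variable {G : Type*} [Group G] [Finite G] {W₁ W₂ : Subgroup G}

/-- a character trivial on `W₂` that is nontrivial at `w` -/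
theorem exists_T2_ne (hcomm : ∀ a ∈ W₁, ∀ b ∈ W₂, a * b = b * a) (hdisj : W₁ ⊓ W₂ = ⊥)
    (hab : ∀ a b : ↥(W₁ ⊔ W₂), a * b = b * a) {w : ↥(W₁ ⊔ W₂)} (h2 : (w : G) ∉ W₂) :
    ∃ φ, Tr2 W₁ W₂ φ ∧ φ w ≠ 1 := by
  obtain ⟨x, y, hw⟩ := W_dec hcomm w
  have hx1 : (x : G) ≠ 1 := by
    intro hx
    apply h2
    rw [hw]
    show (x : G) * y ∈ W₂
    rw [hx, one_mul]; exact y.2
  obtain ⟨ω, hω⟩ : ∃ ω : ↥(W₁ ⊔ W₂) →* ℂˣ, ω ⟨x, Subgroup.mem_sup_left x.2⟩ ≠ 1 := by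
    by_contra hcon
    push Not at hcon
    have h3 : (⟨x, Subgroup.mem_sup_left x.2⟩ : ↥(W₁ ⊔ W₂)) = 1 := by
      apply eq_one_of_forall_ker
      intro χ hχ
      obtain ⟨ω, hω⟩ := IsIrr.linear_of_comm hab hχ
      rw [hω]
      simp only [hcon, map_one]
    exact hx1 (congrArg Subtype.val h3)
  obtain ⟨φ₀, ψ₀, hφ₀, hψ₀, hdec⟩ := hom_dec hcomm hdisj ω
  refine ⟨φ₀, hφ₀, ?_⟩
  have h5 : φ₀ w = φ₀ ⟨x, Subgroup.mem_sup_left x.2⟩ := by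
    rw [hw, map_mul, hφ₀ (⟨y, Subgroup.mem_sup_right y.2⟩ : ↥(W₁ ⊔ W₂)) y.2, mul_one]
  rw [h5]
  intro h6
  apply hω
  rw [hdec, MonoidHom.mul_apply, h6, hψ₀ _ x.2, mul_one]

/-- functions whose coefficients do not depend on the `W₁`-part vanish off `W₂` -/
theorem zero_off [Fintype ↥(W₁ ⊔ W₂)] (hcomm : ∀ a ∈ W₁, ∀ b ∈ W₂, a * b = b * a)
    (hdisj : W₁ ⊓ W₂ = ⊥) (hab : ∀ a b : ↥(W₁ ⊔ W₂), a * b = b * a) {f : ↥(W₁ ⊔ W₂) → ℂ}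
    (h : ∀ φ ψ, Tr2 W₁ W₂ φ → Tr1 W₁ W₂ ψ → classInner (lch (φ * ψ) - lch ψ) f = 0)
    {w : ↥(W₁ ⊔ W₂)} (h2 : (w : G) ∉ W₂) : f w = 0 := by
  obtain ⟨φ₀, hφ₀, hne⟩ := exists_T2_ne hcomm hdisj hab h2
  set g : ↥(W₁ ⊔ W₂) → ℂ := fun v => (conj ((φ₀ v : ℂˣ) : ℂ) - 1) * f v with hg
  have hcf : IsClassFunction ↥(W₁ ⊔ W₂) g := by
    intro u v
    congr 1
    rw [hab v u]; group
  have h0 : g = 0 := by
    apply classFun_eq_zero hcf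
    intro χ hχ
    obtain ⟨ω, rfl⟩ := IsIrr.linear_of_comm hab hχ
    obtain ⟨φ, ψ, hφ, hψ, rfl⟩ := hom_dec hcomm hdisj ω
    have e1 : classInner (lch (φ * ψ)) g = classInner (lch ((φ₀ * φ) * ψ)) f - classInner (lch (φ * ψ)) f := by
      rw [classInner_def, classInner_def, classInner_def, ← mul_sub, ← Finset.sum_sub_distrib]
      congr 1
      refine Finset.sum_congr rfl fun v _ => ?_
      simp only [hg, lch, map_mul, map_sub, map_one, Complex.conj_conj, MonoidHom.mul_apply,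
        Units.val_mul]
      ring
    have e2 := h (φ₀ * φ) ψ (hφ₀.mul hφ) hψ
    have e3 := h φ ψ hφ hψ
    rw [classInner_sub_left] at e2 e3
    have e4 : classInner (lch (φ * ψ)) g = 0 := by rw [e1]; linear_combination e2 - e3
    exact inner_symm_zero e4
  have h3 := congrFun h0 w
  simp only [hg, Pi.zero_apply] at h3
  rcases mul_eq_zero.1 h3 with h4 | h4
  · exfalso
    apply hne
    apply Units.ext
    have h5 := congrArg conj h4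
    rw [map_sub, Complex.conj_conj, map_one, map_zero] at h5
    rw [Units.val_one]
    exact sub_eq_zero.1 h5
  · exact h4

end Dual

section Main

variable {L : Type*} [Group L] [Fintype L] {K W₁ W₂ : Subgroup L}

open Classical in
/-- Peterfalvi (4.3) -/
theorem Hyp42.main (h : Hyp42 K W₁ W₂) :
    ∃ (μ : (↥(W₁ ⊔ W₂) →* ℂˣ) → (L → ℂ)) (δ : (↥(W₁ ⊔ W₂) →* ℂˣ) → ℂ), Function.Injective μ ∧
      (∀ ω, IsIrrCharacter L (μ ω)) ∧ (∀ ω, δ ω = 1 ∨ δ ω = -1) ∧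
      (∀ φ φ' ψ : ↥(W₁ ⊔ W₂) →* ℂˣ, Tr2 W₁ W₂ φ → Tr2 W₁ W₂ φ' → Tr1 W₁ W₂ ψ →
        δ (φ * ψ) = δ (φ' * ψ) ∧ indFun (W₁ ⊔ W₂) (lch (φ * ψ) - lch (φ' * ψ)) =
          δ (φ * ψ) • (μ (φ * ψ) - μ (φ' * ψ))) := by
  have hcomm := h.comm
  have hdisj := h.disj
  have hab := h.abel'
  haveI := finite_hom_units ↥(W₁ ⊔ W₂)
  haveI : Fintype ↥(W₁ ⊔ W₂) := Fintype.ofFinite _
  obtain ⟨c1, c2⟩ := card_Tr hcomm hdisj hab
  have t1 : 3 ≤ Nat.card W₁ := three_le_of_odd h.ne1 (odd_of_le le_sup_left h.odd)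
  let T2 := {φ : ↥(W₁ ⊔ W₂) →* ℂˣ // Tr2 W₁ W₂ φ}
  let T1 := {ψ : ↥(W₁ ⊔ W₂) →* ℂˣ // Tr1 W₁ W₂ ψ}
  haveI : Fintype T2 := Fintype.ofFinite _
  have hT2 : 3 ≤ Fintype.card T2 := by rw [← Nat.card_eq_fintype_card, c1]; exact t1
  let o : T2 := ⟨1, Tr2.one⟩
  -- induction is an isometry on functions vanishing on `W₂`
  have hiso : ∀ φ φ' ψ φ₁ φ₁' ψ₁ : ↥(W₁ ⊔ W₂) →* ℂˣ, Tr2 W₁ W₂ φ → Tr2 W₁ W₂ φ' → Tr2 W₁ W₂ φ₁ →
      Tr2 W₁ W₂ φ₁' → classInner (indFun (W₁ ⊔ W₂) (lch (φ * ψ) - lch (φ' * ψ)))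
      (indFun (W₁ ⊔ W₂) (lch (φ₁ * ψ₁) - lch (φ₁' * ψ₁))) =
      classInner (lch (φ * ψ) - lch (φ' * ψ)) (lch (φ₁ * ψ₁) - lch (φ₁' * ψ₁)) := by
    intro φ φ' ψ φ₁ φ₁' ψ₁ hφ hφ' hφ₁ hφ₁'
    have hsupp : ∀ φ φ' ψ : ↥(W₁ ⊔ W₂) →* ℂˣ, Tr2 W₁ W₂ φ → Tr2 W₁ W₂ φ' → ∀ x : ↥(W₁ ⊔ W₂),
        (x : L) ∉ (↑(W₁ ⊔ W₂) : Set L) \ ↑W₂ → (lch (φ * ψ) - lch (φ' * ψ)) x = 0 := by
      intro φ φ' ψ hφ hφ' x hx
      have hx2 : (x : L) ∈ W₂ := by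
        by_contra hcon; exact hx ⟨x.2, hcon⟩
      show ((φ * ψ) x : ℂ) - ((φ' * ψ) x : ℂ) = 0
      rw [MonoidHom.mul_apply, MonoidHom.mul_apply, hφ x hx2, hφ' x hx2, sub_self]
    refine classInner_indFun_TI ((↑(W₁ ⊔ W₂) : Set L) \ ↑W₂) (W₁ ⊔ W₂) h.ti' _ _ ?_
      (hsupp φ φ' ψ hφ hφ') (hsupp φ₁ φ₁' ψ₁ hφ₁ hφ₁') ?_
    · intro x y
      congr 1
      rw [hab y x]; group
    · simp [lch]
  have hlg : ∀ ω : ↥(W₁ ⊔ W₂) →* ℂˣ, IsGeneralizedCharacter ↥(W₁ ⊔ W₂) (lch ω) := fun ω =>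
    IsCharacter.isGen (IsIrr.isCharacter (isCharacter_one_dim ω))
  have hfam : ∀ ψ : T1, ∃ ε : ℂ, (ε = 1 ∨ ε = -1) ∧ ∃ μ : T2 → (L → ℂ),
      (∀ i, IsIrrCharacter L (μ i)) ∧ Function.Injective μ ∧
      ∀ i, indFun (W₁ ⊔ W₂) (lch (i.1 * ψ.1) - lch (o.1 * ψ.1)) = ε • (μ i - μ o) := by
    intro ψ
    refine isometry_lemma o (fun i : T2 => indFun (W₁ ⊔ W₂) (lch (i.1 * ψ.1) - lch (o.1 * ψ.1))) ?_ ?_
      ?_ ?_ ?_
    · rw [sub_self, indFun_zero]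
    · intro i; exact isGen_indFun _ (isGen_sub (hlg _) (hlg _))
    · intro i; rw [indFun_one]; simp [lch]
    · intro i hi
      rw [hiso _ _ _ _ _ _ i.2 o.2 i.2 o.2, classInner_sub_left, classInner_sub_right,
        classInner_sub_right, lch_inner, lch_inner, lch_inner, lch_inner, if_pos rfl, if_pos rfl,
        if_neg, if_neg]
      · norm_num
      · intro he; exact hi (Subtype.ext (mul_right_cancel he).symm)
      · intro he; exact hi (Subtype.ext (mul_right_cancel he))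
    · intro i j hi hj hij
      rw [hiso _ _ _ _ _ _ i.2 o.2 j.2 o.2, classInner_sub_left, classInner_sub_right,
        classInner_sub_right, lch_inner, lch_inner, lch_inner, lch_inner, if_pos rfl, if_neg, if_neg,
        if_neg]
      · norm_num
      · intro he; exact hj (Subtype.ext (mul_right_cancel he).symm)
      · intro he; exact hi (Subtype.ext (mul_right_cancel he))
      · intro he; exact hij (Subtype.ext (mul_right_cancel he))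
  choose ε hε μ hμirr hμinj hμ using hfam
  have hdiff : ∀ (ψ : T1) (i j : T2), indFun (W₁ ⊔ W₂) (lch (i.1 * ψ.1) - lch (j.1 * ψ.1)) =
      ε ψ • (μ ψ i - μ ψ j) := by
    intro ψ i j
    have e1 : lch (i.1 * ψ.1) - lch (j.1 * ψ.1) =
        (lch (i.1 * ψ.1) - lch (o.1 * ψ.1)) - (lch (j.1 * ψ.1) - lch (o.1 * ψ.1)) := by abel
    rw [e1, indFun_sub, hμ, hμ, ← smul_sub]
    congr 1; abel
  have hcross : ∀ (ψ ψ' : T1), ψ ≠ ψ' → ∀ i j : T2, μ ψ i ≠ μ ψ' j := by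
    intro ψ ψ' hne i j he
    obtain ⟨i', -, hi', -, -⟩ := exists_two_ne i hT2
    obtain ⟨j', -, hj', -, -⟩ := exists_two_ne j hT2
    have h1 := hiso i.1 i'.1 ψ.1 j.1 j'.1 ψ'.1 i.2 i'.2 j.2 j'.2
    have hz : ∀ a b : T2, a.1 * ψ.1 ≠ b.1 * ψ'.1 := fun a b hab' =>
      hne (Subtype.ext (hom_dec_unique hcomm a.2 ψ.2 b.2 ψ'.2 hab').2)
    rw [classInner_sub_left (lch (i.1 * ψ.1)), classInner_sub_right, classInner_sub_right, lch_inner,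
      lch_inner, lch_inner, lch_inner, if_neg (hz _ _), if_neg (hz _ _), if_neg (hz _ _),
      if_neg (hz _ _), hdiff, hdiff, classInner_smul_left, classInner_smul_right,
      classInner_diff (hμirr ψ i) (hμirr ψ i') (hμirr ψ' j) (hμirr ψ' j'), if_pos he,
      if_neg (fun h2 => hj' ((hμinj ψ' (he.symm.trans h2)).symm)),
      if_neg (fun h2 => hi' (hμinj ψ (h2.trans he.symm)))] at h1
    have hε1 : ε ψ ≠ 0 := by rcases hε ψ with h2 | h2 <;> rw [h2] <;> norm_num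
    have hε2 : conj (ε ψ') ≠ 0 := by rcases hε ψ' with h2 | h2 <;> rw [h2] <;> simp
    rw [sub_self, sub_zero] at h1
    rcases mul_eq_zero.1 h1 with h2 | h2
    · exact hε1 h2
    · rcases mul_eq_zero.1 h2 with h3 | h3
      · exact hε2 h3
      · split_ifs at h3 <;> norm_num at h3
  set e := dualEquiv hcomm hdisj with he
  have hesymm : ∀ (φ : T2) (ψ : T1), e.symm (φ.1 * ψ.1) = (φ, ψ) := fun φ ψ =>
    e.symm_apply_apply (φ, ψ)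
  refine ⟨fun ω => μ (e.symm ω).2 (e.symm ω).1, fun ω => ε (e.symm ω).2, ?_, fun ω => hμirr _ _,
    fun ω => hε _, ?_⟩
  · intro ω ω' hωω
    simp only at hωω
    have h1 : (e.symm ω).2 = (e.symm ω').2 := by
      by_contra hne
      exact hcross _ _ hne _ _ hωω
    rw [h1] at hωω
    have h2 := hμinj _ hωω
    exact e.symm.injective (Prod.ext h2 h1)
  · intro φ φ' ψ hφ hφ' hψ
    have e1 := hesymm ⟨φ, hφ⟩ ⟨ψ, hψ⟩
    have e2 := hesymm ⟨φ', hφ'⟩ ⟨ψ, hψ⟩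
    simp only at e1 e2 ⊢
    rw [e1, e2]
    exact ⟨rfl, hdiff ⟨ψ, hψ⟩ ⟨φ, hφ⟩ ⟨φ', hφ'⟩⟩

theorem Tr2.inv_mul_mem {ω ω' : ↥(W₁ ⊔ W₂) →* ℂˣ}
    (hcomm : ∀ a ∈ W₁, ∀ b ∈ W₂, a * b = b * a) {φ ψ φ' ψ' : ↥(W₁ ⊔ W₂) →* ℂˣ}
    (hφ : Tr2 W₁ W₂ φ) (hψ : Tr1 W₁ W₂ ψ) (hφ' : Tr2 W₁ W₂ φ') (hψ' : Tr1 W₁ W₂ ψ')
    (h : ω = φ * ψ) (h' : ω' = φ' * ψ') (hag : ∀ w : ↥(W₁ ⊔ W₂), (w : L) ∈ W₂ → ω w = ω' w) : ψ = ψ' := by
  refine hom_ext_W hcomm (fun w hw => by rw [hψ w hw, hψ' w hw]) (fun w hw => ?_)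
  have := hag w hw
  rwa [h, h', MonoidHom.mul_apply, MonoidHom.mul_apply, hφ w hw, hφ' w hw, one_mul, one_mul] at this

/-- consequences on the values -/
theorem Hyp42.values (h : Hyp42 K W₁ W₂) {μ : (↥(W₁ ⊔ W₂) →* ℂˣ) → (L → ℂ)}
    {δ : (↥(W₁ ⊔ W₂) →* ℂˣ) → ℂ} (hinj : Function.Injective μ) (hirr : ∀ ω, IsIrrCharacter L (μ ω))
    (hδ : ∀ ω, δ ω = 1 ∨ δ ω = -1)
    (hmain : ∀ φ φ' ψ : ↥(W₁ ⊔ W₂) →* ℂˣ, Tr2 W₁ W₂ φ → Tr2 W₁ W₂ φ' → Tr1 W₁ W₂ ψ →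
        δ (φ * ψ) = δ (φ' * ψ) ∧ indFun (W₁ ⊔ W₂) (lch (φ * ψ) - lch (φ' * ψ)) =
          δ (φ * ψ) • (μ (φ * ψ) - μ (φ' * ψ))) :
    (∀ ω, ∀ w : ↥(W₁ ⊔ W₂), (w : L) ∉ W₂ → μ ω w = δ ω * (ω w : ℂ)) ∧
    (∀ θ : L → ℂ, IsIrrCharacter L θ → (∀ ω, θ ≠ μ ω) → ∀ w : ↥(W₁ ⊔ W₂), (w : L) ∉ W₂ → θ w = 0) ∧
    (∀ ω, ∃ n : ℤ, μ ω 1 - δ ω = n * (Nat.card W₁ : ℂ)) := by
  classical
  haveI : Fintype ↥(W₁ ⊔ W₂) := Fintype.ofFinite _
  have hcomm := h.comm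
  have hdisj := h.disj
  have hab := h.abel'
  have hδr : ∀ ω, conj (δ ω) = δ ω := by
    intro ω; rcases hδ ω with h1 | h1 <;> rw [h1] <;> simp
  have hm1 : ∀ φ ψ : ↥(W₁ ⊔ W₂) →* ℂˣ, Tr2 W₁ W₂ φ → Tr1 W₁ W₂ ψ →
      indFun (W₁ ⊔ W₂) (lch (φ * ψ) - lch ψ) = δ (φ * ψ) • (μ (φ * ψ) - μ ψ) ∧ δ (φ * ψ) = δ ψ := by
    intro φ ψ hφ hψ
    have h1 := hmain φ 1 ψ hφ Tr2.one hψ
    rw [one_mul ψ] at h1
    exact ⟨h1.2, h1.1⟩
  have V1 : ∀ ω, ∀ w : ↥(W₁ ⊔ W₂), (w : L) ∉ W₂ → μ ω w = δ ω * (ω w : ℂ) := by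
    intro ω w hw
    have hz := zero_off (f := fun v : ↥(W₁ ⊔ W₂) => μ ω v - δ ω * (ω v : ℂ)) hcomm hdisj hab ?_ hw
    · exact sub_eq_zero.1 hz
    · intro φ ψ hφ hψ
      have e1 : (fun v : ↥(W₁ ⊔ W₂) => μ ω v - δ ω * (ω v : ℂ)) =
          (fun v : ↥(W₁ ⊔ W₂) => μ ω v) - δ ω • lch ω := rfl
      obtain ⟨m1, m2⟩ := hm1 φ ψ hφ hψ
      rw [e1, classInner_sub_right, ← frobenius (W₁ ⊔ W₂) _ (IsIrr.isClassFunction (hirr ω)), m1,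
        classInner_smul_right, classInner_smul_left, classInner_sub_left, classInner_sub_left,
        classInner_irr (hirr _) (hirr _), classInner_irr (hirr _) (hirr _), lch_inner, lch_inner, hδr]
      by_cases e2 : φ * ψ = ω
      · rw [if_pos (congrArg μ e2), if_pos e2, e2]
        by_cases e3 : ψ = ω
        · rw [if_pos (congrArg μ e3), if_pos e3]; ring
        · rw [if_neg (fun e4 => e3 (hinj e4)), if_neg e3]; ring
      · rw [if_neg (fun e4 => e2 (hinj e4)), if_neg e2]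
        by_cases e3 : ψ = ω
        · rw [if_pos (congrArg μ e3), if_pos e3, m2, e3]; ring
        · rw [if_neg (fun e4 => e3 (hinj e4)), if_neg e3]; ring
  refine ⟨V1, ?_, ?_⟩
  · intro θ hθ hne w hw
    refine zero_off (f := fun v : ↥(W₁ ⊔ W₂) => θ v) hcomm hdisj hab ?_ hw
    intro φ ψ hφ hψ
    rw [← frobenius (W₁ ⊔ W₂) _ (IsIrr.isClassFunction hθ), (hm1 φ ψ hφ hψ).1, classInner_smul_left,
      classInner_sub_left, classInner_irr_ne (hirr _) hθ (Ne.symm (hne _)),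
      classInner_irr_ne (hirr _) hθ (Ne.symm (hne _)), sub_self, mul_zero]
  · intro ω
    haveI : Fintype W₁ := Fintype.ofFinite _
    set f : W₁ → ℂ := (fun a : W₁ => μ ω a) - δ ω • (fun a : W₁ =>
      ((ω ⟨a, Subgroup.mem_sup_left a.2⟩ : ℂˣ) : ℂ)) with hf
    have hfg : IsGeneralizedCharacter W₁ f := by
      refine isGen_sub (IsCharacter.isGen (isCharacter_restrict W₁ (IsIrr.isCharacter (hirr ω)))) ?_
      have h1 : IsGeneralizedCharacter W₁ (fun a : W₁ => ((ω ⟨a, Subgroup.mem_sup_left a.2⟩ : ℂˣ) : ℂ)) :=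
        IsCharacter.isGen (IsIrr.isCharacter
          (isCharacter_one_dim (ω.comp (Subgroup.inclusion (le_sup_left (a := W₁) (b := W₂))))))
      rcases hδ ω with h2 | h2
      · rw [h2, one_smul]; exact h1
      · rw [h2, neg_smul, one_smul]; exact isGen_neg h1
    obtain ⟨n, hn⟩ := IsGen.inner_int hfg (IsCharacter.isGen (isCharacter_one (G := W₁)))
    refine ⟨n, ?_⟩
    have hsum : ∑ a : W₁, f a * conj ((fun _ => (1 : ℂ)) a) = f 1 := by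
      rw [Finset.sum_eq_single 1]
      · simp
      · intro a _ ha
        have ha2 : (a : L) ∉ W₂ := by
          intro h3
          have : (a : L) ∈ W₁ ⊓ W₂ := ⟨a.2, h3⟩
          rw [hdisj, Subgroup.mem_bot] at this
          exact ha (Subtype.ext this)
        have := V1 ω ⟨a, Subgroup.mem_sup_left a.2⟩ ha2
        simp only [hf, Pi.sub_apply, Pi.smul_apply, smul_eq_mul]
        rw [show μ ω (a : L) = δ ω * ((ω ⟨a, Subgroup.mem_sup_left a.2⟩ : ℂˣ) : ℂ) from this, sub_self,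
          zero_mul]
      · intro h3; exact absurd (Finset.mem_univ _) h3
    rw [classInner_def, hsum] at hn
    have hf1 : f 1 = μ ω 1 - δ ω := by
      simp only [hf, Pi.sub_apply, Pi.smul_apply, smul_eq_mul]
      have : (⟨((1 : W₁) : L), Subgroup.mem_sup_left (1 : W₁).2⟩ : ↥(W₁ ⊔ W₂)) = 1 := rfl
      rw [this, map_one]
      simp
    have hc : (Nat.card W₁ : ℂ) ≠ 0 := card_ne_zero W₁
    rw [← hf1]
    field_simp at hn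
    linear_combination hn

end Main

end CfsgH4
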