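import Cfsg.Agent.H4.Cyc5
import Cfsg.Agent.H4.Pet1
import Cfsg.Agent.H4.Extend2

/-!
# The cyclic TI situation, VI
-/

set_option autoImplicit false
open Cfsg ComplexConjugate

namespace CfsgH4

section FixCl

variable {L : Type*} [Group L] [Fintype L]

/-- fixed classes of a coprime automorphism with abelian centralizer -/
theorem fixed_classes_card (K W₂ : Subgroup L) [hK : K.Normal] (x : L)
    (hx : Nat.Coprime (orderOf x) (Nat.card K)) (hC : K ⊓ Subgroup.centralizer ({x} : Set L) = W₂)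
    (hab : ∀ a ∈ W₂, ∀ b ∈ W₂, a * b = b * a) :
    Nat.card {C : ConjClasses K // ∀ k : K, ConjClasses.mk k = C →
      IsConj (⟨x * k * x⁻¹, hK.conj_mem k k.2 x⟩ : K) k} = Nat.card W₂ := by
  classical
  have hW₂K : W₂ ≤ K := by rw [← hC]; exact inf_le_left
  have hxN : ∀ H : Subgroup L, H ≤ Subgroup.normalizer (K : Set L) := by
    intro H; rw [Subgroup.normalizer_eq_top]; exact le_top
  have hcw : ∀ w ∈ W₂, x * w * x⁻¹ = w := by
    intro w hw
    rw [← hC] at hw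
    have := Subgroup.mem_centralizer_singleton_iff.1 hw.2
    rw [← this]; group
  symm
  refine Nat.card_congr (Equiv.ofBijective (fun w : W₂ =>
    (⟨ConjClasses.mk (⟨w, hW₂K w.2⟩ : K), ?_⟩ : {C : ConjClasses K // ∀ k : K, ConjClasses.mk k = C →
      IsConj (⟨x * k * x⁻¹, hK.conj_mem k k.2 x⟩ : K) k})) ⟨?_, ?_⟩)
  · intro k hk
    rw [ConjClasses.mk_eq_mk_iff_isConj] at hk
    obtain ⟨m, hm⟩ := isConj_iff.1 hk
    -- m k m⁻¹ = w
    have hm' : (m : L) * k * (m : L)⁻¹ = w := congrArg Subtype.val hm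
    rw [isConj_iff]
    refine ⟨m⁻¹ * ⟨x * m * x⁻¹, hK.conj_mem m m.2 x⟩, Subtype.ext ?_⟩
    show ((m : L)⁻¹ * (x * m * x⁻¹)) * (x * k * x⁻¹) * ((m : L)⁻¹ * (x * m * x⁻¹))⁻¹ = k
    have e1 : ((m : L)⁻¹ * (x * m * x⁻¹)) * (x * k * x⁻¹) * ((m : L)⁻¹ * (x * m * x⁻¹))⁻¹ =
        (m : L)⁻¹ * (x * (m * k * (m : L)⁻¹) * x⁻¹) * m := by group
    rw [e1, hm', hcw w w.2, ← hm']; group
  · intro w w' hww
    have h1 : ConjClasses.mk (⟨w, hW₂K w.2⟩ : K) = ConjClasses.mk (⟨w', hW₂K w'.2⟩ : K) :=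
      congrArg Subtype.val hww
    rw [ConjClasses.mk_eq_mk_iff_isConj] at h1
    obtain ⟨k, hk⟩ := isConj_iff.1 h1
    have hk' : (k : L) * w * (k : L)⁻¹ = w' := congrArg Subtype.val hk
    -- the centralizer of `w` in `K`
    set Cw : Subgroup L := K ⊓ Subgroup.centralizer ({(w : L)} : Set L) with hCw
    have hxw : x * (w : L) = w * x := by
      have := hcw w w.2
      exact mul_inv_eq_iff_eq_mul.1 this
    have hxCw : x ∈ Subgroup.normalizer (Cw : Set L) := by
      rw [Subgroup.mem_normalizer_iff]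
      intro z
      constructor
      · intro hz
        refine ⟨hK.conj_mem z hz.1 x, ?_⟩
        refine Subgroup.mem_centralizer_singleton_iff.2 ?_
        have h2 := Subgroup.mem_centralizer_singleton_iff.1 hz.2
        calc x * z * x⁻¹ * w = x * z * (x⁻¹ * (w * x)) * x⁻¹ := by group
          _ = x * z * (x⁻¹ * (x * w)) * x⁻¹ := by rw [hxw]
          _ = x * (z * w) * x⁻¹ := by group
          _ = x * (w * z) * x⁻¹ := by rw [h2]
          _ = (x * w) * z * x⁻¹ := by group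
          _ = (w * x) * z * x⁻¹ := by rw [hxw]
          _ = w * (x * z * x⁻¹) := by group
      · intro hz
        have h3 : z = x⁻¹ * (x * z * x⁻¹) * x := by group
        refine ⟨?_, ?_⟩
        · have := hK.conj_mem _ hz.1 x⁻¹
          have e2 : x⁻¹ * (x * z * x⁻¹) * x⁻¹⁻¹ = z := by group
          rwa [e2] at this
        · refine Subgroup.mem_centralizer_singleton_iff.2 ?_
          have h2 := Subgroup.mem_centralizer_singleton_iff.1 hz.2
          calc z * w = x⁻¹ * (x * z * x⁻¹) * (x * w) := by group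
            _ = x⁻¹ * (x * z * x⁻¹) * (w * x) := by rw [hxw]
            _ = x⁻¹ * ((x * z * x⁻¹) * w) * x := by group
            _ = x⁻¹ * (w * (x * z * x⁻¹)) * x := by rw [h2]
            _ = x⁻¹ * (w * x) * z := by group
            _ = x⁻¹ * (x * w) * z := by rw [hxw]
            _ = w * z := by group
    have hm : (k : L)⁻¹ * x * k * x⁻¹ ∈ Cw := by
      refine ⟨?_, ?_⟩
      · have : (k : L)⁻¹ * x * k * x⁻¹ = (k : L)⁻¹ * (x * k * x⁻¹) := by group
        rw [this]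
        exact K.mul_mem (K.inv_mem k.2) (hK.conj_mem k k.2 x)
      · refine Subgroup.mem_centralizer_singleton_iff.2 ?_
        have hxw' : x * (w' : L) = w' * x := by
          have := hcw w' w'.2
          exact mul_inv_eq_iff_eq_mul.1 this
        have hkw : (k : L) * w = w' * k := mul_inv_eq_iff_eq_mul.1 hk'
        calc (k : L)⁻¹ * x * k * x⁻¹ * w = (k : L)⁻¹ * x * k * (x⁻¹ * (w * x)) * x⁻¹ := by group
          _ = (k : L)⁻¹ * x * k * (x⁻¹ * (x * w)) * x⁻¹ := by rw [hxw]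
          _ = (k : L)⁻¹ * x * (k * w) * x⁻¹ := by group
          _ = (k : L)⁻¹ * x * (w' * k) * x⁻¹ := by rw [hkw]
          _ = (k : L)⁻¹ * (x * w') * k * x⁻¹ := by group
          _ = (k : L)⁻¹ * (w' * x) * k * x⁻¹ := by rw [hxw']
          _ = (k : L)⁻¹ * (w' * k) * (k : L)⁻¹ * x * k * x⁻¹ := by group
          _ = (k : L)⁻¹ * (k * w) * (k : L)⁻¹ * x * k * x⁻¹ := by rw [hkw]
          _ = w * ((k : L)⁻¹ * x * k * x⁻¹) := by group
    have hcop : Nat.Coprime (orderOf x) (Nat.card Cw) :=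
      Nat.Coprime.coprime_dvd_right (Subgroup.card_dvd_of_le inf_le_left) hx
    obtain ⟨y, hy, c, hc, hcx, hyc⟩ := coset_conj Cw hxCw hcop hm
    have hyc' : (y * (k : L)⁻¹) * x * (y * (k : L)⁻¹)⁻¹ = c * x := by
      rw [← hyc]; group
    -- `c = 1`
    have h5 : (y * (k : L)⁻¹) * x * (y * (k : L)⁻¹)⁻¹ = x := by
      apply crt_conj (m := Nat.card K) (n := orderOf x) hx.symm (u := 1) (g := x) (u' := c) (g' := x)
        (by group) hcx (by rw [orderOf_one]; exact one_dvd _) dvd_rfl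
        (Subgroup.orderOf_dvd_natCard _ hc.1) dvd_rfl
      rw [one_mul]; exact hyc'
    have h6 : y * (k : L)⁻¹ ∈ W₂ := by
      rw [← hC]
      exact ⟨K.mul_mem hy.1 (K.inv_mem k.2),
        Subgroup.mem_centralizer_singleton_iff.2 (mul_inv_eq_iff_eq_mul.1 h5)⟩
    -- conclude
    apply Subtype.ext
    have h7 := hab _ h6 w' w'.2
    have h8 := Subgroup.mem_centralizer_singleton_iff.1 hy.2
    -- y⁻¹ (y k⁻¹) = k⁻¹
    have h9 : (w' : L) = (k : L) * w * (k : L)⁻¹ := hk'.symm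
    have h10 : (y * (k : L)⁻¹) * w' * (y * (k : L)⁻¹)⁻¹ = w' := mul_inv_eq_iff_eq_mul.2 h7
    have h11 : (y * (k : L)⁻¹) * w' * (y * (k : L)⁻¹)⁻¹ = y * w * y⁻¹ := by rw [h9]; group
    rw [h11, mul_inv_eq_iff_eq_mul.2 h8] at h10
    exact h10
  · rintro ⟨C, hCf⟩
    obtain ⟨k, rfl⟩ := ConjClasses.exists_rep C
    have h1 := hCf k rfl
    obtain ⟨m, hm⟩ := isConj_iff.1 h1
    have h2 : (m : L) * (x * k * x⁻¹) * (m : L)⁻¹ = k := congrArg Subtype.val hm
    have hxN' : x ∈ Subgroup.normalizer (K : Set L) := by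
      rw [Subgroup.normalizer_eq_top]; trivial
    obtain ⟨y, hy, c, hc, hcx, hyc⟩ := coset_conj K hxN' hx m.2
    have h3 : (y * k * y⁻¹) * (c * x) = (c * x) * (y * k * y⁻¹) := by
      rw [← hyc]
      have h4 : (m : L) * x * k = k * ((m : L) * x) := by
        have : (m : L) * x * k = ((m : L) * (x * k * x⁻¹) * (m : L)⁻¹) * ((m : L) * x) := by group
        rw [this, h2]
      calc (y * k * y⁻¹) * (y * ((m : L) * x) * y⁻¹) = y * (k * ((m : L) * x)) * y⁻¹ := by group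
        _ = y * ((m : L) * x * k) * y⁻¹ := by rw [h4]
        _ = _ := by group
    have h5 : (y * (k : L) * y⁻¹) * x * (y * (k : L) * y⁻¹)⁻¹ = x :=
      crt_conj (m := Nat.card K) (n := orderOf x) hx.symm hcx hcx
        (Subgroup.orderOf_dvd_natCard _ hc) dvd_rfl (Subgroup.orderOf_dvd_natCard _ hc) dvd_rfl (by
          rw [h3]; group)
    have h6 : y * (k : L) * y⁻¹ ∈ W₂ := by
      rw [← hC]
      refine ⟨K.mul_mem (K.mul_mem hy k.2) (K.inv_mem hy), ?_⟩
      exact Subgroup.mem_centralizer_singleton_iff.2 (mul_inv_eq_iff_eq_mul.1 h5)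
    refine ⟨⟨_, h6⟩, Subtype.ext ?_⟩
    show ConjClasses.mk _ = ConjClasses.mk k
    rw [ConjClasses.mk_eq_mk_iff_isConj]
    refine isConj_iff.2 ⟨⟨y⁻¹, K.inv_mem hy⟩, Subtype.ext ?_⟩
    show y⁻¹ * (y * (k : L) * y⁻¹) * y⁻¹⁻¹ = k
    group

end FixCl

end CfsgH4
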