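import Cfsg.Agent.H4.Dade3

/-!
# The Dade isometry, IV: images of generalized characters
-/

set_option autoImplicit false
open Cfsg ComplexConjugate

namespace CfsgH4

section Dade4

variable {G : Type*} [Group G] [Finite G] {A : Set G} {L : Subgroup G} {H : G → Subgroup G}

/-- conjugate of a set -/
def cset (x : G) (B : Set G) : Set G := (fun b => x * b * x⁻¹) '' B

omit [Finite G] in
theorem mem_cset {x : G} {B : Set G} {b : G} : x * b * x⁻¹ ∈ cset x B ↔ b ∈ B := by
  constructor
  · rintro ⟨c, hc, he⟩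
    have h1 : x * c * x⁻¹ = x * b * x⁻¹ := he
    have h2 : c = b := by
      have := congrArg (fun z => x⁻¹ * z * x) h1
      simpa [mul_assoc] using this
    exact h2 ▸ hc
  · intro hb
    exact ⟨b, hb, rfl⟩

omit [Finite G] in
theorem norm_cset {x : G} {B : Set G} {y : G} :
    x * y * x⁻¹ ∈ Subgroup.normalizer (cset x B) ↔ y ∈ Subgroup.normalizer B := by
  rw [Subgroup.mem_set_normalizer_iff, Subgroup.mem_set_normalizer_iff]
  constructor
  · intro h z
    have := h (x * z * x⁻¹)
    rw [mem_cset] at this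
    rw [this]
    have e : x * y * x⁻¹ * (x * z * x⁻¹) * (x * y * x⁻¹)⁻¹ = x * (y * z * y⁻¹) * x⁻¹ := by group
    rw [e, mem_cset]
  · intro h z
    obtain ⟨w, rfl⟩ : ∃ w, z = x * w * x⁻¹ := ⟨x⁻¹ * z * x, by group⟩
    rw [mem_cset, h w]
    have e : x * y * x⁻¹ * (x * w * x⁻¹) * (x * y * x⁻¹)⁻¹ = x * (y * w * y⁻¹) * x⁻¹ := by group
    rw [e, mem_cset]

theorem HB_cset (hD : DadeHypothesis A L H) {B : Set G} (hBA : B ⊆ A) {x : G} (hx : x ∈ L) {u : G} :
    x * u * x⁻¹ ∈ HB H (cset x B) ↔ u ∈ HB H B := by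
  rw [mem_HB, mem_HB]
  constructor
  · intro h b hb
    exact (dade_mem_H hD (hBA hb) hx).1 (h _ (mem_cset.2 hb))
  · rintro h _ ⟨b, hb, rfl⟩
    exact (dade_mem_H hD (hBA hb) hx).2 (h b hb)

variable [Fintype G]

omit [Finite G] [Fintype G] in
theorem card_eq_of_conj [Finite G] {K K' : Subgroup G} {x : G} (h : ∀ u, x * u * x⁻¹ ∈ K' ↔ u ∈ K) :
    Nat.card K' = Nat.card K := by
  refine Nat.card_congr ⟨fun u => ⟨x⁻¹ * u * x, ?_⟩, fun u => ⟨x * u * x⁻¹, (h _).2 u.2⟩,
    fun u => Subtype.ext (by group), fun u => Subtype.ext (by group)⟩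
  rw [← h]
  have e : x * (x⁻¹ * (u : G) * x) * x⁻¹ = u := by group
  rw [e]; exact u.2

omit [Finite G] in
theorem sum_conj_G (x : G) (f : G → ℂ) : ∑ n : G, f (x * n * x⁻¹) = ∑ n : G, f n :=
  Equiv.sum_comp (MulAut.conj x).toEquiv f

theorem cav_cset (hD : DadeHypothesis A L H) {B : Set G} (hBA : B ⊆ A) {x : G} (hx : x ∈ L)
    {F : G → ℂ} (hF : ∀ x y : G, F (x * y * x⁻¹) = F y) (y : G) :
    cav (HB H (cset x B)) F (x * y * x⁻¹) = cav (HB H B) F y := by
  classical
  unfold cav
  rw [card_eq_of_conj (fun u => HB_cset hD hBA hx (u := u))]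
  congr 1
  rw [← sum_conj_G x]
  refine Finset.sum_congr rfl fun n _ => ?_
  have e : x * n * x⁻¹ * (x * y * x⁻¹) = x * (n * y) * x⁻¹ := by group
  by_cases hn : n ∈ HB H B
  · rw [if_pos hn, if_pos ((HB_cset hD hBA hx).2 hn), e, hF]
  · rw [if_neg hn, if_neg (fun h => hn ((HB_cset hD hBA hx).1 h))]

variable [Fintype L]

theorem QB_cset (hD : DadeHypothesis A L H) {α : L → ℂ} (hα : IsClassFunction L α) {B : Set G}
    (hBA : B ⊆ A) (x : L) {F : G → ℂ} (hF : ∀ x y : G, F (x * y * x⁻¹) = F y) :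
    QB L H α F (cset (x : G) B) = QB L H α F B := by
  classical
  unfold QB
  rw [← Equiv.sum_comp (MulAut.conj x).toEquiv]
  refine Finset.sum_congr rfl fun y _ => ?_
  have e : (((MulAut.conj x).toEquiv y : L) : G) = (x : G) * y * (x : G)⁻¹ := rfl
  have e2 : ((MulAut.conj x).toEquiv y : L) = x * y * x⁻¹ := rfl
  rw [e, cav_cset hD hBA x.2 hF, e2]
  have h1 : α (x * y * x⁻¹) = α y := hα _ _
  rw [h1]
  by_cases hy : (y : G) ∈ Subgroup.normalizer B
  · rw [if_pos hy, if_pos (norm_cset.2 hy)]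
  · rw [if_neg hy, if_neg (fun h => hy (norm_cset.1 h))]

theorem NB_cset {B : Set G} (x : L) :
    Nat.card (NB L (cset (x : G) B)) = Nat.card (NB L B) := by
  refine card_eq_of_conj (x := (x : G)) fun u => ?_
  unfold NB
  rw [Subgroup.mem_inf, Subgroup.mem_inf, norm_cset]
  refine and_congr_left fun _ => ?_
  constructor
  · intro h
    have := L.mul_mem (L.mul_mem (L.inv_mem x.2) h) x.2
    have e : (x : G)⁻¹ * ((x : G) * u * (x : G)⁻¹) * x = u := by group
    rwa [e] at this
  · intro h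
    exact L.mul_mem (L.mul_mem x.2 h) (L.inv_mem x.2)

/-- the index set -/
abbrev XB (A : Set G) : Type _ := {B : Finset G // (B : Set G) ⊆ A ∧ B.Nonempty}

open Classical in
/-- the conjugation action -/
noncomputable def actXB (hD : DadeHypothesis A L H) : MulAction L (XB A) where
  smul x B := ⟨B.1.image (fun b => (x : G) * b * (x : G)⁻¹), by
    constructor
    · intro z hz
      rw [Finset.coe_image] at hz
      obtain ⟨b, hb, rfl⟩ := hz
      exact hD.conj_mem x x.2 b (B.2.1 hb)
    · exact B.2.2.image _⟩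
  one_smul B := Subtype.ext (by
    show B.1.image (fun b => ((1 : L) : G) * b * ((1 : L) : G)⁻¹) = B.1
    simp)
  mul_smul x y B := Subtype.ext (by
    show B.1.image (fun b => ((x * y : L) : G) * b * ((x * y : L) : G)⁻¹) =
      (B.1.image (fun b => (y : G) * b * (y : G)⁻¹)).image (fun b => (x : G) * b * (x : G)⁻¹)
    rw [Finset.image_image]
    congr 1
    ext b
    simp [mul_assoc])

/-- **Dade**: generalized characters go to generalized characters -/
theorem dade_gen (hD : DadeHypothesis A L H) {α : L → ℂ} (hα : IsGeneralizedCharacter L α)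
    (hαA : ∀ x : L, (x : G) ∉ A → α x = 0) : IsGeneralizedCharacter G (dadeIsometry A L H α) := by
  classical
  letI := actXB hD
  haveI : Fintype (XB A) := Fintype.ofFinite _
  haveI : Fintype (Quotient (MulAction.orbitRel L (XB A))) := Fintype.ofFinite _
  have hαc := IsGen.isClassFunction hα
  choose θ hθ hθe using fun B : XB A => QB_eq hD hα B.2.1 (by simpa using B.2.2)
  have hsm : ∀ (x : L) (B : XB A), (((x • B : XB A).1 : Finset G) : Set G) = cset (x : G) (B.1 : Set G) := by
    intro x B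
    show ((B.1.image (fun b => (x : G) * b * (x : G)⁻¹) : Finset G) : Set G) = _
    rw [Finset.coe_image]; rfl
  have hsc : ∀ (x : L) (B : XB A), (x • B : XB A).1.card = B.1.card := by
    intro x B
    show (B.1.image (fun b => (x : G) * b * (x : G)⁻¹)).card = _
    refine Finset.card_image_of_injective _ fun a b h => ?_
    exact mul_left_cancel (mul_right_cancel h)
  -- stabilizers
  have hstab : ∀ B : XB A, Nat.card (MulAction.stabilizer L B) = Nat.card (NB L (B.1 : Set G)) := by
    intro B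
    have hiff : ∀ x : L, x • B = B ↔ (x : G) ∈ Subgroup.normalizer (B.1 : Set G) := by
      intro x
      rw [Subgroup.mem_normalizer_iff_conj_image_eq]
      constructor
      · intro h
        have h1 := hsm x B
        rw [h] at h1
        exact h1.symm
      · intro h
        apply Subtype.ext
        apply Finset.coe_injective
        rw [hsm]
        exact h
    refine Nat.card_congr ⟨fun x => ⟨((x : L) : G), (x : L).2, (hiff x).1 x.2⟩,
      fun x => ⟨⟨(x : G), x.2.1⟩, (hiff _).2 x.2.2⟩, fun x => rfl, fun x => rfl⟩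
  -- invariance of the induced characters
  have hθinv : ∀ (x : L) (B : XB A), θ (x • B) = θ B := by
    intro x B
    ext g
    have h1 := hθe (x • B) g
    have h2 := hθe B g
    rw [hsm, QB_cset hD hαc B.2.1 x (Fg_conj g), NB_cset, h2] at h1
    have h3 : (Nat.card (NB L (B.1 : Set G)) : ℂ) ≠ 0 := by exact_mod_cast Nat.card_pos.ne'
    exact (mul_left_cancel₀ h3 h1).symm
  -- the identity
  have hid : ∀ g : G, (Nat.card L : ℂ) * dadeIsometry A L H α g =
      ∑ B : XB A, (Nat.card (MulAction.stabilizer L B) : ℂ) * ((-1 : ℂ) ^ (B.1.card + 1) * θ B g) := by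
    intro g
    rw [dade_formula hD hαc hαA]
    have h1 : ∀ b : L, α b * ((Nat.card (H b) : ℂ)⁻¹ * Nn H (b : G) g) =
        α b * cav (H b) (Fg g) b := by
      intro b
      by_cases hb : (b : G) ∈ A
      · rw [Nn_eq (b : G) g (fun u hu => dade_comm hD hb hu)]
      · rw [hαA b hb]; ring
    rw [Finset.sum_congr rfl (fun b _ => h1 b), ← sum_QB hD hαA (Fg_conj g)]
    symm
    refine Finset.sum_bij (fun (B : XB A) _ => B.1) ?_ (fun a _ b _ h => Subtype.ext h) ?_ ?_
    · intro B _
      rw [Finset.mem_filter, Finset.mem_powerset]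
      refine ⟨fun b hb => Finset.mem_filter.2 ⟨Finset.mem_univ _, B.2.1 hb⟩, B.2.2⟩
    · intro B hB
      rw [Finset.mem_filter, Finset.mem_powerset] at hB
      exact ⟨⟨B, fun b hb => (Finset.mem_filter.1 (hB.1 hb)).2, hB.2⟩, Finset.mem_univ _, rfl⟩
    · intro B _
      rw [hθe, hstab]; ring
  have hL : (Nat.card L : ℂ) ≠ 0 := by exact_mod_cast Nat.card_pos.ne'
  have hfin : dadeIsometry A L H α = ∑ ω : Quotient (MulAction.orbitRel L (XB A)),
      ((((-1 : ℤ) ^ ((Quotient.out ω).1.card + 1) : ℤ)) : ℂ) • θ (Quotient.out ω) := by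
    ext g
    have h1 := orbit_sum_stab (L := L) (X := XB A) (fun B => (-1 : ℂ) ^ (B.1.card + 1) * θ B g)
      (fun x B => by
        show (-1 : ℂ) ^ ((x • B).1.card + 1) * θ (x • B) g = _
        rw [hsc, hθinv])
    rw [← hid g] at h1
    have h2 := mul_left_cancel₀ hL h1
    rw [h2, Finset.sum_apply]
    refine Finset.sum_congr rfl fun ω _ => ?_
    simp only [Pi.smul_apply, smul_eq_mul]
    push_cast
    rfl
  rw [hfin]
  exact isGen_sum _ _ fun ω _ => isGen_int_smul (hθ _) _

end Dade4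

end CfsgH4
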