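import Cfsg.Agent.H4.DihA

/-!
# Groups with dihedral Sylow 2-subgroups: centralizers of 2-elements
-/

set_option autoImplicit false

open Cfsg MonoidAlgebra
open CfsgH4 hiding centralChar sum_conj regInner_symm
open CfsgH5 ComplexConjugate

namespace CfsgH4

namespace DihIn

variable {G : Type*} [Group G] [Finite G] {P : Sylow 2 G} {σ : G} {n : ℕ}
variable (h : DihIn (P : Subgroup G) σ n)

include h

omit [Finite G] in
theorem P_le : (P : Subgroup G) ≤ Subgroup.centralizer ({J σ n} : Set G) := fun _ hx =>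
  Subgroup.mem_centralizer_singleton_iff.2 (h.J_comm hx)

theorem npcJ : CfsgH3.HasNPC 2 (Subgroup.centralizer ({J σ n} : Set G)) := by
  haveI : Fact (Nat.Prime 2) := ⟨Nat.prime_two⟩
  set C := Subgroup.centralizer ({J σ n} : Set G) with hC
  have hσC : σ ∈ C := h.P_le h.mem
  let Q : Sylow 2 C := P.subtype h.P_le
  have hJC : ((J (⟨σ, hσC⟩ : C) n : C) : G) = J σ n := by
    unfold J; push_cast; rfl
  have hz : ∀ x : C, (x ∈ Subgroup.zpowers (⟨σ, hσC⟩ : C)) ↔ (x : G) ∈ Subgroup.zpowers σ := by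
    intro x
    rw [Subgroup.mem_zpowers_iff, Subgroup.mem_zpowers_iff]
    constructor
    · rintro ⟨k, rfl⟩; exact ⟨k, by push_cast; rfl⟩
    · rintro ⟨k, hk⟩; exact ⟨k, Subtype.ext (by push_cast; exact hk)⟩
  have h' : DihIn (Q : Subgroup C) (⟨σ, hσC⟩ : C) n := by
    refine ⟨h.hn, ?_, ?_, ?_, ?_⟩
    · exact h.mem
    · rw [Subgroup.orderOf_mk]; exact h.ord
    · have h1 : (Q : Subgroup C) = (P : Subgroup G).subgroupOf C := rfl
      rw [h1, Nat.card_congr (Subgroup.subgroupOfEquivOfLe h.P_le).toEquiv, h.card]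
    · intro x hx
      rcases h.cases x hx with h1 | ⟨h1, h2⟩
      · exact Or.inl ((hz x).2 h1)
      · exact Or.inr ⟨Subtype.ext h1, Subtype.ext h2⟩
  refine h'.npc_of_central ?_
  intro g
  apply Subtype.ext
  have h1 := Subgroup.mem_centralizer_singleton_iff.1 g.2
  push_cast
  rw [hJC]
  exact h1

/-- `J` is a power of every nontrivial rotation -/
theorem J_pow {x : G} (hx : x ∈ Subgroup.zpowers σ) (hx1 : x ≠ 1) : ∃ k : ℕ, J σ n = x ^ k := by
  have h1 : orderOf x ∣ 2 ^ (n - 1) := by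
    rw [← h.ord]
    obtain ⟨k, rfl⟩ := Subgroup.mem_zpowers_iff.1 hx
    exact orderOf_dvd_of_pow_eq_one (by rw [← zpow_natCast, ← zpow_mul, mul_comm, zpow_mul, zpow_natCast, pow_orderOf_eq_one, one_zpow])
  obtain ⟨i, hi, hi2⟩ := (Nat.dvd_prime_pow Nat.prime_two).1 h1
  have hi0 : i ≠ 0 := by
    rintro rfl
    exact hx1 (orderOf_eq_one_iff.1 (by rw [hi2]; norm_num))
  obtain ⟨j, rfl⟩ := Nat.exists_eq_succ_of_ne_zero hi0
  refine ⟨2 ^ j, ?_⟩
  have h2 : x ^ (2 ^ j) * x ^ (2 ^ j) = 1 := by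
    rw [← pow_add, ← two_mul, ← pow_succ', ← hi2, pow_orderOf_eq_one]
  rcases h.rot_sq (Subgroup.pow_mem _ hx _) h2 with h3 | h3
  · exfalso
    have h4 := orderOf_dvd_of_pow_eq_one h3
    rw [hi2] at h4
    have h5 := Nat.le_of_dvd (by positivity) h4
    have h6 : 2 ^ (j + 1) = 2 * 2 ^ j := pow_succ' 2 j
    have h7 : 0 < 2 ^ j := by positivity
    simp only [Nat.succ_eq_add_one] at h5
    omega
  · exact h3.symm

theorem cent_le {x : G} (hx : x ∈ Subgroup.zpowers σ) (hx1 : x ≠ 1) :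
    Subgroup.centralizer ({x} : Set G) ≤ Subgroup.centralizer ({J σ n} : Set G) := by
  obtain ⟨k, hk⟩ := h.J_pow hx hx1
  intro g hg
  rw [Subgroup.mem_centralizer_singleton_iff] at hg ⊢
  rw [hk]
  exact (show Commute g x from hg).pow_right k

theorem npc_rot {x : G} (hx : x ∈ Subgroup.zpowers σ) (hx1 : x ≠ 1) :
    CfsgH3.HasNPC 2 (Subgroup.centralizer ({x} : Set G)) := by
  haveI : Fact (Nat.Prime 2) := ⟨Nat.prime_two⟩
  exact h.npcJ.le (h.cent_le hx hx1)

theorem card_fac : (Nat.card G).factorization 2 = n := by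
  have h1 := P.card_eq_multiplicity
  have h2 := h.card
  rw [h2] at h1
  exact (Nat.pow_right_injective (le_refl 2) h1).symm

theorem fac_J : (Nat.card (Subgroup.centralizer ({J σ n} : Set G))).factorization 2 = n := by
  apply le_antisymm
  · have h1 := Subgroup.card_subgroup_dvd_card (Subgroup.centralizer ({J σ n} : Set G))
    have h2 := (Nat.factorization_le_iff_dvd Nat.card_pos.ne' Nat.card_pos.ne').2 h1 2
    rw [h.card_fac] at h2
    exact h2
  · have h1 := Subgroup.card_dvd_of_le h.P_le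
    rw [h.card] at h1
    exact (Nat.prime_two.pow_dvd_iff_le_factorization Nat.card_pos.ne').1 h1

/-- conjugating a `2`-subgroup into `P` -/
theorem conj_into_P {S : Subgroup G} (hS : IsPGroup 2 S) : ∃ c : G, ∀ x ∈ S, c * x * c⁻¹ ∈ (P : Subgroup G) := by
  haveI : Fact (Nat.Prime 2) := ⟨Nat.prime_two⟩
  obtain ⟨Q, hQ⟩ := hS.exists_le_sylow
  obtain ⟨c, hc⟩ := MulAction.exists_smul_eq G Q P
  refine ⟨c, fun x hx => ?_⟩
  rw [← hc]
  have h1 : x ∈ (Q : Subgroup G) := hQ hx
  rw [Sylow.coe_subgroup_smul]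
  exact ⟨x, h1, rfl⟩

omit [Finite G] in
theorem central_elt {z : G} (hz : z ∈ (P : Subgroup G)) (hz1 : z ≠ 1)
    (hc : ∀ x ∈ (P : Subgroup G), x * z = z * x) (hr : ∃ x ∈ (P : Subgroup G), x ∉ Subgroup.zpowers σ) : z = J σ n := by
  have h1 : z ∈ Subgroup.zpowers σ := by
    by_contra h2
    have h3 := ((h.refl_iff hz).1 h2).2
    apply h.sig_ne
    rw [← h3, ← hc σ h.mem]; group
  obtain ⟨x, hx, hx2⟩ := hr
  have h2 := h.refl_rot hx hx2 h1
  rw [hc x hx] at h2
  have h3 : z * z = 1 := by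
    have : z = z⁻¹ := by rw [← h2]; group
    nth_rewrite 1 [this]; group
  exact (h.rot_sq h1 h3).resolve_left hz1

theorem fac_rot {x : G} (hx : x ∈ Subgroup.zpowers σ) (hx1 : x ≠ 1) (hxJ : x ≠ J σ n) :
    (Nat.card (Subgroup.centralizer ({x} : Set G))).factorization 2 = n - 1 := by
  haveI : Fact (Nat.Prime 2) := ⟨Nat.prime_two⟩
  set C := Subgroup.centralizer ({x} : Set G) with hC
  apply le_antisymm
  · -- a Sylow subgroup of `C`
    obtain ⟨S⟩ : Nonempty (Sylow 2 C) := inferInstance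
    have h1 := S.card_eq_multiplicity
    set T : Subgroup G := (S : Subgroup C).map C.subtype with hT
    have hTcard : Nat.card T = Nat.card (S : Subgroup C) := Subgroup.card_map_of_injective C.subtype_injective
    have hT2 : IsPGroup 2 T := S.2.map _
    obtain ⟨c, hc⟩ := h.conj_into_P (S := T) hT2
    have hTc : T.map (MulAut.conj c).toMonoidHom ≤ (P : Subgroup G) := by
      rintro _ ⟨t, ht, rfl⟩; exact hc t ht
    have hcard : Nat.card (T.map (MulAut.conj c).toMonoidHom) = Nat.card T :=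
      Subgroup.card_map_of_injective (MulAut.conj c).injective
    by_contra hcon
    have hge : n ≤ (Nat.card C).factorization 2 := by omega
    have h2 : Nat.card (P : Subgroup G) ≤ Nat.card (T.map (MulAut.conj c).toMonoidHom) := by
      rw [hcard, hTcard, h1, h.card]
      exact Nat.pow_le_pow_right (by norm_num) hge
    have h3 : T.map (MulAut.conj c).toMonoidHom = (P : Subgroup G) := Subgroup.eq_of_le_of_card_ge hTc h2
    -- x is in T
    have hxC : x ∈ C := Subgroup.mem_centralizer_singleton_iff.2 rfl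
    have hxcen : (⟨x, hxC⟩ : C) ∈ Subgroup.center C := by
      rw [Subgroup.mem_center_iff]
      intro g
      exact Subtype.ext (Subgroup.mem_centralizer_singleton_iff.1 g.2)
    have hcomm : ∀ y ∈ (P : Subgroup G), y * (c * x * c⁻¹) = (c * x * c⁻¹) * y := by
      intro y hy
      rw [← h3] at hy
      obtain ⟨t, ht, rfl⟩ := hy
      obtain ⟨t', -, rfl⟩ := ht
      have h4 := Subgroup.mem_centralizer_singleton_iff.1 t'.2
      change c * (t' : G) * c⁻¹ * (c * x * c⁻¹) = c * x * c⁻¹ * (c * (t' : G) * c⁻¹)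
      calc c * (t' : G) * c⁻¹ * (c * x * c⁻¹) = c * ((t' : G) * x) * c⁻¹ := by group
        _ = c * (x * (t' : G)) * c⁻¹ := by rw [h4]
        _ = _ := by group
    -- c x c⁻¹ is a 2-element normalizing P, hence in P
    have hcx : c * x * c⁻¹ ∈ (P : Subgroup G) := by
      have h5 : c * x * c⁻¹ ∈ Subgroup.normalizer ((P : Subgroup G) : Set G) := by
        rw [Subgroup.mem_normalizer_iff]
        intro y
        constructor
        · intro hy
          have h10 : c * x * c⁻¹ * y * (c * x * c⁻¹)⁻¹ = y := by rw [← hcomm y hy]; group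
          change c * x * c⁻¹ * y * (c * x * c⁻¹)⁻¹ ∈ (P : Subgroup G)
          rw [h10]; exact hy
        · intro hy
          have h6 := hcomm _ hy
          have h7 : y = c * x * c⁻¹ * y * (c * x * c⁻¹)⁻¹ := by
            calc y = (c * x * c⁻¹)⁻¹ * ((c * x * c⁻¹ * y * (c * x * c⁻¹)⁻¹) * (c * x * c⁻¹)) := by group
              _ = (c * x * c⁻¹)⁻¹ * ((c * x * c⁻¹) * (c * x * c⁻¹ * y * (c * x * c⁻¹)⁻¹)) := by rw [h6]
              _ = _ := by group
          rw [h7]; exact hy
      have h6 : IsPGroup 2 (Subgroup.zpowers (c * x * c⁻¹)) := by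
        have h7 : IsPGroup 2 (Subgroup.zpowers x) := h.isPGroup_P.to_le (by
          rw [Subgroup.zpowers_le]; exact h.rot_le hx)
        have h8 : Subgroup.zpowers (c * x * c⁻¹) = (Subgroup.zpowers x).map (MulAut.conj c).toMonoidHom := by
          rw [MonoidHom.map_zpowers]; rfl
        rw [h8]; exact h7.map _
      have h7 := (IsPGroup.to_sup_of_normal_right' h6 P.2 (by rw [Subgroup.zpowers_le]; exact h5))
      have h8 := P.3 h7 le_sup_right
      exact h8 ▸ (le_sup_left : _ ≤ Subgroup.zpowers (c * x * c⁻¹) ⊔ (P : Subgroup G)) (Subgroup.mem_zpowers _)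
    have h9 := h.central_elt hcx (by
      intro h10; apply hx1
      calc x = c⁻¹ * (c * x * c⁻¹) * c := by group
        _ = 1 := by rw [h10]; group) hcomm h.exists_refl
    apply hxJ
    refine (h.rot_sq hx ?_).resolve_left hx1
    have h10 := h.JJ
    rw [← h9] at h10
    calc x * x = c⁻¹ * (c * x * c⁻¹ * (c * x * c⁻¹)) * c := by group
      _ = 1 := by rw [h10]; group
  · have h1 : Subgroup.zpowers σ ≤ C := by
      rw [Subgroup.zpowers_le, hC, Subgroup.mem_centralizer_singleton_iff]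
      obtain ⟨k, rfl⟩ := Subgroup.mem_zpowers_iff.1 hx
      exact (Commute.refl σ).zpow_right k
    have h2 := Subgroup.card_dvd_of_le h1
    rw [Nat.card_zpowers, h.ord] at h2
    exact (Nat.prime_two.pow_dvd_iff_le_factorization Nat.card_pos.ne').1 h2

theorem facP {k : G} (hk : k ∈ Subgroup.centralizer ({J σ n} : Set G)) :
    ∃ x ∈ (P : Subgroup G), ∃ y ∈ centralizerPPrimeCore 2 (J σ n), k = x * y := by
  haveI : Fact (Nat.Prime 2) := ⟨Nat.prime_two⟩
  haveI : Fintype G := Fintype.ofFinite G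
  refine exists_fac P (Subgroup.centralizer ({J σ n} : Set G)) (centralizerPPrimeCore 2 (J σ n)) h.P_le ?_ ?_
    (odd_core (J σ n)) ⟨_, card_cent_core h.npcJ⟩ hk
  · intro y hy
    exact Subgroup.mem_centralizer_singleton_iff.2 (core_comm hy)
  · intro k hk y hy
    refine core_normal h.npcJ (Or.inl ?_) hy
    rw [Subgroup.mem_centralizer_singleton_iff.1 hk]; group

/-- fusion of rotations -/
theorem rot_fusion {x y : G} (hx : x ∈ Subgroup.zpowers σ) (hx1 : x ≠ 1) (hy : y ∈ Subgroup.zpowers σ)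
    (hxy : IsConj x y) : y = x ∨ y = x⁻¹ := by
  haveI : Fact (Nat.Prime 2) := ⟨Nat.prime_two⟩
  obtain ⟨c, hc⟩ := isConj_iff.1 hxy
  obtain ⟨k, hk⟩ := h.J_pow hx hx1
  have h1 : c * J σ n * c⁻¹ = J σ n := by
    have h2 : c * J σ n * c⁻¹ = y ^ k := by rw [hk, ← conj_pow, hc]
    have h3 : c * J σ n * c⁻¹ ∈ Subgroup.zpowers σ := by rw [h2]; exact Subgroup.pow_mem _ hy _
    refine (h.rot_sq h3 ?_).resolve_left ?_
    · calc c * J σ n * c⁻¹ * (c * J σ n * c⁻¹) = c * (J σ n * J σ n) * c⁻¹ := by group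
        _ = 1 := by rw [h.JJ]; group
    · intro h4
      apply h.J_ne
      calc J σ n = c⁻¹ * (c * J σ n * c⁻¹) * c := by group
        _ = 1 := by rw [h4]; group
  have hcC : c ∈ Subgroup.centralizer ({J σ n} : Set G) := by
    rw [Subgroup.mem_centralizer_singleton_iff]
    calc c * J σ n = (c * J σ n * c⁻¹) * c := by group
      _ = _ := by rw [h1]
  obtain ⟨q, hq, o, ho, rfl⟩ := h.facP hcC
  have hxP := h.rot_le hx
  have hyP := h.rot_le hy
  have hcJx : x * J σ n * x⁻¹ = J σ n := by rw [h.J_comm hxP]; group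
  have h5 : q⁻¹ * y * q * x⁻¹ = o * (x * o⁻¹ * x⁻¹) := by
    rw [← hc]; group
  have h6 : q⁻¹ * y * q * x⁻¹ = 1 := by
    refine sylow_core_trivial P (odd_core (J σ n)) ?_ (h5 ▸ Subgroup.mul_mem _ ho
      (core_normal h.npcJ (Or.inl hcJx) (Subgroup.inv_mem _ ho)))
    exact (P : Subgroup G).mul_mem ((P : Subgroup G).mul_mem ((P : Subgroup G).mul_mem
      ((P : Subgroup G).inv_mem hq) hyP) hq) ((P : Subgroup G).inv_mem hxP)
  have h7 : y = q * x * q⁻¹ := by
    calc y = q * (q⁻¹ * y * q * x⁻¹) * x * q⁻¹ := by group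
      _ = _ := by rw [h6]; group
  by_cases hq2 : q ∈ Subgroup.zpowers σ
  · left
    rw [h7]
    obtain ⟨i, rfl⟩ := Subgroup.mem_zpowers_iff.1 hq2
    obtain ⟨j, rfl⟩ := Subgroup.mem_zpowers_iff.1 hx
    have : σ ^ i * σ ^ j = σ ^ j * σ ^ i := (Commute.refl σ).zpow_zpow i j
    rw [this]; group
  · right
    rw [h7]
    exact h.refl_rot hq hq2 hx

omit [Finite G] in
theorem J_mul_ne {y : G} (hy2 : y ∉ Subgroup.zpowers σ) : J σ n * y ≠ 1 ∧ J σ n * y ≠ J σ n ∧ J σ n * y ≠ y := by
  refine ⟨?_, ?_, ?_⟩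
  · intro h1
    apply hy2
    have : y = (J σ n)⁻¹ := by rw [eq_comm, inv_eq_iff_mul_eq_one]; exact h1
    rw [this]
    exact Subgroup.inv_mem _ h.J_rot
  · intro h1
    apply hy2
    rw [mul_eq_left.1 h1]
    exact Subgroup.one_mem _
  · intro h1
    exact h.J_ne (mul_eq_right.1 h1)

/-- centralizers of reflections not conjugate to `J` -/
theorem refl_cent {y : G} (hy : y ∈ (P : Subgroup G)) (hy2 : y ∉ Subgroup.zpowers σ) (hyJ : ¬ IsConj y (J σ n)) :
    CfsgH3.HasNPC 2 (Subgroup.centralizer ({y} : Set G)) ∧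
      (Nat.card (Subgroup.centralizer ({y} : Set G))).factorization 2 = 2 := by
  classical
  haveI : Fact (Nat.Prime 2) := ⟨Nat.prime_two⟩
  set C := Subgroup.centralizer ({y} : Set G) with hC
  have hyy := ((h.refl_iff hy).1 hy2).1
  have hy1 : y ≠ 1 := by rintro rfl; exact hy2 (Subgroup.one_mem _)
  have hyJ' : y ≠ J σ n := by rintro rfl; exact hy2 h.J_rot
  obtain ⟨S⟩ : Nonempty (Sylow 2 C) := inferInstance
  have hyC : y ∈ C := Subgroup.mem_centralizer_singleton_iff.2 rfl
  -- y in S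
  have hycen : (⟨y, hyC⟩ : C) ∈ Subgroup.center C := by
    rw [Subgroup.mem_center_iff]
    intro g
    exact Subtype.ext (Subgroup.mem_centralizer_singleton_iff.1 g.2)
  have hyS : (⟨y, hyC⟩ : C) ∈ (S : Subgroup C) := by
    have h1 : IsPGroup 2 (Subgroup.zpowers (⟨y, hyC⟩ : C)) := by
      refine IsPGroup.of_card (n := 1) ?_
      rw [Nat.card_zpowers, Subgroup.orderOf_mk, pow_one]
      exact orderOf_eq_prime (by rw [pow_two, hyy]) hy1
    have h2 : IsPGroup 2 (Subgroup.zpowers (⟨y, hyC⟩ : C) ⊔ (S : Subgroup C) : Subgroup C) := by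
      refine IsPGroup.to_sup_of_normal_right' h1 S.2 ?_
      rw [Subgroup.zpowers_le, Subgroup.mem_normalizer_iff]
      intro g
      have h3 : (⟨y, hyC⟩ : C) * g * (⟨y, hyC⟩ : C)⁻¹ = g := by
        rw [← (Subgroup.mem_center_iff.1 hycen) g]; group
      change g ∈ (S : Subgroup C) ↔ (⟨y, hyC⟩ : C) * g * (⟨y, hyC⟩ : C)⁻¹ ∈ (S : Subgroup C)
      rw [h3]
    have h3 := S.3 h2 le_sup_right
    exact h3 ▸ (le_sup_left : _ ≤ Subgroup.zpowers (⟨y, hyC⟩ : C) ⊔ (S : Subgroup C)) (Subgroup.mem_zpowers _)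
  set T : Subgroup G := (S : Subgroup C).map C.subtype with hT
  have hTcard : Nat.card T = Nat.card (S : Subgroup C) := Subgroup.card_map_of_injective C.subtype_injective
  have hT2 : IsPGroup 2 T := S.2.map _
  obtain ⟨c, hc⟩ := h.conj_into_P (S := T) hT2
  have hyT : y ∈ T := ⟨⟨y, hyC⟩, hyS, rfl⟩
  set y' := c * y * c⁻¹ with hy'
  have hy'P : y' ∈ (P : Subgroup G) := hc y hyT
  have hyy' : IsConj y y' := isConj_iff.2 ⟨c, rfl⟩
  have hy'2 : y' ∉ Subgroup.zpowers σ := by
    intro h1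
    have h2 : y' * y' = 1 := by
      calc y' * y' = c * (y * y) * c⁻¹ := by rw [hy']; group
        _ = 1 := by rw [hyy]; group
    rcases h.rot_sq h1 h2 with h3 | h3
    · exact hy1 (isConj_one_left.1 (h3 ▸ hyy'))
    · exact hyJ (h3 ▸ hyy')
  have hTe : ∀ t ∈ T, c * t * c⁻¹ = 1 ∨ c * t * c⁻¹ = J σ n ∨ c * t * c⁻¹ = y' ∨ c * t * c⁻¹ = J σ n * y' := by
    intro t ht
    refine h.cent_refl hy'P hy'2 (hc t ht) ?_
    obtain ⟨t', -, rfl⟩ := ht
    have h4 := Subgroup.mem_centralizer_singleton_iff.1 t'.2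
    change c * y * c⁻¹ * (c * (t' : G) * c⁻¹) = c * (t' : G) * c⁻¹ * (c * y * c⁻¹)
    calc c * y * c⁻¹ * (c * (t' : G) * c⁻¹) = c * (y * (t' : G)) * c⁻¹ := by group
      _ = c * ((t' : G) * y) * c⁻¹ := by rw [h4]
      _ = _ := by group
  have hTle : Nat.card T ≤ 4 := by
    have h1 : Nat.card T ≤ Nat.card ({1, J σ n, y', J σ n * y'} : Finset G) := by
      refine Nat.card_le_card_of_injective (fun t : T => (⟨c * t * c⁻¹, ?_⟩ : ({1, J σ n, y', J σ n * y'} : Finset G))) ?_
      · simp only [Finset.mem_insert, Finset.mem_singleton]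
        exact hTe t t.2
      · intro a b hab
        have := congrArg Subtype.val hab
        exact Subtype.ext (mul_left_cancel (mul_right_cancel this))
    refine h1.trans ?_
    rw [Nat.card_eq_fintype_card, Fintype.card_coe]
    exact Finset.card_le_four
  -- lower bound
  have hlow : 2 ≤ (Nat.card C).factorization 2 := by
    have h1 : (P : Subgroup G) ⊓ C ≤ C := inf_le_right
    obtain ⟨k, hk⟩ := IsPGroup.iff_card.1 (P.2.to_le (inf_le_left : (P : Subgroup G) ⊓ C ≤ P))
    have hmem : ∀ g ∈ ({1, J σ n, y, J σ n * y} : Finset G), g ∈ (P : Subgroup G) ⊓ C := by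
      intro g hg
      have hyJc := h.J_comm hy
      have e1 : J σ n ∈ (P : Subgroup G) ⊓ C := Subgroup.mem_inf.2 ⟨h.J_mem, Subgroup.mem_centralizer_singleton_iff.2 hyJc.symm⟩
      have e2 : y ∈ (P : Subgroup G) ⊓ C := Subgroup.mem_inf.2 ⟨hy, hyC⟩
      simp only [Finset.mem_insert, Finset.mem_singleton] at hg
      rcases hg with rfl | rfl | rfl | rfl
      · exact Subgroup.one_mem _
      · exact e1
      · exact e2
      · exact Subgroup.mul_mem _ e1 e2
    have h2 : ({1, J σ n, y, J σ n * y} : Finset G).card ≤ Nat.card ((P : Subgroup G) ⊓ C : Subgroup G) := by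
      rw [← Fintype.card_coe, ← Nat.card_eq_fintype_card]
      exact Nat.card_le_card_of_injective (fun g : ({1, J σ n, y, J σ n * y} : Finset G) =>
        (⟨g.1, hmem g.1 g.2⟩ : ((P : Subgroup G) ⊓ C : Subgroup G))) fun a b hab => by
          have h9 := congrArg Subtype.val hab
          exact Subtype.ext h9
    obtain ⟨n1, n2, n3⟩ := h.J_mul_ne hy2
    have h3 : ({1, J σ n, y, J σ n * y} : Finset G).card = 4 := by
      rw [Finset.card_insert_of_notMem, Finset.card_insert_of_notMem, Finset.card_insert_of_notMem,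
        Finset.card_singleton]
      · simpa using n3.symm
      · simp only [Finset.mem_insert, Finset.mem_singleton, not_or]
        exact ⟨hyJ'.symm, n2.symm⟩
      · simp only [Finset.mem_insert, Finset.mem_singleton, not_or]
        exact ⟨h.J_ne.symm, hy1.symm, n1.symm⟩
    rw [h3, hk] at h2
    have hk2 : 2 ≤ k := by
      by_contra hk2
      have : k ≤ 1 := by omega
      have := Nat.pow_le_pow_right (show 0 < 2 by norm_num) this
      omega
    have h4 : 2 ^ 2 ∣ Nat.card C := (Nat.pow_dvd_pow 2 hk2).trans (hk ▸ Subgroup.card_dvd_of_le h1)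
    exact (Nat.prime_two.pow_dvd_iff_le_factorization Nat.card_pos.ne').1 h4
  have hfac : (Nat.card C).factorization 2 = 2 := by
    refine le_antisymm ?_ hlow
    rw [hTcard, S.card_eq_multiplicity] at hTle
    by_contra hcon
    have h1 : 3 ≤ (Nat.card C).factorization 2 := by omega
    have := Nat.pow_le_pow_right (show 0 < 2 by norm_num) h1
    omega
  refine ⟨?_, hfac⟩
  have hS4 : Nat.card (S : Subgroup C) = 4 := by rw [S.card_eq_multiplicity, hfac]; norm_num
  have hsq : ∀ x : (S : Subgroup C), x * x = 1 := by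
    intro x
    have h1 : ((x : C) : G) ∈ T := ⟨x, x.2, rfl⟩
    have h2 : (c * ((x : C) : G) * c⁻¹) * (c * ((x : C) : G) * c⁻¹) = 1 := by
      have hy'y' := ((h.refl_iff hy'P).1 hy'2).1
      rcases hTe _ h1 with h3 | h3 | h3 | h3
      · rw [h3, one_mul]
      · rw [h3]; exact h.JJ
      · rw [h3]; exact hy'y'
      · rw [h3]
        have h4 := h.J_comm hy'P
        calc J σ n * y' * (J σ n * y') = J σ n * (y' * J σ n) * y' := by group
          _ = (J σ n * J σ n) * (y' * y') := by rw [h4]; group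
          _ = 1 := by rw [h.JJ, hy'y', one_mul]
    apply Subtype.ext; apply Subtype.ext
    push_cast
    calc ((x : C) : G) * ((x : C) : G) = c⁻¹ * (c * ((x : C) : G) * c⁻¹ * (c * ((x : C) : G) * c⁻¹)) * c := by group
      _ = 1 := by rw [h2]; group
  have hK : IsKleinFour (S : Subgroup C) := kleinFour_of_card hS4 hsq
  rcases CfsgH3.klein_cases S hK with h1 | h1
  · exact CfsgH3.hasNPC_burnside S h1
  · exfalso
    -- another element of S
    obtain ⟨w, hw, hw1, hwy⟩ : ∃ w ∈ (S : Subgroup C), w ≠ 1 ∧ w ≠ ⟨y, hyC⟩ := by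
      by_contra hcon
      push Not at hcon
      haveI := Fintype.ofFinite (S : Subgroup C)
      have h2 : Nat.card (S : Subgroup C) ≤ Nat.card ({1, ⟨y, hyC⟩} : Finset C) := by
        refine Nat.card_le_card_of_injective (fun t : (S : Subgroup C) => (⟨t.1, ?_⟩ : ({1, ⟨y, hyC⟩} : Finset C))) ?_
        · simp only [Finset.mem_insert, Finset.mem_singleton]
          by_cases h3 : (t : C) = 1
          · exact Or.inl h3
          · exact Or.inr (hcon t t.2 h3)
        · intro a b hab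
          have h9 := congrArg Subtype.val hab
          exact Subtype.ext h9
      rw [hS4, Nat.card_eq_fintype_card, Fintype.card_coe] at h2
      have := Finset.card_le_two (a := (1 : C)) (b := ⟨y, hyC⟩)
      omega
    have h2 := h1 ⟨y, hyC⟩ hyS w hw (fun h3 => hy1 (congrArg Subtype.val h3)) hw1
    obtain ⟨d, hd⟩ := isConj_iff.1 h2
    apply hwy
    rw [← hd, (Subgroup.mem_center_iff.1 hycen) d]; group

end DihIn

end CfsgH4
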