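import Mathlib

/-!
# Combinatorial part of the dihedral principal block
-/

set_option autoImplicit false

namespace CfsgH4

section Comb

variable {ι : Type*} [DecidableEq ι]

theorem sq_small (T : Finset ι) (f : ι → ℤ) {k : ℕ} (hk : k ≤ 3) (h0 : ∀ i ∈ T, f i ≠ 0)
    (hs : ∑ i ∈ T, f i ^ 2 = k) : T.card = k ∧ ∀ i ∈ T, f i = 1 ∨ f i = -1 := by
  have h1 : ∀ i ∈ T, 1 ≤ f i ^ 2 := by
    intro i hi
    have := h0 i hi
    have h2 : 0 < f i ^ 2 := by positivity
    omega
  have h2 : ∀ i ∈ T, f i = 1 ∨ f i = -1 := by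
    intro i hi
    have h3 : f i ^ 2 ≤ 3 := by
      have h4 : f i ^ 2 ≤ ∑ i ∈ T, f i ^ 2 := Finset.single_le_sum (f := fun i => f i ^ 2) (fun j hj => by positivity) hi
      rw [hs] at h4
      have : (k : ℤ) ≤ 3 := by exact_mod_cast hk
      omega
    have h4 : f i < 2 := by nlinarith
    have h5 : -2 < f i := by nlinarith
    have h6 := h0 i hi
    omega
  refine ⟨?_, h2⟩
  have h3 : ∑ i ∈ T, f i ^ 2 = T.card := by
    rw [Finset.sum_congr rfl (g := fun _ => (1 : ℤ)) (fun i hi => by rcases h2 i hi with h | h <;> rw [h] <;> norm_num)]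
    simp
  rw [hs] at h3
  exact_mod_cast h3.symm

/-- a vector of norm three with a given coordinate one -/
theorem three_dec {T : Finset ι} {f : ι → ℤ} {o : ι} (ho : o ∈ T) (ho1 : f o = 1) (hs : ∑ i ∈ T, f i ^ 2 = 3) :
    ∃ p ∈ T, ∃ q ∈ T, p ≠ o ∧ q ≠ o ∧ p ≠ q ∧ (f p = 1 ∨ f p = -1) ∧ (f q = 1 ∨ f q = -1) ∧
      (∀ i ∈ T, i ≠ o → i ≠ p → i ≠ q → f i = 0) ∧
      ∀ g : ι → ℤ, ∑ i ∈ T, f i * g i = g o + f p * g p + f q * g q := by
  set S := (T.erase o).filter fun i => f i ≠ 0 with hS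
  have h1 : ∑ i ∈ S, f i ^ 2 = ((2 : ℕ) : ℤ) := by
    have h2 := Finset.add_sum_erase T (fun i => f i ^ 2) ho
    have h3 : ∑ i ∈ S, f i ^ 2 = ∑ i ∈ T.erase o, f i ^ 2 := by
      rw [hS, Finset.sum_filter]
      refine Finset.sum_congr rfl fun i _ => ?_
      split_ifs with h
      · rfl
      · push Not at h; rw [h]; ring
    rw [h3]
    simp only [ho1] at h2
    push_cast; linarith
  obtain ⟨h2, h3⟩ := sq_small S f (by norm_num) (fun i hi => (Finset.mem_filter.1 hi).2) h1
  obtain ⟨p, q, hpq, hSpq⟩ := Finset.card_eq_two.1 h2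
  have hp : p ∈ S := by rw [hSpq]; simp
  have hq : q ∈ S := by rw [hSpq]; simp
  have hp' := Finset.mem_erase.1 (Finset.mem_filter.1 hp).1
  have hq' := Finset.mem_erase.1 (Finset.mem_filter.1 hq).1
  have hz : ∀ i ∈ T, i ≠ o → i ≠ p → i ≠ q → f i = 0 := by
    intro i hi h4 h5 h6
    by_contra h7
    have h8 : i ∈ S := Finset.mem_filter.2 ⟨Finset.mem_erase.2 ⟨h4, hi⟩, h7⟩
    rw [hSpq] at h8
    simp only [Finset.mem_insert, Finset.mem_singleton] at h8
    tauto
  refine ⟨p, hp'.2, q, hq'.2, hp'.1, hq'.1, hpq, h3 p hp, h3 q hq, hz, ?_⟩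
  intro g
  have h4 : ({o, p, q} : Finset ι) ⊆ T := by
    intro i hi
    simp only [Finset.mem_insert, Finset.mem_singleton] at hi
    rcases hi with rfl | rfl | rfl
    · exact ho
    · exact hp'.2
    · exact hq'.2
  rw [← Finset.sum_subset h4 (fun i hi hi2 => by
    simp only [Finset.mem_insert, Finset.mem_singleton, not_or] at hi2
    rw [hz i hi hi2.1 hi2.2.1 hi2.2.2, zero_mul])]
  rw [Finset.sum_insert (by simp [hp'.1.symm, hq'.1.symm]), Finset.sum_insert (by simp [hpq]), Finset.sum_singleton, ho1]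
  ring

/-- a vector of norm four with a given coordinate one -/
theorem four_dec {T : Finset ι} {f : ι → ℤ} {o : ι} (ho : o ∈ T) (ho1 : f o = 1) (hs : ∑ i ∈ T, f i ^ 2 = 4) :
    ∃ p ∈ T, ∃ q ∈ T, ∃ r ∈ T, p ≠ o ∧ q ≠ o ∧ r ≠ o ∧ p ≠ q ∧ p ≠ r ∧ q ≠ r ∧ (f p = 1 ∨ f p = -1) ∧
      (f q = 1 ∨ f q = -1) ∧ (f r = 1 ∨ f r = -1) ∧
      (∀ i ∈ T, i ≠ o → i ≠ p → i ≠ q → i ≠ r → f i = 0) ∧
      ∀ g : ι → ℤ, ∑ i ∈ T, f i * g i = g o + f p * g p + f q * g q + f r * g r := by
  set S := (T.erase o).filter fun i => f i ≠ 0 with hS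
  have h1 : ∑ i ∈ S, f i ^ 2 = ((3 : ℕ) : ℤ) := by
    have h2 := Finset.add_sum_erase T (fun i => f i ^ 2) ho
    have h3 : ∑ i ∈ S, f i ^ 2 = ∑ i ∈ T.erase o, f i ^ 2 := by
      rw [hS, Finset.sum_filter]
      refine Finset.sum_congr rfl fun i _ => ?_
      split_ifs with h
      · rfl
      · push Not at h; rw [h]; ring
    rw [h3]
    simp only [ho1] at h2
    push_cast; linarith
  obtain ⟨h2, h3⟩ := sq_small S f (by norm_num) (fun i hi => (Finset.mem_filter.1 hi).2) h1
  obtain ⟨p, q, r, hpq, hpr, hqr, hSpq⟩ := Finset.card_eq_three.1 h2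
  have hp : p ∈ S := by rw [hSpq]; simp
  have hq : q ∈ S := by rw [hSpq]; simp
  have hr : r ∈ S := by rw [hSpq]; simp
  have hp' := Finset.mem_erase.1 (Finset.mem_filter.1 hp).1
  have hq' := Finset.mem_erase.1 (Finset.mem_filter.1 hq).1
  have hr' := Finset.mem_erase.1 (Finset.mem_filter.1 hr).1
  have hz : ∀ i ∈ T, i ≠ o → i ≠ p → i ≠ q → i ≠ r → f i = 0 := by
    intro i hi h4 h5 h6 h66
    by_contra h7
    have h8 : i ∈ S := Finset.mem_filter.2 ⟨Finset.mem_erase.2 ⟨h4, hi⟩, h7⟩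
    rw [hSpq] at h8
    simp only [Finset.mem_insert, Finset.mem_singleton] at h8
    tauto
  refine ⟨p, hp'.2, q, hq'.2, r, hr'.2, hp'.1, hq'.1, hr'.1, hpq, hpr, hqr, h3 p hp, h3 q hq, h3 r hr, hz, ?_⟩
  intro g
  have h4 : ({o, p, q, r} : Finset ι) ⊆ T := by
    intro i hi
    simp only [Finset.mem_insert, Finset.mem_singleton] at hi
    rcases hi with rfl | rfl | rfl | rfl
    · exact ho
    · exact hp'.2
    · exact hq'.2
    · exact hr'.2
  rw [← Finset.sum_subset h4 (fun i hi hi2 => by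
    simp only [Finset.mem_insert, Finset.mem_singleton, not_or] at hi2
    rw [hz i hi hi2.1 hi2.2.1 hi2.2.2.1 hi2.2.2.2, zero_mul])]
  rw [Finset.sum_insert (by simp [hp'.1.symm, hq'.1.symm, hr'.1.symm]), Finset.sum_insert (by simp [hpq, hpr]),
    Finset.sum_insert (by simp [hqr]), Finset.sum_singleton, ho1]
  ring

/-- the configuration of the rows of the principal block, dihedral case -/
theorem dih_comb {T : Finset ι} {o : ι} (ho : o ∈ T) {N : ℕ} (hN : N = 1 ∨ 3 ≤ N) (hN1 : 0 < N) (v : ι → ℤ) (u : Fin N → ι → ℤ)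
    (d : ι → ℤ) (hd : ∀ i ∈ T, 0 < d i) (hdo : d o = 1)
    (hvo : v o = 1) (huo : ∀ j, u j o = 1) (hvv : ∑ i ∈ T, v i ^ 2 = 4) (huu : ∀ j, ∑ i ∈ T, u j i ^ 2 = 3)
    (huv : ∀ j, ∑ i ∈ T, u j i * v i = 2) (huk : ∀ j k, j ≠ k → ∑ i ∈ T, u j i * u k i = 2)
    (hvd : ∑ i ∈ T, v i * d i = 0) (hud : ∀ j, ∑ i ∈ T, u j i * d i = 0) :
    ∃ a ∈ T, ∃ b ∈ T, ∃ c ∈ T, ∃ e : Fin N → ι, (∀ j, e j ∈ T) ∧ Function.Injective e ∧
      a ≠ o ∧ b ≠ o ∧ c ≠ o ∧ a ≠ b ∧ a ≠ c ∧ b ≠ c ∧ (∀ j, e j ≠ o ∧ e j ≠ a ∧ e j ≠ b ∧ e j ≠ c) ∧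
      (v a = 1 ∨ v a = -1) ∧ (v b = 1 ∨ v b = -1) ∧ (v c = 1 ∨ v c = -1) ∧
      (∀ i ∈ T, i ≠ o → i ≠ a → i ≠ b → i ≠ c → v i = 0) ∧
      (∀ j, u j a = v a) ∧ (∀ j, u j (e j) = - v a) ∧
      (∀ j, ∀ i ∈ T, i ≠ o → i ≠ a → i ≠ e j → u j i = 0) := by
  obtain ⟨p, hp, q, hq, r, hr, hpo, hqo, hro, hpq, hpr, hqr, hvp, hvq, hvr, hvz, hvdot⟩ := four_dec ho hvo hvv
  -- decompose each u j
  have key : ∀ j, ∃ s ∈ T, ∃ t ∈ T, s ≠ o ∧ t ≠ o ∧ s ≠ t ∧ (v s = 1 ∨ v s = -1) ∧ v t = 0 ∧ u j s = v s ∧ u j t = - v s ∧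
      (∀ i ∈ T, i ≠ o → i ≠ s → i ≠ t → u j i = 0) ∧
      ∀ g : ι → ℤ, ∑ i ∈ T, u j i * g i = g o + u j s * g s + u j t * g t := by
    intro j
    obtain ⟨s, hs, t, ht, hso, hto, hst, hus, hut, huz, hdot⟩ := three_dec ho (huo j) (huu j)
    have h1 := hdot v
    rw [huv j, hvo] at h1
    have h2 := hdot d
    rw [hud j, hdo] at h2
    have hds := hd s hs
    have hdt := hd t ht
    have hval : ∀ i ∈ T, i ≠ o → v i = 0 ∨ v i = 1 ∨ v i = -1 := by
      intro i hi hio
      by_cases h3 : i = p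
      · subst h3; exact Or.inr hvp
      by_cases h4 : i = q
      · subst h4; exact Or.inr hvq
      by_cases h5 : i = r
      · subst h5; exact Or.inr hvr
      exact Or.inl (hvz i hi hio h3 h4 h5)
    have hopp : u j t = - u j s := by
      rcases hus with h3 | h3 <;> rcases hut with h4 | h4 <;> rw [h3, h4] at h2 ⊢ <;> first | omega | norm_num
    rcases hval s hs hso with h3 | h3
    · -- then v t nonzero
      have h4 : v t = 1 ∨ v t = -1 := by
        rcases hval t ht hto with h5 | h5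
        · rw [h3, h5] at h1; omega
        · exact h5
      refine ⟨t, ht, s, hs, hto, hso, hst.symm, h4, h3, ?_, ?_, fun i hi h5 h6 h7 => huz i hi h5 h7 h6, fun g => by rw [hdot g]; ring⟩
      · rcases h4 with h5 | h5 <;> rcases hut with h6 | h6 <;> rw [h3, h5, h6] at h1 <;> rw [h5, h6] <;> omega
      · rcases h4 with h5 | h5 <;> rcases hut with h6 | h6 <;> rw [h3, h5, h6] at h1 <;> rw [h5] <;> omega
    · have h4 : v t = 0 := by
        rcases hval t ht hto with h5 | h5
        · exact h5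
        · rcases h3 with h6 | h6 <;> rcases h5 with h7 | h7 <;> rcases hus with h8 | h8 <;> rw [hopp, h6, h7, h8] at h1 <;> omega
      refine ⟨s, hs, t, ht, hso, hto, hst, h3, h4, ?_, ?_, huz, hdot⟩
      · rcases h3 with h5 | h5 <;> rcases hus with h6 | h6 <;> rw [h4, h5, h6] at h1 <;> rw [h5, h6] <;> omega
      · rcases h3 with h5 | h5 <;> rcases hus with h6 | h6 <;> rw [h4, h5, h6] at h1 <;> rw [hopp, h5, h6] <;> omega
  choose s hsT t htT hso hto hst hvs hvt hus hut huz hudot using key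
  -- values of u k at s j and t j
  have hus' : ∀ j k, u k (s j) = if s j = s k then v (s k) else 0 := by
    intro j k
    split_ifs with h1
    · rw [h1, hus]
    · refine huz k _ (hsT j) (hso j) h1 ?_
      intro h2
      have h3 := hvt k
      rw [← h2] at h3
      rcases hvs j with h4 | h4 <;> rw [h4] at h3 <;> omega
  have hut' : ∀ j k, u k (t j) = if t j = t k then - v (s k) else 0 := by
    intro j k
    split_ifs with h1
    · rw [h1, hut]
    · refine huz k _ (htT j) (hto j) ?_ h1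
      intro h2
      have h3 := hvt j
      rw [h2] at h3
      rcases hvs k with h4 | h4 <;> rw [h4] at h3 <;> omega
  have hpair : ∀ j k, j ≠ k → (s j = s k ∧ t j ≠ t k) ∨ (s j ≠ s k ∧ t j = t k ∧ v (s j) = v (s k)) := by
    intro j k hjk
    have h1 := hudot j (u k)
    rw [huk j k hjk, huo, hus j, hut j, hus' j k, hut' j k] at h1
    by_cases h2 : s j = s k <;> by_cases h3 : t j = t k
    · exfalso
      rw [if_pos h2, if_pos h3, h2] at h1
      rcases hvs k with h4 | h4 <;> rw [h4] at h1 <;> omega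
    · exact Or.inl ⟨h2, h3⟩
    · right
      rw [if_neg h2, if_pos h3] at h1
      refine ⟨h2, h3, ?_⟩
      rcases hvs j with h4 | h4 <;> rcases hvs k with h5 | h5 <;> rw [h4, h5] at h1 ⊢ <;> omega
    · exfalso
      rw [if_neg h2, if_neg h3] at h1
      omega
  -- all s j are equal
  have hmem : ∀ j, s j = p ∨ s j = q ∨ s j = r := by
    intro j
    by_contra hc
    push Not at hc
    have h1 := hvz (s j) (hsT j) (hso j) hc.1 hc.2.1 hc.2.2
    rcases hvs j with h4 | h4 <;> rw [h4] at h1 <;> omega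
  have hall : ∀ j k, s j = s k := by
    rcases hN with hN | hN
    · intro j k
      have : j = k := by
        apply Fin.ext
        have := j.2
        have := k.2
        omega
      rw [this]
    · intro j k
      by_contra hjk
      have hjk' : j ≠ k := by rintro rfl; exact hjk rfl
      have h1 := (hpair j k hjk').resolve_left (fun h => hjk h.1)
      -- a third index
      obtain ⟨l, hlj, hlk⟩ : ∃ l : Fin N, l ≠ j ∧ l ≠ k := by
        by_contra hc
        push Not at hc
        have h2 : (Finset.univ : Finset (Fin N)) ⊆ {j, k} := by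
          intro l _
          simp only [Finset.mem_insert, Finset.mem_singleton]
          by_cases h3 : l = j
          · exact Or.inl h3
          · exact Or.inr (hc l h3)
        have h3 := Finset.card_le_card h2
        have h4 := Finset.card_le_two (a := j) (b := k)
        rw [Finset.card_univ, Fintype.card_fin] at h3
        omega
      have h2 := hpair j l hlj.symm
      have h3 := hpair k l hlk.symm
      rcases h2 with ⟨h4, h5⟩ | ⟨h4, h5, h6⟩
      · rcases h3 with ⟨h7, h8⟩ | ⟨h7, h8, h9⟩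
        · exact hjk (h4.trans h7.symm)
        · exact h5 (h1.2.1.trans h8)
      · rcases h3 with ⟨h7, h8⟩ | ⟨h7, h8, h9⟩
        · exact h8 (h1.2.1.symm.trans h5)
        · -- three distinct elements
          have e1 := hudot j d
          have e2 := hudot k d
          have e3 := hudot l d
          rw [hud, hdo, hus, hut] at e1 e2 e3
          have hvd' := hvdot d
          rw [hvd, hdo] at hvd'
          have hsub : ({s j, s k, s l} : Finset ι) ⊆ {p, q, r} := by
            intro x hx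
            simp only [Finset.mem_insert, Finset.mem_singleton] at hx ⊢
            rcases hx with rfl | rfl | rfl
            · exact hmem j
            · exact hmem k
            · exact hmem l
          have hc3 : ({s j, s k, s l} : Finset ι).card = 3 := by
            rw [Finset.card_insert_of_notMem, Finset.card_insert_of_notMem, Finset.card_singleton]
            · simpa using h7
            · simp only [Finset.mem_insert, Finset.mem_singleton, not_or]
              exact ⟨hjk, h4⟩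
          have heq : ({s j, s k, s l} : Finset ι) = {p, q, r} :=
            Finset.eq_of_subset_of_card_le hsub (by rw [hc3]; exact Finset.card_le_three)
          have hT : ∀ x : ι, (x = p ∨ x = q ∨ x = r) → (s j = x ∨ s k = x ∨ s l = x) := by
            intro x hx
            have hx' : x ∈ ({p, q, r} : Finset ι) := by
              simp only [Finset.mem_insert, Finset.mem_singleton]; exact hx
            rw [← heq] at hx'
            simp only [Finset.mem_insert, Finset.mem_singleton] at hx'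
            rcases hx' with h10 | h10 | h10
            · exact Or.inl h10.symm
            · exact Or.inr (Or.inl h10.symm)
            · exact Or.inr (Or.inr h10.symm)
          have hval : ∀ x : ι, (x = p ∨ x = q ∨ x = r) → v x = v (s j) ∧ v (s j) * d x = v (s j) * d (s j) := by
            intro x hx
            rcases hT x hx with h10 | h10 | h10
            · rw [← h10]; exact ⟨rfl, rfl⟩
            · rw [← h10]
              refine ⟨h1.2.2.symm, ?_⟩
              rw [← h1.2.2, ← h1.2.1] at e2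
              linarith
            · rw [← h10]
              refine ⟨h6.symm, ?_⟩
              rw [← h6, ← h5] at e3
              linarith
          have f1 := hval p (Or.inl rfl)
          have f2 := hval q (Or.inr (Or.inl rfl))
          have f3 := hval r (Or.inr (Or.inr rfl))
          rw [f1.1, f2.1, f3.1, f1.2, f2.2, f3.2] at hvd'
          omega
  -- conclusion
  have hN0 : 0 < N := hN1
  set a := s ⟨0, hN0⟩ with ha
  have hsa : ∀ j, s j = a := fun j => hall j _
  obtain ⟨b, c, hb, hc, hbo, hco, hab, hac, hbc, hvb, hvc, hz⟩ : ∃ b c, b ∈ T ∧ c ∈ T ∧ b ≠ o ∧ c ≠ o ∧ a ≠ b ∧ a ≠ c ∧ b ≠ c ∧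
      (v b = 1 ∨ v b = -1) ∧ (v c = 1 ∨ v c = -1) ∧ ∀ i ∈ T, i ≠ o → i ≠ a → i ≠ b → i ≠ c → v i = 0 := by
    rcases hmem ⟨0, hN0⟩ with h1 | h1 | h1
    · exact ⟨q, r, hq, hr, hqo, hro, by rw [ha, h1]; exact hpq, by rw [ha, h1]; exact hpr, hqr, hvq, hvr, fun i hi h2 h3 h4 h5 =>
        hvz i hi h2 (by rw [ha, h1] at h3; exact h3) h4 h5⟩
    · exact ⟨p, r, hp, hr, hpo, hro, by rw [ha, h1]; exact hpq.symm, by rw [ha, h1]; exact hqr, hpr, hvp, hvr, fun i hi h2 h3 h4 h5 =>
        hvz i hi h2 h4 (by rw [ha, h1] at h3; exact h3) h5⟩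
    · exact ⟨p, q, hp, hq, hpo, hqo, by rw [ha, h1]; exact hpr.symm, by rw [ha, h1]; exact hqr.symm, hpq, hvp, hvq, fun i hi h2 h3 h4 h5 =>
        hvz i hi h2 h4 h5 (by rw [ha, h1] at h3; exact h3)⟩
  refine ⟨a, hsT _, b, hb, c, hc, t, htT, ?_, hso _, hbo, hco, hab, hac, hbc, ?_, hvs _, hvb, hvc, hz, ?_, ?_, ?_⟩
  · intro j k hjk
    by_contra hne
    rcases hpair j k hne with ⟨-, h1⟩ | ⟨h1, -⟩
    · exact h1 hjk
    · exact h1 ((hsa j).trans (hsa k).symm)
  · intro j
    refine ⟨hto j, ?_, ?_, ?_⟩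
    · rw [← hsa j]; exact (hst j).symm
    · intro h1
      have := hvt j
      rw [h1] at this
      rcases hvb with h2 | h2 <;> rw [h2] at this <;> omega
    · intro h1
      have := hvt j
      rw [h1] at this
      rcases hvc with h2 | h2 <;> rw [h2] at this <;> omega
  · intro j; rw [← hsa j]; exact hus j
  · intro j; rw [hut j, hsa j]
  · intro j i hi h1 h2 h3
    exact huz j i hi h1 (by rw [hsa j]; exact h2) h3

end Comb

end CfsgH4
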