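import Cfsg.Agent.H4.DihB
import Cfsg.Agent.H4.DihC
import Cfsg.Agent.H3.Dih

/-!
# The principal block of a group with dihedral Sylow 2-subgroups: characters
-/

set_option autoImplicit false

open Cfsg MonoidAlgebra
open CfsgH4 hiding centralChar sum_conj regInner_symm
open CfsgH5 ComplexConjugate

namespace CfsgH4

section Fourier

variable {m : ℕ} [NeZero m] {e : AddChar (ZMod m) ℂ}

theorem conj_addChar (x : ZMod m) : conj (e x) = e (-x) := by
  have h1 : e x ^ m = 1 := by
    rw [← AddChar.map_nsmul_eq_pow]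
    have : m • x = 0 := by rw [nsmul_eq_mul, ZMod.natCast_self, zero_mul]
    rw [this, AddChar.map_zero_eq_one]
  have h2 : ‖e x‖ = 1 := Complex.norm_eq_one_of_pow_eq_one h1 (NeZero.ne m)
  rw [AddChar.map_neg_eq_inv, Complex.inv_def, Complex.normSq_eq_norm_sq, h2]
  simp

variable (he : e.IsPrimitive)

include he

theorem sum_e (a : ZMod m) : ∑ x : ZMod m, e (a * x) = if a = 0 then (m : ℂ) else 0 := by
  have h1 := AddChar.sum_mulShift a he
  rw [ZMod.card] at h1
  simp only [mul_comm a]
  rw [h1]; split_ifs <;> simp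

end Fourier

section Mu

variable {G : Type*} [Group G] [Fintype G] {m : ℕ} [NeZero m] {e : AddChar (ZMod m) ℂ} {s : ZMod m → G}

/-- difference of multiplicities -/
noncomputable def mu (e : AddChar (ZMod m) ℂ) (s : ZMod m → G) (j : ZMod m) (χ : G → ℂ) : ℂ :=
  (m : ℂ)⁻¹ * ∑ x : ZMod m, χ (s x) * (1 - e (-(j * x)))

theorem mu_int (hs : ∀ x y, s (x + y) = s x * s y) (j : ZMod m) (χ : IrrCharacter G) :
    ∃ k : ℤ, mu e s j (χ : G → ℂ) = k := by
  let f : Multiplicative (ZMod m) →* G :=
    { toFun := fun x => s x.toAdd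
      map_one' := by
        have h1 := hs 0 0
        rw [add_zero] at h1
        exact (mul_eq_left.1 h1.symm)
      map_mul' := fun x y => hs _ _ }
  have h1 : IsCharacter (Multiplicative (ZMod m)) (fun x => (χ : G → ℂ) (f x)) := isCharacter_comp f (IsIrr.isCharacter χ.2)
  let g : Multiplicative (ZMod m) →* ℂˣ :=
    { toFun := fun x => ⟨e (j * x.toAdd), e (-(j * x.toAdd)), by
        rw [← AddChar.map_add_eq_mul, add_neg_cancel, AddChar.map_zero_eq_one], by
        rw [← AddChar.map_add_eq_mul, neg_add_cancel, AddChar.map_zero_eq_one]⟩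
      map_one' := by
        apply Units.ext
        change e (j * 0) = 1
        rw [mul_zero, AddChar.map_zero_eq_one]
      map_mul' := fun x y => by
        apply Units.ext
        change e (j * (x.toAdd + y.toAdd)) = e (j * x.toAdd) * e (j * y.toAdd)
        rw [mul_add, AddChar.map_add_eq_mul] }
  have h2 : IsIrrCharacter (Multiplicative (ZMod m)) (fun x => (g x : ℂ)) := isCharacter_one_dim g
  have h3 : IsIrrCharacter (Multiplicative (ZMod m)) (fun _ => (1 : ℂ)) := isIrrCharacter_one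
  obtain ⟨a, ha⟩ := IsCharacter.inner_irr_nat h1 h2
  obtain ⟨b, hb⟩ := IsCharacter.inner_irr_nat h1 h3
  refine ⟨b - a, ?_⟩
  push_cast
  rw [← ha, ← hb, classInner_def, classInner_def, ← mul_sub, ← Finset.sum_sub_distrib]
  have hc : Nat.card (Multiplicative (ZMod m)) = m := by
    rw [Nat.card_congr Multiplicative.toAdd, Nat.card_zmod]
  rw [hc]
  unfold mu
  congr 1
  refine Fintype.sum_equiv Multiplicative.ofAdd _ _ fun x => ?_
  change (χ : G → ℂ) (s x) * (1 - e (-(j * x))) = (χ : G → ℂ) (s x) * conj 1 - (χ : G → ℂ) (s x) * conj (e (j * x))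
  rw [conj_addChar, map_one]
  ring

theorem mu_neg (hs : ∀ x y, s (x + y) = s x * s y) (hsymm : ∀ x, IsConj (s x) (s (-x))) (j : ZMod m) (χ : IrrCharacter G) :
    mu e s (-j) (χ : G → ℂ) = mu e s j (χ : G → ℂ) := by
  unfold mu
  congr 1
  refine Fintype.sum_equiv (Equiv.neg (ZMod m)) _ _ fun x => ?_
  simp only [Equiv.neg_apply]
  rw [IsClassFunction.eq_of_isConj (IsIrr.isClassFunction χ.2) (hsymm x)]
  congr 3
  ring

/-- Fourier inversion away from the identity -/
theorem mu_inv (he : e.IsPrimitive) (χ : G → ℂ) {x : ZMod m} (hx : x ≠ 0) :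
    χ (s x) = - ∑ j : ZMod m, mu e s j χ * e (j * x) := by
  classical
  have hm : (m : ℂ) ≠ 0 := by exact_mod_cast NeZero.ne m
  have h1 : ∑ j : ZMod m, mu e s j χ * e (j * x) =
      (m : ℂ)⁻¹ * ∑ y : ZMod m, χ (s y) * ∑ j : ZMod m, (e (x * j) - e ((x - y) * j)) := by
    simp only [mu, Finset.mul_sum, Finset.sum_mul]
    rw [Finset.sum_comm]
    refine Finset.sum_congr rfl fun y _ => Finset.sum_congr rfl fun j _ => ?_
    have h2 : e ((x - y) * j) = e (-(j * y)) * e (j * x) := by
      rw [← AddChar.map_add_eq_mul]; congr 1; ring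
    rw [h2, mul_comm x j]; ring
  rw [h1]
  have h3 : ∀ y : ZMod m, χ (s y) * ∑ j : ZMod m, (e (x * j) - e ((x - y) * j)) = if y = x then - (m : ℂ) * χ (s x) else 0 := by
    intro y
    rw [Finset.sum_sub_distrib, sum_e he, sum_e he, if_neg hx]
    by_cases h4 : y = x
    · subst h4; simp; ring
    · rw [if_neg (sub_ne_zero.2 (Ne.symm h4)), if_neg h4]; simp
  rw [Finset.sum_congr rfl fun y _ => h3 y, Finset.sum_ite_eq' Finset.univ x]
  simp only [Finset.mem_univ, if_true]
  field_simp

open Classical in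
/-- abstract Gram matrix computation -/
theorem mu_gram (he : e.IsPrimitive) (B : Set (IrrCharacter G))
    (hcol : ∀ x : ZMod m, x ≠ 0 → ∀ y : ZMod m, ∑ χ : IrrCharacter G, (if χ ∈ B then (χ : G → ℂ) (s x) * conj ((χ : G → ℂ) (s y)) else 0) =
      (m : ℂ) * ((if y = x then 1 else 0) + (if y = -x then 1 else 0))) (j k : ZMod m) :
    ∑ χ : IrrCharacter G, (if χ ∈ B then mu e s j (χ : G → ℂ) * conj (mu e s k (χ : G → ℂ)) else 0) =
      2 - 2 * (if j = 0 then 1 else 0) - 2 * (if k = 0 then 1 else 0) + (if j = k then 1 else 0) + (if j = -k then 1 else 0) := by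
  have hm : (m : ℂ) ≠ 0 := by exact_mod_cast NeZero.ne m
  have h1 : ∑ χ : IrrCharacter G, (if χ ∈ B then mu e s j (χ : G → ℂ) * conj (mu e s k (χ : G → ℂ)) else 0) =
      (m : ℂ)⁻¹ * (m : ℂ)⁻¹ * ∑ x : ZMod m, (1 - e (-(j * x))) * ∑ y : ZMod m, (1 - e (k * y)) *
        ∑ χ : IrrCharacter G, (if χ ∈ B then (χ : G → ℂ) (s x) * conj ((χ : G → ℂ) (s y)) else 0) := by
    simp only [Finset.mul_sum]
    rw [Finset.sum_congr rfl fun x _ => Finset.sum_comm, Finset.sum_comm]
    refine Finset.sum_congr rfl fun χ _ => ?_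
    split_ifs with hχ
    · unfold mu
      simp only [map_mul, map_inv₀, Complex.conj_natCast, map_sum, map_sub, map_one, conj_addChar, neg_neg]
      rw [show ∀ a b c d : ℂ, a * b * (c * d) = a * c * (b * d) from fun a b c d => by ring, Finset.sum_mul_sum, Finset.mul_sum]
      refine Finset.sum_congr rfl fun x _ => ?_
      rw [Finset.mul_sum]
      refine Finset.sum_congr rfl fun y _ => ?_
      ring
    · simp
  have h2 : ∀ x : ZMod m, (1 - e (-(j * x))) * ∑ y : ZMod m, (1 - e (k * y)) *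
        ∑ χ : IrrCharacter G, (if χ ∈ B then (χ : G → ℂ) (s x) * conj ((χ : G → ℂ) (s y)) else 0) =
      (m : ℂ) * (2 - e (k * x) - e (-k * x) - 2 * e (-j * x) + e ((k - j) * x) + e ((-k - j) * x)) := by
    intro x
    have hexp : (1 - e (-(j * x))) * (2 - e (k * x) - e (-k * x)) =
        2 - e (k * x) - e (-k * x) - 2 * e (-j * x) + e ((k - j) * x) + e ((-k - j) * x) := by
      have e1 : e ((k - j) * x) = e (-(j * x)) * e (k * x) := by rw [← AddChar.map_add_eq_mul]; congr 1; ring
      have e2 : e ((-k - j) * x) = e (-(j * x)) * e (-k * x) := by rw [← AddChar.map_add_eq_mul]; congr 1; ring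
      have e3 : e (-j * x) = e (-(j * x)) := by congr 1; ring
      rw [e1, e2, e3]; ring
    rw [← hexp]
    by_cases hx : x = 0
    · subst hx; simp
    · have h3 : ∑ y : ZMod m, (1 - e (k * y)) *
          ∑ χ : IrrCharacter G, (if χ ∈ B then (χ : G → ℂ) (s x) * conj ((χ : G → ℂ) (s y)) else 0) =
          (m : ℂ) * (2 - e (k * x) - e (-k * x)) := by
        have h4 : ∀ y : ZMod m, (1 - e (k * y)) *
          ∑ χ : IrrCharacter G, (if χ ∈ B then (χ : G → ℂ) (s x) * conj ((χ : G → ℂ) (s y)) else 0) =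
          (if y = x then (m : ℂ) * (1 - e (k * y)) else 0) + (if y = -x then (m : ℂ) * (1 - e (k * y)) else 0) := by
          intro y
          rw [hcol x hx y]
          split_ifs <;> ring
        rw [Finset.sum_congr rfl fun y _ => h4 y, Finset.sum_add_distrib, Finset.sum_ite_eq', Finset.sum_ite_eq']
        simp only [Finset.mem_univ, if_true]
        have e4 : e (k * -x) = e (-k * x) := by congr 1; ring
        rw [e4]; ring
      rw [h3]; ring
  rw [h1, Finset.sum_congr rfl fun x _ => h2 x, ← Finset.mul_sum]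
  have h5 : ∑ x : ZMod m, (2 - e (k * x) - e (-k * x) - 2 * e (-j * x) + e ((k - j) * x) + e ((-k - j) * x)) =
      (m : ℂ) * (2 - 2 * (if j = 0 then 1 else 0) - 2 * (if k = 0 then 1 else 0) + (if j = k then 1 else 0) + (if j = -k then 1 else 0)) := by
    rw [Finset.sum_add_distrib, Finset.sum_add_distrib, Finset.sum_sub_distrib, Finset.sum_sub_distrib,
      Finset.sum_sub_distrib, ← Finset.mul_sum, sum_e he, sum_e he, sum_e he, sum_e he, sum_e he]
    simp only [Finset.sum_const, Finset.card_univ, ZMod.card, nsmul_eq_mul, neg_eq_zero, sub_eq_zero]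
    have c1 : (k = j) ↔ (j = k) := eq_comm
    have c2 : (-k = j) ↔ (j = -k) := eq_comm
    simp only [c1, c2]
    split_ifs <;> ring
  rw [h5]
  field_simp

open Classical in
/-- orthogonality to elements outside the sections -/
theorem mu_orth (B : Set (IrrCharacter G)) {g : G}
    (hcol : ∀ x : ZMod m, x ≠ 0 → ∑ χ : IrrCharacter G, (if χ ∈ B then (χ : G → ℂ) (s x) * conj ((χ : G → ℂ) g) else 0) = 0)
    (j : ZMod m) :
    ∑ χ : IrrCharacter G, (if χ ∈ B then mu e s j (χ : G → ℂ) * conj ((χ : G → ℂ) g) else 0) = 0 := by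
  have h1 : ∑ χ : IrrCharacter G, (if χ ∈ B then mu e s j (χ : G → ℂ) * conj ((χ : G → ℂ) g) else 0) =
      (m : ℂ)⁻¹ * ∑ x : ZMod m, (1 - e (-(j * x))) *
        ∑ χ : IrrCharacter G, (if χ ∈ B then (χ : G → ℂ) (s x) * conj ((χ : G → ℂ) g) else 0) := by
    simp only [Finset.mul_sum]
    rw [Finset.sum_comm]
    refine Finset.sum_congr rfl fun χ _ => ?_
    split_ifs with hχ
    · unfold mu
      rw [mul_assoc, Finset.sum_mul, Finset.mul_sum]
      refine Finset.sum_congr rfl fun x _ => ?_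
      ring
    · simp
  rw [h1, Finset.sum_eq_zero, mul_zero]
  intro x _
  by_cases hx : x = 0
  · subst hx; simp
  · rw [hcol x hx, mul_zero]

end Mu

end CfsgH4
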