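import Cfsg.Agent.H4.DihD

/-!
# The principal block of a group with dihedral Sylow 2-subgroups
-/

set_option autoImplicit false

open Cfsg MonoidAlgebra
open CfsgH4 hiding centralChar sum_conj regInner_symm
open CfsgH5 ComplexConjugate

namespace CfsgH4

section Idx

/-- indices of the exceptional characters -/
def jj (n : ℕ) (i : Fin (2 ^ (n - 2) - 1)) : ZMod (2 ^ (n - 1)) := ((i : ℕ) + 1 : ℕ)

def hh (n : ℕ) : ZMod (2 ^ (n - 1)) := ((2 ^ (n - 2) : ℕ))

variable {n : ℕ} (hn : 3 ≤ n)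

include hn

theorem pow_half : 2 ^ (n - 1) = 2 * 2 ^ (n - 2) := by
  rw [← pow_succ']; congr 1; omega

theorem cast_zero {a : ℕ} (ha : 0 < a) (ha2 : a < 2 ^ (n - 1)) : ((a : ℕ) : ZMod (2 ^ (n - 1))) ≠ 0 := by
  intro h
  rw [ZMod.natCast_eq_zero_iff] at h
  exact absurd (Nat.le_of_dvd ha h) (not_le.2 ha2)

theorem jj_ne_zero (i : Fin (2 ^ (n - 2) - 1)) : jj n i ≠ 0 := by
  have h1 := pow_half hn
  exact cast_zero hn (by omega) (by omega)

theorem hh_ne_zero : hh n ≠ 0 := by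
  have h1 := pow_half hn
  have h2 : 0 < 2 ^ (n - 2) := by positivity
  exact cast_zero hn h2 (by omega)

theorem hh_neg : -hh n = hh n := by
  have h1 := pow_half hn
  rw [neg_eq_iff_add_eq_zero]
  unfold hh
  rw [← Nat.cast_add, ← two_mul, ← h1, ZMod.natCast_self]

theorem jj_add_ne (i k : Fin (2 ^ (n - 2) - 1)) : jj n i ≠ - jj n k := by
  intro h
  rw [eq_neg_iff_add_eq_zero] at h
  unfold jj at h
  rw [← Nat.cast_add] at h
  have h1 := pow_half hn
  exact cast_zero hn (by omega) (by omega) h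

theorem jj_inj {i k : Fin (2 ^ (n - 2) - 1)} (h : jj n i = jj n k) : i = k := by
  unfold jj at h
  have h1 := pow_half hn
  have h2 := (ZMod.natCast_eq_natCast_iff' _ _ _).1 h
  rw [Nat.mod_eq_of_lt (by omega), Nat.mod_eq_of_lt (by omega)] at h2
  exact Fin.ext (by omega)

theorem jj_ne_hh (i : Fin (2 ^ (n - 2) - 1)) : jj n i ≠ hh n := by
  intro h
  unfold jj hh at h
  have h1 := pow_half hn
  have h2 := (ZMod.natCast_eq_natCast_iff' _ _ _).1 h
  rw [Nat.mod_eq_of_lt (by omega), Nat.mod_eq_of_lt (by omega)] at h2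
  omega

theorem idx_cases {j : ZMod (2 ^ (n - 1))} (hj : j ≠ 0) : j = hh n ∨ (∃ i, j = jj n i) ∨ ∃ i, j = - jj n i := by
  have h1 := pow_half hn
  have h3 : 0 < 2 ^ (n - 2) := by positivity
  haveI : NeZero (2 ^ (n - 1)) := ⟨by positivity⟩
  have h2 := ZMod.val_lt j
  have h4 : (j.val : ZMod (2 ^ (n - 1))) = j := ZMod.natCast_zmod_val j
  have h5 : j.val ≠ 0 := by rw [ne_eq, ZMod.val_eq_zero]; exact hj
  rcases lt_trichotomy j.val (2 ^ (n - 2)) with h6 | h6 | h6
  · right; left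
    refine ⟨⟨j.val - 1, by omega⟩, ?_⟩
    unfold jj
    refine h4.symm.trans (congrArg _ ?_)
    change j.val = j.val - 1 + 1
    omega
  · left
    unfold hh
    rw [← h6, h4]
  · right; right
    refine ⟨⟨2 ^ (n - 1) - j.val - 1, by omega⟩, ?_⟩
    unfold jj
    rw [eq_neg_iff_add_eq_zero]
    nth_rewrite 1 [← h4]
    rw [← Nat.cast_add, ZMod.natCast_eq_zero_iff]
    have : j.val + (2 ^ (n - 1) - j.val - 1 + 1) = 2 ^ (n - 1) := by omega
    rw [show ((⟨2 ^ (n - 1) - j.val - 1, by omega⟩ : Fin (2 ^ (n - 2) - 1)) : ℕ) = 2 ^ (n - 1) - j.val - 1 from rfl, this]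

end Idx

section Main

variable {G : Type*} [Group G] [Fintype G] {M : Ideal AlgInt} {P : Sylow 2 G} {σ : G} {n : ℕ}

/-- rotations indexed by `ZMod` -/
noncomputable def rot (h : DihIn (P : Subgroup G) σ n) : ZMod (2 ^ (n - 1)) → G :=
  CfsgH3.zmodPow (2 ^ (n - 1)) σ (by rw [← h.ord]; exact pow_orderOf_eq_one σ)

variable (h : DihIn (P : Subgroup G) σ n)

theorem rot_add (x y : ZMod (2 ^ (n - 1))) : rot h (x + y) = rot h x * rot h y := CfsgH3.zmodPow_add _ _ _ _ _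

theorem rot_neg (x : ZMod (2 ^ (n - 1))) : rot h (-x) = (rot h x)⁻¹ := CfsgH3.zmodPow_neg _ _ _ _

theorem rot_mem (x : ZMod (2 ^ (n - 1))) : rot h x ∈ Subgroup.zpowers σ := CfsgH3.zmodPow_mem _ _ _ _

theorem rot_nat (k : ℕ) : rot h (k : ZMod (2 ^ (n - 1))) = σ ^ k := CfsgH3.zmodPow_natCast _ _ _ _

theorem rot_inj : Function.Injective (rot h) := CfsgH3.zmodPow_injective _ _ h.ord

theorem rot_zero : rot h 0 = 1 := CfsgH3.zmodPow_zero _ _ _

theorem rot_ne {x : ZMod (2 ^ (n - 1))} (hx : x ≠ 0) : rot h x ≠ 1 := fun h1 =>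
  hx (rot_inj h (h1.trans (rot_zero h).symm))

theorem rot_surj {g : G} (hg : g ∈ Subgroup.zpowers σ) : ∃ x, rot h x = g := by
  obtain ⟨k, rfl⟩ := Subgroup.mem_zpowers_iff.1 hg
  exact ⟨(k : ZMod (2 ^ (n - 1))), CfsgH3.zmodPow_intCast _ _ _ _⟩

theorem rot_conj (x : ZMod (2 ^ (n - 1))) : IsConj (rot h x) (rot h (-x)) := by
  obtain ⟨τ, hτ, hτ2⟩ := h.exists_refl
  rw [rot_neg]
  exact isConj_iff.2 ⟨τ, h.refl_rot hτ hτ2 (rot_mem h x)⟩

omit [Fintype G] in
theorem two_elt {x : G} (hx : x ∈ (P : Subgroup G)) : ∃ k, orderOf x = 2 ^ k := by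
  have h1 := IsPGroup.iff_orderOf.1 P.2 ⟨x, hx⟩
  obtain ⟨k, hk⟩ := h1
  exact ⟨k, by rwa [Subgroup.orderOf_mk] at hk⟩

theorem insec_self {z g : G} (hg : ∃ k, orderOf g = 2 ^ k) : InSec 2 z g ↔ IsConj z g := by
  haveI : Fact (Nat.Prime 2) := ⟨Nat.prime_two⟩
  constructor
  · rintro ⟨w, hw, hzw⟩
    have h1 := ppart_unique hw (isPPart_self hg (by norm_num))
    rwa [h1] at hzw
  · intro h1
    exact ⟨g, isPPart_self hg (by norm_num), h1⟩

theorem rot_insec {x y : ZMod (2 ^ (n - 1))} (hx : x ≠ 0) : InSec 2 (rot h x) (rot h y) ↔ (y = x ∨ y = -x) := by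
  rw [insec_self (two_elt (h.rot_le (rot_mem h y)))]
  constructor
  · intro h1
    rcases h.rot_fusion (rot_mem h x) (rot_ne h hx) (rot_mem h y) h1 with h2 | h2
    · exact Or.inl (rot_inj h h2)
    · rw [← rot_neg] at h2
      exact Or.inr (rot_inj h h2)
  · rintro (rfl | rfl)
    · exact IsConj.refl _
    · exact rot_conj h x

open Classical in
theorem rot_col (hM : IsPModular 2 M) {x : ZMod (2 ^ (n - 1))} (hx : x ≠ 0) (y : ZMod (2 ^ (n - 1))) :
    ∑ χ : IrrCharacter G, (if χ ∈ principalBlock M G then (χ : G → ℂ) (rot h x) * conj ((χ : G → ℂ) (rot h y)) else 0) =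
      ((2 ^ (n - 1) : ℕ) : ℂ) * ((if y = x then 1 else 0) + (if y = -x then 1 else 0)) := by
  haveI : Fact (Nat.Prime 2) := ⟨Nat.prime_two⟩
  have hn := h.hn
  rw [sec_ind hM (two_elt (h.rot_le (rot_mem h x))) (h.npc_rot (rot_mem h x) (rot_ne h hx))]
  by_cases hxy : y = x ∨ y = -x
  · rw [if_pos ((rot_insec h hx).2 hxy)]
    by_cases hxx : x = -x
    · -- the central involution
      have h1 : rot h x * rot h x = 1 := by
        rw [← rot_add, ← rot_zero h]; congr 1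
        nth_rewrite 1 [hxx]; ring
      have h2 := (h.rot_sq (rot_mem h x) h1).resolve_left (rot_ne h hx)
      rw [h2, h.fac_J]
      have h3 : y = x := by
        rcases hxy with h3 | h3
        · exact h3
        · rw [h3, ← hxx]
      have h4 : y = -x := by rw [← hxx, h3]
      rw [if_pos h3, if_pos h4]
      have h5 : 2 ^ n = 2 ^ (n - 1) * 2 := by rw [← pow_succ]; congr 1; omega
      rw [h5]; push_cast; ring
    · have h1 : rot h x ≠ DihIn.J σ n := by
        intro h2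
        apply hxx
        apply rot_inj h
        rw [rot_neg, h2, h.J_inv]
      rw [h.fac_rot (rot_mem h x) (rot_ne h hx) h1]
      rcases hxy with h3 | h3
      · rw [if_pos h3, if_neg (by rw [h3]; exact hxx)]; ring
      · rw [if_pos h3, if_neg (by rw [h3]; exact fun h4 => hxx h4.symm)]; ring
  · rw [if_neg (fun h1 => hxy ((rot_insec h hx).1 h1))]
    push Not at hxy
    rw [if_neg hxy.1, if_neg hxy.2]; ring

open Classical in
theorem rot_col_reg (hM : IsPModular 2 M) {x : ZMod (2 ^ (n - 1))} (hx : x ≠ 0) {g : G} (hg : ¬ 2 ∣ orderOf g) :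
    ∑ χ : IrrCharacter G, (if χ ∈ principalBlock M G then (χ : G → ℂ) (rot h x) * conj ((χ : G → ℂ) g) else 0) = 0 := by
  haveI : Fact (Nat.Prime 2) := ⟨Nat.prime_two⟩
  rw [sec_ind hM (two_elt (h.rot_le (rot_mem h x))) (h.npc_rot (rot_mem h x) (rot_ne h hx)), if_neg]
  rintro ⟨w, hw, hzw⟩
  have h1 := ppart_unique hw (ppart_of_regular hg)
  rw [h1] at hzw
  exact rot_ne h hx (isConj_one_left.1 hzw)

end Main

end CfsgH4
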