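import Cfsg.Agent.H4.DihE

/-!
# The principal block of a group with dihedral Sylow 2-subgroups: main theorem
-/

set_option autoImplicit false

open Cfsg MonoidAlgebra
open CfsgH4 hiding centralChar sum_conj regInner_symm
open CfsgH5 ComplexConjugate

namespace CfsgH4

section MainF

variable {G : Type*} [Group G] [Fintype G] {M : Ideal AlgInt} {P : Sylow 2 G} {σ : G} {n : ℕ}

/-- the members of `B₀` vanishing on the nontrivial rotations -/
theorem no_extra (hM : IsPModular 2 M) (h : DihIn (P : Subgroup G) σ n) {a b c χ : IrrCharacter G}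
    (ha : a ∈ principalBlock M G) (hb : b ∈ principalBlock M G) (hc : c ∈ principalBlock M G) (hχ : χ ∈ principalBlock M G)
    (hao : a ≠ irrOne G) (hbo : b ≠ irrOne G) (hco : c ≠ irrOne G) (hab : a ≠ b) (hac : a ≠ c) (hbc : b ≠ c)
    (hχo : χ ≠ irrOne G) (hχa : χ ≠ a) (hχb : χ ≠ b) (hχc : χ ≠ c)
    (haJ : (a : G → ℂ) (DihIn.J σ n) = 1 ∨ (a : G → ℂ) (DihIn.J σ n) = -1)
    (hbJ : (b : G → ℂ) (DihIn.J σ n) = 1 ∨ (b : G → ℂ) (DihIn.J σ n) = -1)
    (hcJ : (c : G → ℂ) (DihIn.J σ n) = 1 ∨ (c : G → ℂ) (DihIn.J σ n) = -1)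
    (hv : ∀ x ∈ Subgroup.zpowers σ, x ≠ 1 → (χ : G → ℂ) x = 0) : False := by
  classical
  haveI : Fact (Nat.Prime 2) := ⟨Nat.prime_two⟩
  haveI : M.IsPrime := hM.2.1.isPrime
  obtain ⟨g, hg, hg0⟩ := principal_exists_singular hM hχ hχo
  obtain ⟨w, hw⟩ := exists_ppart (p := 2) g
  obtain ⟨y, hy, hcomm, ⟨k, hk⟩, hyo⟩ := hw
  have hw' : IsPPart 2 g w := ⟨y, hy, hcomm, ⟨k, hk⟩, hyo⟩
  have hw1 : w ≠ 1 := by
    rintro rfl
    exact regular_of_ppart_one hw' hg
  obtain ⟨d, hd⟩ := CfsgH3.exists_conj_mem_sylow2 P (t := w) (k := k) (hk ▸ pow_orderOf_eq_one w)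
  set w' := d * w * d⁻¹ with hwd
  have hww' : IsConj w' w := (isConj_iff.2 ⟨d, rfl⟩ : IsConj w w').symm
  have hw'1 : w' ≠ 1 := by
    intro h1
    rw [h1] at hww'
    exact hw1 (isConj_one_right.1 hww')
  have hsec : InSec 2 w' g := ⟨w, hw', hww'⟩
  have hw'P : w' ∈ (P : Subgroup G) := hd
  by_cases hrot : w' ∈ Subgroup.zpowers σ
  · rw [sec_value hM (two_elt hw'P) (h.npc_rot hrot hw'1) hsec hχ] at hg0
    exact hg0 (hv w' hrot hw'1)
  · by_cases hcJ' : IsConj w' (DihIn.J σ n)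
    · have hsecJ : InSec 2 (DihIn.J σ n) g := ⟨w, hw', hcJ'.symm.trans hww'⟩
      rw [sec_value hM (two_elt h.J_mem) h.npcJ hsecJ hχ] at hg0
      exact hg0 (hv _ h.J_rot h.J_ne)
    · obtain ⟨hnpc, hfac⟩ := h.refl_cent hw'P hrot hcJ'
      rw [sec_value hM (two_elt hw'P) hnpc hsec hχ] at hg0
      have hww : w' * w' = 1 := ((h.refl_iff hw'P).1 hrot).1
      -- integer values
      have hval : ∀ ζ : IrrCharacter G, ∃ k : ℤ, (ζ : G → ℂ) w' = k ∧
          ((ζ : G → ℂ) (DihIn.J σ n) = 1 ∨ (ζ : G → ℂ) (DihIn.J σ n) = -1 → k ≠ 0) := by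
        intro ζ
        obtain ⟨k, m, hk, hm, hkm, -⟩ := CfsgH5.invol_val (IsIrr.isCharacter ζ.2) (by rw [pow_two, hww] : w' ^ 2 = 1)
        obtain ⟨k', m', hk', hm', hkm', -⟩ := CfsgH5.invol_val (IsIrr.isCharacter ζ.2)
          (by rw [pow_two, h.JJ] : (DihIn.J σ n) ^ 2 = 1)
        have e1 : m = m' := by
          have : (m : ℂ) = (m' : ℂ) := by rw [← hm, hm']
          exact_mod_cast this
        refine ⟨k, hk, fun hJ => ?_⟩
        rw [hk'] at hJ
        have e2 : k' = 1 ∨ k' = -1 := by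
          rcases hJ with hJ | hJ
          · left; exact_mod_cast hJ
          · right
            have : (k' : ℂ) = ((-1 : ℤ) : ℂ) := by rw [hJ]; push_cast; rfl
            exact_mod_cast this
        rintro rfl
        subst e1
        rcases e2 with e2 | e2 <;> rw [e2] at hkm' <;> omega
      choose N hN hN0 using hval
      have h1 := sec_ind hM (two_elt hw'P) hnpc w'
      rw [if_pos ((insec_self (two_elt hw'P)).2 (IsConj.refl _)), hfac] at h1
      have h2 : ∑ ζ : IrrCharacter G, (if ζ ∈ principalBlock M G then N ζ ^ 2 else 0) = 4 := by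
        have h3 : ((∑ ζ : IrrCharacter G, (if ζ ∈ principalBlock M G then N ζ ^ 2 else 0) : ℤ) : ℂ) = ((4 : ℤ) : ℂ) := by
          push_cast
          have h4 : ((2 ^ 2 : ℕ) : ℂ) = 4 := by norm_num
          rw [h4] at h1
          rw [← h1]
          refine Finset.sum_congr rfl fun ζ _ => ?_
          split_ifs
          · rw [hN, map_intCast]; ring
          · rfl
        exact_mod_cast h3
      rw [← Finset.sum_filter] at h2
      have hsub : ({irrOne G, a, b, c, χ} : Finset (IrrCharacter G)) ⊆ Finset.univ.filter (fun ζ => ζ ∈ principalBlock M G) := by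
        intro ζ hζ
        simp only [Finset.mem_insert, Finset.mem_singleton] at hζ
        simp only [Finset.mem_filter, Finset.mem_univ, true_and]
        rcases hζ with rfl | rfl | rfl | rfl | rfl
        · exact irrOne_mem
        · exact ha
        · exact hb
        · exact hc
        · exact hχ
      have h3 := Finset.sum_le_sum_of_subset_of_nonneg hsub (f := fun ζ => N ζ ^ 2) (fun _ _ _ => by positivity)
      rw [h2, Finset.sum_insert (by simp [hao.symm, hbo.symm, hco.symm, hχo.symm]), Finset.sum_insert (by simp [hab, hac, hχa.symm]),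
        Finset.sum_insert (by simp [hbc, hχb.symm]), Finset.sum_insert (by simp [hχc.symm]), Finset.sum_singleton] at h3
      have n1 : N (irrOne G) ≠ 0 := hN0 _ (Or.inl rfl)
      have n2 : N a ≠ 0 := hN0 _ haJ
      have n3 : N b ≠ 0 := hN0 _ hbJ
      have n4 : N c ≠ 0 := hN0 _ hcJ
      have n5 : N χ ≠ 0 := by
        intro h5
        rw [hN, h5] at hg0
        exact hg0 (by norm_num)
      have p1 : 0 < N (irrOne G) ^ 2 := by positivity
      have p2 : 0 < N a ^ 2 := by positivity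
      have p3 : 0 < N b ^ 2 := by positivity
      have p4 : 0 < N c ^ 2 := by positivity
      have p5 : 0 < N χ ^ 2 := by positivity
      linarith

theorem mu_zero {m : ℕ} [NeZero m] {e : AddChar (ZMod m) ℂ} {s : ZMod m → G} (χ : G → ℂ) : mu e s 0 χ = 0 := by
  unfold mu
  simp

theorem mu_one {m : ℕ} [NeZero m] {e : AddChar (ZMod m) ℂ} {s : ZMod m → G} (he : e.IsPrimitive) {j : ZMod m} (hj : j ≠ 0) :
    mu e s j ((irrOne G : IrrCharacter G) : G → ℂ) = 1 := by
  classical
  unfold mu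
  have hm : (m : ℂ) ≠ 0 := by exact_mod_cast NeZero.ne m
  have h1 : ∀ x : ZMod m, ((irrOne G : IrrCharacter G) : G → ℂ) (s x) * (1 - e (-(j * x))) = 1 - e (-j * x) := by
    intro x
    have : ((irrOne G : IrrCharacter G) : G → ℂ) (s x) = 1 := rfl
    rw [this, one_mul, neg_mul]
  rw [Finset.sum_congr rfl fun x _ => h1 x, Finset.sum_sub_distrib, sum_e he, if_neg (neg_ne_zero.2 hj)]
  simp only [Finset.sum_const, Finset.card_univ, ZMod.card, nsmul_eq_mul, mul_one, sub_zero]
  exact inv_mul_cancel₀ hm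

theorem dih_main (hM : IsPModular 2 M) (h : DihIn (P : Subgroup G) σ n) [NeZero (2 ^ (n - 1))]
    {e : AddChar (ZMod (2 ^ (n - 1))) ℂ} (he : e.IsPrimitive) :
    ∃ (a b c : IrrCharacter G) (f : Fin (2 ^ (n - 2) - 1) → IrrCharacter G) (v : IrrCharacter G → ℤ),
      a ∈ principalBlock M G ∧ b ∈ principalBlock M G ∧ c ∈ principalBlock M G ∧ (∀ i, f i ∈ principalBlock M G) ∧
      Function.Injective f ∧ a ≠ irrOne G ∧ b ≠ irrOne G ∧ c ≠ irrOne G ∧ a ≠ b ∧ a ≠ c ∧ b ≠ c ∧
      (∀ i, f i ≠ irrOne G ∧ f i ≠ a ∧ f i ≠ b ∧ f i ≠ c) ∧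
      (v a = 1 ∨ v a = -1) ∧ (v b = 1 ∨ v b = -1) ∧ (v c = 1 ∨ v c = -1) ∧
      (∀ x : ZMod (2 ^ (n - 1)), x ≠ 0 → (a : G → ℂ) (rot h x) = v a ∧ (b : G → ℂ) (rot h x) = - (v b * e (hh n * x)) ∧
        (c : G → ℂ) (rot h x) = - (v c * e (hh n * x)) ∧
        ∀ i, (f i : G → ℂ) (rot h x) = v a * (e (jj n i * x) + e (-(jj n i * x)))) ∧
      (∀ g : G, ¬ 2 ∣ orderOf g → 1 + v a * (a : G → ℂ) g + v b * (b : G → ℂ) g + v c * (c : G → ℂ) g = 0 ∧
        ∀ i, 1 + v a * (a : G → ℂ) g - v a * (f i : G → ℂ) g = 0) ∧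
      ∀ χ ∈ principalBlock M G, χ = irrOne G ∨ χ = a ∨ χ = b ∨ χ = c ∨ ∃ i, χ = f i := by
  classical
  haveI : Fact (Nat.Prime 2) := ⟨Nat.prime_two⟩
  haveI : M.IsPrime := hM.2.1.isPrime
  have hn := h.hn
  have hph := pow_half hn
  have hsadd := rot_add h
  -- integer functions
  have hU : ∀ (j : ZMod (2 ^ (n - 1))) (χ : IrrCharacter G), ∃ k : ℤ, mu e (rot h) j (χ : G → ℂ) = k := fun j χ => mu_int hsadd j χ
  choose U hU using hU
  set T : Finset (IrrCharacter G) := Finset.univ.filter (fun ζ => ζ ∈ principalBlock M G) with hT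
  have hmemT : ∀ ζ, ζ ∈ T ↔ ζ ∈ principalBlock M G := by intro ζ; simp [hT]
  have hsumT : ∀ F : IrrCharacter G → ℂ, ∑ ζ : IrrCharacter G, (if ζ ∈ principalBlock M G then F ζ else 0) = ∑ ζ ∈ T, F ζ :=
    fun F => (Finset.sum_filter _ _).symm
  have hgram : ∀ j k : ZMod (2 ^ (n - 1)), ((∑ ζ ∈ T, U j ζ * U k ζ : ℤ) : ℂ) =
      2 - 2 * (if j = 0 then 1 else 0) - 2 * (if k = 0 then 1 else 0) + (if j = k then 1 else 0) + (if j = -k then 1 else 0) := by
    intro j k
    rw [← mu_gram he (principalBlock M G) (fun x hx y => rot_col h hM hx y) j k, hsumT]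
    push_cast
    refine Finset.sum_congr rfl fun ζ _ => ?_
    rw [hU, hU, map_intCast]
  have hreg : ∀ g : G, ¬ 2 ∣ orderOf g → ∀ j, ∑ ζ ∈ T, (U j ζ : ℂ) * (ζ : G → ℂ) g = 0 := by
    intro g hg j
    have h1 := mu_orth (e := e) (principalBlock M G) (fun x hx => rot_col_reg h hM hx hg) j
    rw [hsumT] at h1
    have h2 := congrArg conj h1
    rw [map_sum, map_zero] at h2
    rw [← h2]
    refine Finset.sum_congr rfl fun ζ _ => ?_
    rw [map_mul, hU, map_intCast, Complex.conj_conj]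
  have hdeg : ∀ j, ∑ ζ ∈ T, U j ζ * (charDegree (ζ : G → ℂ) : ℤ) = 0 := by
    intro j
    have h1 := hreg 1 (by rw [orderOf_one]; norm_num) j
    have h2 : ((∑ ζ ∈ T, U j ζ * (charDegree (ζ : G → ℂ) : ℤ) : ℤ) : ℂ) = ((0 : ℤ) : ℂ) := by
      push_cast
      rw [← h1]
      refine Finset.sum_congr rfl fun ζ _ => ?_
      rw [deg_eq]
    exact_mod_cast h2
  have hone : ∀ j, j ≠ 0 → U j (irrOne G) = 1 := by
    intro j hj
    have h1 := mu_one (s := rot h) he hj
    rw [hU] at h1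
    exact_mod_cast h1
  have hUzero : ∀ χ, U 0 χ = 0 := by
    intro χ
    have h1 := mu_zero (e := e) (s := rot h) (χ : G → ℂ)
    rw [hU] at h1
    exact_mod_cast h1
  have hUneg : ∀ j χ, U (-j) χ = U j χ := by
    intro j χ
    have h1 := mu_neg (e := e) hsadd (rot_conj h) j χ
    rw [hU, hU] at h1
    exact_mod_cast h1
  have hinv : ∀ (χ : IrrCharacter G) {x : ZMod (2 ^ (n - 1))}, x ≠ 0 → (χ : G → ℂ) (rot h x) = - ∑ j, (U j χ : ℂ) * e (j * x) := by
    intro χ x hx
    rw [mu_inv he (χ : G → ℂ) hx]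
    congr 1
    refine Finset.sum_congr rfl fun j _ => ?_
    rw [hU]
  -- the combinatorial lemma
  have hN : 2 ^ (n - 2) - 1 = 1 ∨ 3 ≤ 2 ^ (n - 2) - 1 := by
    rcases Nat.eq_or_lt_of_le hn with h1 | h1
    · left; rw [← h1]; norm_num
    · right
      have h2 : 2 ^ 2 ≤ 2 ^ (n - 2) := Nat.pow_le_pow_right (by norm_num) (by omega)
      omega
  have hN1 : 0 < 2 ^ (n - 2) - 1 := by omega
  obtain ⟨a, ha, b, hb, c, hc, f, hf, hfinj, hao, hbo, hco, hab, hac, hbc, hfne, hva, hvb, hvc, hvz, hua, huf, huz⟩ :=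
    dih_comb (T := T) (o := irrOne G) ((hmemT _).2 irrOne_mem) hN hN1 (U (hh n)) (fun i => U (jj n i))
      (fun χ => (charDegree (χ : G → ℂ) : ℤ)) (fun i _ => by exact_mod_cast deg_pos i) (by
        have h1 := deg_eq (irrOne G)
        have h2 : ((irrOne G : IrrCharacter G) : G → ℂ) 1 = 1 := rfl
        rw [h2] at h1
        have h3 : charDegree ((irrOne G : IrrCharacter G) : G → ℂ) = 1 := by exact_mod_cast h1.symm
        rw [h3]; rfl)
      (hone _ (hh_ne_zero hn)) (fun i => hone _ (jj_ne_zero hn i))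
      (by
        have h1 := hgram (hh n) (hh n)
        rw [if_neg (hh_ne_zero hn), if_pos rfl, if_pos (hh_neg hn).symm] at h1
        have h2 : (∑ ζ ∈ T, U (hh n) ζ * U (hh n) ζ : ℤ) = 4 := by
          have h3 : ((∑ ζ ∈ T, U (hh n) ζ * U (hh n) ζ : ℤ) : ℂ) = ((4 : ℤ) : ℂ) := by rw [h1]; norm_num
          exact_mod_cast h3
        rw [← h2]
        exact Finset.sum_congr rfl fun ζ _ => pow_two _)
      (by
        intro i
        have h1 := hgram (jj n i) (jj n i)
        rw [if_neg (jj_ne_zero hn i), if_pos rfl, if_neg (jj_add_ne hn i i)] at h1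
        have h2 : (∑ ζ ∈ T, U (jj n i) ζ * U (jj n i) ζ : ℤ) = 3 := by
          have h3 : ((∑ ζ ∈ T, U (jj n i) ζ * U (jj n i) ζ : ℤ) : ℂ) = ((3 : ℤ) : ℂ) := by rw [h1]; norm_num
          exact_mod_cast h3
        rw [← h2]
        exact Finset.sum_congr rfl fun ζ _ => pow_two _)
      (by
        intro i
        have h1 := hgram (jj n i) (hh n)
        rw [if_neg (jj_ne_zero hn i), if_neg (hh_ne_zero hn), if_neg (jj_ne_hh hn i), hh_neg hn, if_neg (jj_ne_hh hn i)] at h1
        have h3 : ((∑ ζ ∈ T, U (jj n i) ζ * U (hh n) ζ : ℤ) : ℂ) = ((2 : ℤ) : ℂ) := by rw [h1]; norm_num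
        exact_mod_cast h3)
      (by
        intro i k hik
        have h1 := hgram (jj n i) (jj n k)
        rw [if_neg (jj_ne_zero hn i), if_neg (jj_ne_zero hn k), if_neg (fun h2 => hik (jj_inj hn h2)), if_neg (jj_add_ne hn i k)] at h1
        have h3 : ((∑ ζ ∈ T, U (jj n i) ζ * U (jj n k) ζ : ℤ) : ℂ) = ((2 : ℤ) : ℂ) := by rw [h1]; norm_num
        exact_mod_cast h3)
      (hdeg _) (fun i => hdeg _)
  -- U on each of the characters
  have hUa : ∀ j, j ≠ 0 → U j a = U (hh n) a := by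
    intro j hj
    rcases idx_cases hn hj with rfl | ⟨i, rfl⟩ | ⟨i, rfl⟩
    · rfl
    · exact hua i
    · rw [hUneg]; exact hua i
  have hUbc : ∀ x : IrrCharacter G, x ∈ T → x ≠ irrOne G → x ≠ a → (∀ i, x ≠ f i) → ∀ j, j ≠ hh n → U j x = 0 := by
    intro x hx hxo hxa hxf j hj
    by_cases hj0 : j = 0
    · rw [hj0]; exact hUzero x
    rcases idx_cases hn hj0 with rfl | ⟨i, rfl⟩ | ⟨i, rfl⟩
    · exact absurd rfl hj
    · exact huz i x hx hxo hxa (hxf i)
    · rw [hUneg]; exact huz i x hx hxo hxa (hxf i)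
  have hUb := hUbc b hb hbo hab.symm (fun i => (hfne i).2.2.1.symm)
  have hUc := hUbc c hc hco hac.symm (fun i => (hfne i).2.2.2.symm)
  have hUf : ∀ i j, U j (f i) = if j = jj n i ∨ j = - jj n i then - U (hh n) a else 0 := by
    intro i j
    by_cases hj0 : j = 0
    · rw [hj0, hUzero, if_neg]
      rintro (h1 | h1)
      · exact jj_ne_zero hn i h1.symm
      · exact jj_ne_zero hn i (neg_eq_zero.1 h1.symm)
    have hk : ∀ k, U (jj n k) (f i) = if jj n k = jj n i ∨ jj n k = - jj n i then - U (hh n) a else 0 := by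
      intro k
      by_cases hki : k = i
      · rw [hki, if_pos (Or.inl rfl)]; exact huf i
      · rw [if_neg]
        · exact huz k (f i) (hf i) (hfne i).1 (hfne i).2.1 (fun h1 => hki (hfinj h1).symm)
        · rintro (h1 | h1)
          · exact hki (jj_inj hn h1)
          · exact jj_add_ne hn k i h1
    rcases idx_cases hn hj0 with rfl | ⟨k, rfl⟩ | ⟨k, rfl⟩
    · rw [if_neg]
      · exact hvz (f i) (hf i) (hfne i).1 (hfne i).2.1 (hfne i).2.2.1 (hfne i).2.2.2
      · rintro (h1 | h1)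
        · exact jj_ne_hh hn i h1.symm
        · apply jj_ne_hh hn i
          rw [← hh_neg hn, h1, neg_neg]
    · exact hk k
    · rw [hUneg, hk k]
      have e1 : (jj n k = jj n i ∨ jj n k = - jj n i) ↔ (- jj n k = jj n i ∨ - jj n k = - jj n i) := by
        rw [neg_inj, neg_eq_iff_eq_neg]; exact or_comm
      simp only [e1]
  -- values
  have hvala : ∀ x : ZMod (2 ^ (n - 1)), x ≠ 0 → (a : G → ℂ) (rot h x) = U (hh n) a := by
    intro x hx
    rw [hinv a hx]
    have h1 : ∑ j, (U j a : ℂ) * e (j * x) = (U (hh n) a : ℂ) * ((∑ j, e (x * j)) - 1) := by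
      rw [mul_sub, Finset.mul_sum, mul_one]
      have h2 : ∀ j, (U j a : ℂ) * e (j * x) = (U (hh n) a : ℂ) * e (x * j) - (if j = 0 then (U (hh n) a : ℂ) else 0) := by
        intro j
        by_cases hj : j = 0
        · subst hj; rw [hUzero]; simp
        · rw [hUa j hj, if_neg hj, mul_comm j x]; ring
      rw [Finset.sum_congr rfl fun j _ => h2 j, Finset.sum_sub_distrib, Finset.sum_ite_eq']
      simp
    rw [h1, sum_e he, if_neg hx]; ring
  have hvalb : ∀ y : IrrCharacter G, (∀ j, j ≠ hh n → U j y = 0) → ∀ x : ZMod (2 ^ (n - 1)), x ≠ 0 →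
      (y : G → ℂ) (rot h x) = - (U (hh n) y * e (hh n * x)) := by
    intro y hy x hx
    rw [hinv y hx, Finset.sum_eq_single (hh n)]
    · intro j _ hj; rw [hy j hj]; simp
    · intro h1; exact absurd (Finset.mem_univ _) h1
  refine ⟨a, b, c, f, U (hh n), (hmemT _).1 ha, (hmemT _).1 hb, (hmemT _).1 hc, fun i => (hmemT _).1 (hf i), hfinj, hao, hbo, hco,
    hab, hac, hbc, hfne, hva, hvb, hvc, ?_, ?_, ?_⟩
  · intro x hx
    refine ⟨hvala x hx, hvalb b hUb x hx, hvalb c hUc x hx, ?_⟩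
    intro i
    rw [hinv (f i) hx]
    have hne : jj n i ≠ - jj n i := jj_add_ne hn i i
    have h1 : ∀ j, (U j (f i) : ℂ) * e (j * x) = (if j = jj n i then - (U (hh n) a : ℂ) * e (j * x) else 0) +
        (if j = - jj n i then - (U (hh n) a : ℂ) * e (j * x) else 0) := by
      intro j
      rw [hUf]
      by_cases h2 : j = jj n i
      · rw [if_pos (Or.inl h2), if_pos h2, if_neg (by rw [h2]; exact hne)]; push_cast; ring
      · by_cases h3 : j = - jj n i
        · rw [if_pos (Or.inr h3), if_neg h2, if_pos h3]; push_cast; ring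
        · rw [if_neg (not_or.2 ⟨h2, h3⟩), if_neg h2, if_neg h3]; simp
    rw [Finset.sum_congr rfl fun j _ => h1 j, Finset.sum_add_distrib, Finset.sum_ite_eq', Finset.sum_ite_eq']
    simp only [Finset.mem_univ, if_true, neg_mul]
    ring
  · intro g hg
    have hsupp : ∀ (F : IrrCharacter G → ℂ) (S : Finset (IrrCharacter G)), S ⊆ T → (∀ χ ∈ T, χ ∉ S → F χ = 0) → ∑ χ ∈ T, F χ = ∑ χ ∈ S, F χ :=
      fun F S hS h1 => (Finset.sum_subset hS h1).symm
    have hoT : irrOne G ∈ T := (hmemT _).2 irrOne_mem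
    have hg1 : ((irrOne G : IrrCharacter G) : G → ℂ) g = 1 := rfl
    constructor
    · have h1 := hreg g hg (hh n)
      rw [hsupp _ {irrOne G, a, b, c}] at h1
      · rw [Finset.sum_insert (by simp [hao.symm, hbo.symm, hco.symm]), Finset.sum_insert (by simp [hab, hac]),
          Finset.sum_insert (by simp [hbc]), Finset.sum_singleton, hone _ (hh_ne_zero hn), hg1] at h1
        rw [← h1]; push_cast; ring
      · intro χ hχ
        simp only [Finset.mem_insert, Finset.mem_singleton] at hχ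
        rcases hχ with rfl | rfl | rfl | rfl
        · exact hoT
        · exact ha
        · exact hb
        · exact hc
      · intro χ hχ hχ2
        simp only [Finset.mem_insert, Finset.mem_singleton, not_or] at hχ2
        rw [hvz χ hχ hχ2.1 hχ2.2.1 hχ2.2.2.1 hχ2.2.2.2]; simp
    · intro i
      have h1 := hreg g hg (jj n i)
      rw [hsupp _ {irrOne G, a, f i}] at h1
      · rw [Finset.sum_insert (by simp [hao.symm, (hfne i).1.symm]), Finset.sum_insert (by simp [(hfne i).2.1.symm]),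
          Finset.sum_singleton, hone _ (jj_ne_zero hn i), hg1] at h1
        have h2 := hua i
        have h3 := huf i
        rw [h2, h3] at h1
        rw [← h1]; push_cast; ring
      · intro χ hχ
        simp only [Finset.mem_insert, Finset.mem_singleton] at hχ
        rcases hχ with rfl | rfl | rfl
        · exact hoT
        · exact ha
        · exact hf i
      · intro χ hχ hχ2
        simp only [Finset.mem_insert, Finset.mem_singleton, not_or] at hχ2
        rw [huz i χ hχ hχ2.1 hχ2.2.1 hχ2.2.2]; simp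
  · intro χ hχ
    by_contra hcon
    push Not at hcon
    obtain ⟨h1, h2, h3, h4, h5⟩ := hcon
    have hχT := (hmemT χ).2 hχ
    have hJ : DihIn.J σ n = rot h (hh n) := by
      unfold hh; rw [rot_nat]; rfl
    have hee : e (hh n * hh n) = 1 ∨ e (hh n * hh n) = -1 := by
      have h6 : e (hh n * hh n) * e (hh n * hh n) = 1 := by
        rw [← AddChar.map_add_eq_mul]
        have : hh n * hh n + hh n * hh n = 0 := by
          have h7 := hh_neg hn
          rw [← mul_add]
          have h8 : hh n + hh n = 0 := by nth_rewrite 1 [← h7]; ring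
          rw [h8, mul_zero]
        rw [this, AddChar.map_zero_eq_one]
      exact mul_self_eq_one_iff.1 h6
    have hbcJ : ∀ y : IrrCharacter G, (∀ j, j ≠ hh n → U j y = 0) → (U (hh n) y = 1 ∨ U (hh n) y = -1) →
        (y : G → ℂ) (DihIn.J σ n) = 1 ∨ (y : G → ℂ) (DihIn.J σ n) = -1 := by
      intro y hy hy2
      rw [hJ, hvalb y hy _ (hh_ne_zero hn)]
      rcases hy2 with h6 | h6 <;> rcases hee with h7 | h7 <;> rw [h6, h7] <;> norm_num
    refine no_extra hM h ((hmemT _).1 ha) ((hmemT _).1 hb) ((hmemT _).1 hc) hχ hao hbo hco hab hac hbc h1 h2 h3 h4 ?_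
      (hbcJ b hUb hvb) (hbcJ c hUc hvc) ?_
    · rw [hJ, hvala _ (hh_ne_zero hn)]
      rcases hva with h6 | h6 <;> rw [h6] <;> norm_num
    · intro x hx hx1
      obtain ⟨y, rfl⟩ := rot_surj h hx
      have hy0 : y ≠ 0 := by rintro rfl; exact hx1 (rot_zero h)
      have hall : ∀ j, U j χ = 0 := by
        intro j
        by_cases hj : j = hh n
        · rw [hj]; exact hvz χ hχT h1 h2 h3 h4
        · exact hUbc χ hχT h1 h2 h5 j hj
      rw [hinv χ hy0, Finset.sum_eq_zero, neg_zero]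
      intro j _
      rw [hall j]; simp

end MainF

end CfsgH4
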