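import Cfsg.Agent.H4.DihF

/-!
# Dihedral groups given by an isomorphism or by generators
-/

set_option autoImplicit false

open Cfsg MonoidAlgebra
open CfsgH4 hiding centralChar sum_conj regInner_symm
open CfsgH5 ComplexConjugate

namespace CfsgH4

theorem dih_r_mem {m : ℕ} [NeZero m] {i : ZMod m} (hi : orderOf (DihedralGroup.r i) = m) (j : ZMod m) :
    DihedralGroup.r j ∈ Subgroup.zpowers (DihedralGroup.r i) := by
  have h1 : Subgroup.zpowers (DihedralGroup.r i) ≤ Subgroup.zpowers (DihedralGroup.r (1 : ZMod m)) := by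
    rw [Subgroup.zpowers_le]
    refine ⟨(i.val : ℤ), ?_⟩
    simp only [zpow_natCast, DihedralGroup.r_one_pow, ZMod.natCast_zmod_val]
  have h2 : Subgroup.zpowers (DihedralGroup.r i) = Subgroup.zpowers (DihedralGroup.r (1 : ZMod m)) := by
    refine Subgroup.eq_of_le_of_card_ge h1 ?_
    rw [Nat.card_zpowers, Nat.card_zpowers, hi, DihedralGroup.orderOf_r_one]
  rw [h2]
  refine ⟨(j.val : ℤ), ?_⟩
  simp only [zpow_natCast, DihedralGroup.r_one_pow, ZMod.natCast_zmod_val]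

theorem dihIn_of_equiv {G : Type*} [Group G] {P : Subgroup G} {n : ℕ} (hn : 3 ≤ n) (e : P ≃* DihedralGroup (2 ^ (n - 1))) {σ : G}
    (hσ : σ ∈ P) (hσo : orderOf σ = 2 ^ (n - 1)) : DihIn P σ n := by
  haveI : NeZero (2 ^ (n - 1)) := ⟨by positivity⟩
  have h4 : 4 ≤ 2 ^ (n - 1) := by
    have : 2 ^ 2 ≤ 2 ^ (n - 1) := Nat.pow_le_pow_right (by norm_num) (by omega)
    omega
  have ho : orderOf (e ⟨σ, hσ⟩) = 2 ^ (n - 1) := by
    rw [MulEquiv.orderOf_eq, Subgroup.orderOf_mk, hσo]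
  obtain ⟨i, hi⟩ : ∃ i, e ⟨σ, hσ⟩ = DihedralGroup.r i := by
    rcases h : e ⟨σ, hσ⟩ with i | i
    · exact ⟨i, rfl⟩
    · rw [h, DihedralGroup.orderOf_sr] at ho
      omega
  rw [hi] at ho
  refine ⟨hn, hσ, hσo, ?_, ?_⟩
  · rw [Nat.card_congr e.toEquiv, DihedralGroup.nat_card, ← pow_succ']
    congr 1; omega
  · intro x hx
    rcases h : e ⟨x, hx⟩ with j | j
    · left
      have h1 : e ⟨x, hx⟩ ∈ Subgroup.zpowers (e ⟨σ, hσ⟩) := by rw [h, hi]; exact dih_r_mem ho j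
      obtain ⟨k, hk⟩ := Subgroup.mem_zpowers_iff.1 h1
      rw [← map_zpow] at hk
      have h2 := congrArg Subtype.val (e.injective hk)
      exact Subgroup.mem_zpowers_iff.2 ⟨k, by simpa using h2⟩
    · right
      constructor
      · have h1 : e (⟨x, hx⟩ * ⟨x, hx⟩) = e 1 := by
          rw [map_mul, h, DihedralGroup.sr_mul_self, map_one]
        exact congrArg Subtype.val (e.injective h1)
      · have h1 : e (⟨x, hx⟩ * ⟨σ, hσ⟩ * ⟨x, hx⟩⁻¹) = e (⟨σ, hσ⟩⁻¹) := by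
          rw [map_mul, map_mul, map_inv, map_inv, h, hi]
          simp
        exact congrArg Subtype.val (e.injective h1)

theorem dihIn_of_gens {G : Type*} [Group G] [Finite G] {P : Subgroup G} {n : ℕ} (hn : 3 ≤ n) {σ τ : G}
    (hσ : σ ∈ P) (hτ : τ ∈ P) (hσo : orderOf σ = 2 ^ (n - 1)) (hτo : τ * τ = 1) (hrel : τ * σ * τ⁻¹ = σ⁻¹)
    (hgen : Subgroup.closure ({σ, τ} : Set G) = P) : DihIn P σ n ∧ τ ∉ Subgroup.zpowers σ := by
  have hτ2 : τ ∉ Subgroup.zpowers σ := by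
    intro h1
    obtain ⟨k, rfl⟩ := Subgroup.mem_zpowers_iff.1 h1
    have h2 : σ ^ k * σ * (σ ^ k)⁻¹ = σ := by
      have : σ ^ k * σ = σ * σ ^ k := (Commute.refl σ).zpow_left k
      rw [this]; group
    rw [h2] at hrel
    have h3 : σ ^ 2 = 1 := by rw [pow_two]; nth_rewrite 1 [hrel]; group
    have h4 := orderOf_dvd_of_pow_eq_one h3
    rw [hσo] at h4
    have h5 := Nat.le_of_dvd (by norm_num) h4
    have : 2 ^ 2 ≤ 2 ^ (n - 1) := Nat.pow_le_pow_right (by norm_num) (by omega)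
    omega
  have hrelz : ∀ k : ℤ, τ * σ ^ k * τ⁻¹ = (σ ^ k)⁻¹ := by
    intro k
    rw [← conj_zpow, hrel, inv_zpow]
  have hτi : τ⁻¹ = τ := inv_eq_of_mul_eq_one_left hτo
  -- all elements
  have hall : ∀ x ∈ P, x ∈ Subgroup.zpowers σ ∨ ∃ r ∈ Subgroup.zpowers σ, x = r * τ := by
    intro x hx
    rw [← hgen] at hx
    induction hx using Subgroup.closure_induction with
    | mem x hx =>
      rcases hx with rfl | hx
      · exact Or.inl (Subgroup.mem_zpowers _)
      · rw [Set.mem_singleton_iff.1 hx]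
        exact Or.inr ⟨1, Subgroup.one_mem _, (one_mul _).symm⟩
    | one => exact Or.inl (Subgroup.one_mem _)
    | mul x y _ _ hx hy =>
      have hsw : ∀ r ∈ Subgroup.zpowers σ, τ * r = r⁻¹ * τ := by
        intro r hr
        obtain ⟨k, rfl⟩ := Subgroup.mem_zpowers_iff.1 hr
        rw [← hrelz k]; group
      rcases hx with hx | ⟨r, hr, rfl⟩ <;> rcases hy with hy | ⟨r', hr', rfl⟩
      · exact Or.inl (Subgroup.mul_mem _ hx hy)
      · exact Or.inr ⟨x * r', Subgroup.mul_mem _ hx hr', by group⟩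
      · refine Or.inr ⟨r * y⁻¹, Subgroup.mul_mem _ hr (Subgroup.inv_mem _ hy), ?_⟩
        rw [mul_assoc, hsw y hy]; group
      · refine Or.inl ?_
        have : r * τ * (r' * τ) = r * r'⁻¹ := by
          calc r * τ * (r' * τ) = r * (τ * r') * τ := by group
            _ = r * (r'⁻¹ * τ) * τ := by rw [hsw r' hr']
            _ = r * r'⁻¹ * (τ * τ) := by group
            _ = r * r'⁻¹ := by rw [hτo, mul_one]
        rw [this]
        exact Subgroup.mul_mem _ hr (Subgroup.inv_mem _ hr')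
    | inv x _ hx =>
      rcases hx with hx | ⟨r, hr, rfl⟩
      · exact Or.inl (Subgroup.inv_mem _ hx)
      · refine Or.inr ⟨r, hr, ?_⟩
        obtain ⟨k, rfl⟩ := Subgroup.mem_zpowers_iff.1 hr
        have h1 := hrelz k
        calc (σ ^ k * τ)⁻¹ = τ⁻¹ * (σ ^ k)⁻¹ := by group
          _ = τ⁻¹ * (τ * σ ^ k * τ⁻¹) := by rw [h1]
          _ = σ ^ k * τ⁻¹ := by group
          _ = σ ^ k * τ := by rw [hτi]
  refine ⟨⟨hn, hσ, hσo, ?_, ?_⟩, hτ2⟩
  · have h1 := CfsgH3.nonempty_dihedral_equiv (2 ^ (n - 1)) σ τ hσo hτo hrel hτ2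
    rw [hgen] at h1
    obtain ⟨e⟩ := h1
    rw [Nat.card_congr e.toEquiv, DihedralGroup.nat_card, ← pow_succ']
    congr 1; omega
  · intro x hx
    rcases hall x hx with h1 | ⟨r, hr, rfl⟩
    · exact Or.inl h1
    · right
      obtain ⟨k, rfl⟩ := Subgroup.mem_zpowers_iff.1 hr
      have h1 := hrelz k
      constructor
      · calc σ ^ k * τ * (σ ^ k * τ) = σ ^ k * (τ * σ ^ k * τ⁻¹) * (τ * τ) := by group
          _ = 1 := by rw [h1, hτo]; group
      · calc σ ^ k * τ * σ * (σ ^ k * τ)⁻¹ = σ ^ k * (τ * σ * τ⁻¹) * (σ ^ k)⁻¹ := by group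
          _ = σ⁻¹ := by
            rw [hrel]
            have : σ ^ k * σ⁻¹ = σ⁻¹ * σ ^ k := ((Commute.refl σ).zpow_left k).inv_right.eq
            rw [this]; group

end CfsgH4
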