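import Cfsg.Agent.H4.DihG

/-!
# Counting for the order formula: dihedral Sylow 2-subgroups
-/

set_option autoImplicit false

open Cfsg MonoidAlgebra
open CfsgH4 hiding centralChar sum_conj regInner_symm
open CfsgH5 ComplexConjugate

namespace CfsgH4

section Conj

variable {G : Type*} [Group G] [Finite G]

/-- `2`-elements of a coset `σ O` are conjugate under `O` -/
theorem two_elt_conj {O : Subgroup G} (hodd : Odd (Nat.card O)) {σ u : G} (hσO : ∀ y ∈ O, σ * y * σ⁻¹ ∈ O)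
    (hσ : ∃ k, orderOf σ = 2 ^ k) (hu : ∃ k, orderOf u = 2 ^ k) (huσ : σ⁻¹ * u ∈ O) :
    ∃ w ∈ O, u = w * σ * w⁻¹ := by
  haveI : Fact (Nat.Prime 2) := ⟨Nat.prime_two⟩
  -- the group K = O ⟨σ⟩
  set K : Subgroup G := O ⊔ Subgroup.zpowers σ with hK
  have hnorm : σ ∈ Subgroup.normalizer (O : Set G) := DihIn.mem_normalizer_fin hσO
  have hOK : O ≤ K := le_sup_left
  have hσK : σ ∈ K := (le_sup_right : Subgroup.zpowers σ ≤ K) (Subgroup.mem_zpowers σ)
  have huK : u ∈ K := by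
    have : u = σ * (σ⁻¹ * u) := by group
    rw [this]; exact K.mul_mem hσK (hOK huσ)
  have hON : K ≤ Subgroup.normalizer (O : Set G) := by
    rw [hK, sup_le_iff]
    exact ⟨Subgroup.le_normalizer, by rw [Subgroup.zpowers_le]; exact hnorm⟩
  haveI hnK : (O.subgroupOf K).Normal := by
    refine ⟨fun y hy k => ?_⟩
    have h1 := (Subgroup.mem_normalizer_iff.1 (hON k.2)) y
    exact h1.1 hy
  -- Sylow subgroups
  obtain ⟨a, ha⟩ := hσ
  obtain ⟨b, hb⟩ := hu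
  have hpσ : IsPGroup 2 (Subgroup.zpowers (⟨σ, hσK⟩ : K)) := by
    refine IsPGroup.of_card (n := a) ?_
    rw [Nat.card_zpowers, Subgroup.orderOf_mk, ha]
  have hpu : IsPGroup 2 (Subgroup.zpowers (⟨u, huK⟩ : K)) := by
    refine IsPGroup.of_card (n := b) ?_
    rw [Nat.card_zpowers, Subgroup.orderOf_mk, hb]
  -- every element of K is (power of σ) * O
  have hKel : ∀ k : K, ∃ i : ℤ, ∃ y ∈ O, (k : G) = y * σ ^ i := by
    intro k
    obtain ⟨y, hy, z, hz, h1⟩ := CfsgH3.mem_sup_of_le_normalizer (s := Subgroup.zpowers σ) (t := O)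
      (by rw [Subgroup.zpowers_le]; exact hnorm) (by rw [sup_comm]; exact k.2)
    obtain ⟨i, rfl⟩ := Subgroup.mem_zpowers_iff.1 hy
    refine ⟨i, σ ^ i * z * (σ ^ i)⁻¹, ?_, by rw [h1]; group⟩
    exact ((Subgroup.mem_normalizer_iff.1 ((Subgroup.normalizer (O : Set G)).zpow_mem hnorm i)) z).1 hz
  -- ⟨σ⟩ is a Sylow subgroup of K
  obtain ⟨S, hS⟩ := hpσ.exists_le_sylow
  obtain ⟨T, hT⟩ := hpu.exists_le_sylow
  have hSeq : (S : Subgroup K) = Subgroup.zpowers (⟨σ, hσK⟩ : K) := by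
    apply le_antisymm _ hS
    intro k hk
    obtain ⟨i, y, hy, hky⟩ := hKel k
    have h1 : (⟨σ, hσK⟩ : K) ∈ (S : Subgroup K) := hS (Subgroup.mem_zpowers _)
    have h2 : k * ((⟨σ, hσK⟩ : K) ^ i)⁻¹ ∈ (S : Subgroup K) := Subgroup.mul_mem _ hk (Subgroup.inv_mem _ (Subgroup.zpow_mem _ h1 i))
    have h3 : ((k * ((⟨σ, hσK⟩ : K) ^ i)⁻¹ : K) : G) = y := by
      push_cast; rw [hky]; group
    -- odd order and 2-power order
    have h4 : orderOf (k * ((⟨σ, hσK⟩ : K) ^ i)⁻¹) = 1 := by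
      obtain ⟨j, hj⟩ := IsPGroup.iff_orderOf.1 S.2 ⟨_, h2⟩
      rw [Subgroup.orderOf_mk] at hj
      have h5 : orderOf (k * ((⟨σ, hσK⟩ : K) ^ i)⁻¹) ∣ Nat.card O := by
        rw [← Subgroup.orderOf_coe, h3]
        have := orderOf_dvd_natCard (⟨y, hy⟩ : O)
        rwa [Subgroup.orderOf_mk] at this
      exact Nat.eq_one_of_dvd_coprimes (Nat.Coprime.pow_left j (Nat.coprime_two_left.2 hodd)) (hj ▸ dvd_rfl) h5
    have h5 := orderOf_eq_one_iff.1 h4
    rw [mul_inv_eq_one] at h5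
    rw [h5]
    exact Subgroup.zpow_mem _ (Subgroup.mem_zpowers _) i
  obtain ⟨c, hc⟩ := MulAction.exists_smul_eq K T S
  have hcu : c * ⟨u, huK⟩ * c⁻¹ ∈ (S : Subgroup K) := by
    rw [← hc, Sylow.coe_subgroup_smul]
    exact ⟨⟨u, huK⟩, hT (Subgroup.mem_zpowers _), rfl⟩
  rw [hSeq] at hcu
  obtain ⟨j, hj⟩ := Subgroup.mem_zpowers_iff.1 hcu
  obtain ⟨i, y, hy, hcy⟩ := hKel c
  have hj' : (c : G) * u * (c : G)⁻¹ = σ ^ j := by
    have := congrArg Subtype.val hj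
    push_cast at this
    exact this.symm
  have h1 : y * (σ ^ i * u * (σ ^ i)⁻¹) * y⁻¹ = σ ^ j := by
    rw [← hj', hcy]; group
  -- compare modulo O
  have h2 : σ ^ j * σ⁻¹ ∈ O := by
    have e1 : σ ^ i * (σ⁻¹ * u) * (σ ^ i)⁻¹ ∈ O :=
      ((Subgroup.mem_normalizer_iff.1 ((Subgroup.normalizer (O : Set G)).zpow_mem hnorm i)) _).1 huσ
    have e2 : σ ^ i * u * (σ ^ i)⁻¹ = σ * (σ ^ i * (σ⁻¹ * u) * (σ ^ i)⁻¹) := by
      have : σ ^ i * σ⁻¹ = σ⁻¹ * σ ^ i := ((Commute.refl σ).zpow_left i).inv_right.eq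
      calc σ ^ i * u * (σ ^ i)⁻¹ = σ * (σ⁻¹ * σ ^ i) * u * (σ ^ i)⁻¹ := by group
        _ = σ * (σ ^ i * σ⁻¹) * u * (σ ^ i)⁻¹ := by rw [this]
        _ = _ := by group
    rw [← h1, e2]
    have e3 : y * (σ * (σ ^ i * (σ⁻¹ * u) * (σ ^ i)⁻¹)) * y⁻¹ * σ⁻¹ =
        y * (σ * ((σ ^ i * (σ⁻¹ * u) * (σ ^ i)⁻¹) * y⁻¹) * σ⁻¹) := by group
    rw [e3]
    exact O.mul_mem hy (hσO _ (O.mul_mem e1 (O.inv_mem hy)))
  have h3 : σ ^ j * σ⁻¹ = 1 := by
    have e1 : orderOf (σ ^ j * σ⁻¹) ∣ 2 ^ a := by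
      refine orderOf_dvd_of_pow_eq_one ?_
      have : σ ^ j * σ⁻¹ = σ ^ (j - 1) := by rw [zpow_sub_one]
      rw [this, ← zpow_natCast, ← zpow_mul, mul_comm, zpow_mul, zpow_natCast, ← ha, pow_orderOf_eq_one, one_zpow]
    have e2 : orderOf (σ ^ j * σ⁻¹) ∣ Nat.card O := by
      have := orderOf_dvd_natCard (⟨_, h2⟩ : O)
      rwa [Subgroup.orderOf_mk] at this
    exact orderOf_eq_one_iff.1 (Nat.eq_one_of_dvd_coprimes (Nat.Coprime.pow_left a (Nat.coprime_two_left.2 hodd)) e1 e2)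
  have h4 : σ ^ j = σ := mul_inv_eq_one.1 h3
  rw [h4] at h1
  -- u = (y σ^i)⁻¹ σ (y σ^i)
  refine ⟨(σ ^ i)⁻¹ * y⁻¹ * σ ^ i, ?_, ?_⟩
  · have := ((Subgroup.mem_normalizer_iff.1 ((Subgroup.normalizer (O : Set G)).inv_mem
      ((Subgroup.normalizer (O : Set G)).zpow_mem hnorm i))) y⁻¹).1 (O.inv_mem hy)
    simpa using this
  · have e1 : u = (σ ^ i)⁻¹ * y⁻¹ * (y * (σ ^ i * u * (σ ^ i)⁻¹) * y⁻¹) * y * σ ^ i := by group
    rw [e1, h1]
    have e2 : σ ^ i * σ * (σ ^ i)⁻¹ = σ := by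
      have : σ ^ i * σ = σ * σ ^ i := (Commute.refl σ).zpow_left i
      rw [this]; group
    calc (σ ^ i)⁻¹ * y⁻¹ * σ * y * σ ^ i = (σ ^ i)⁻¹ * y⁻¹ * (σ ^ i * σ * (σ ^ i)⁻¹) * y * σ ^ i := by rw [e2]
      _ = _ := by group

theorem vInv_conj' {O : Subgroup G} {g : G} (hg : g ∈ Subgroup.normalizer (O : Set G)) (s : G) :
    vInv O (g * s * g⁻¹) = vInv O s := by
  have h1 : ∀ y, y ∈ O → g⁻¹ * y * g ∈ O := by
    intro y hy
    have := ((Subgroup.mem_normalizer_iff.1 ((Subgroup.normalizer (O : Set G)).inv_mem hg)) y).1 hy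
    rwa [inv_inv] at this
  have h2 : ∀ y, y ∈ O → g * y * g⁻¹ ∈ O := fun y hy => ((Subgroup.mem_normalizer_iff.1 hg) y).1 hy
  refine Nat.card_congr ⟨fun y => ⟨⟨g⁻¹ * y.1 * g, h1 _ y.1.2⟩, ?_⟩, fun y => ⟨⟨g * y.1 * g⁻¹, h2 _ y.1.2⟩, ?_⟩, ?_, ?_⟩
  · have h := y.2
    change s * (g⁻¹ * (y.1 : G) * g) * s⁻¹ = (g⁻¹ * (y.1 : G) * g)⁻¹
    calc s * (g⁻¹ * (y.1 : G) * g) * s⁻¹ = g⁻¹ * (g * s * g⁻¹ * (y.1 : G) * (g * s * g⁻¹)⁻¹) * g := by group
      _ = g⁻¹ * ((y.1 : G))⁻¹ * g := by rw [h]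
      _ = _ := by group
  · have h := y.2
    change g * s * g⁻¹ * (g * (y.1 : G) * g⁻¹) * (g * s * g⁻¹)⁻¹ = (g * (y.1 : G) * g⁻¹)⁻¹
    calc g * s * g⁻¹ * (g * (y.1 : G) * g⁻¹) * (g * s * g⁻¹)⁻¹ = g * (s * (y.1 : G) * s⁻¹) * g⁻¹ := by group
      _ = g * ((y.1 : G))⁻¹ * g⁻¹ := by rw [h]
      _ = _ := by group
  · intro y
    apply Subtype.ext; apply Subtype.ext
    change g * (g⁻¹ * (y.1 : G) * g) * g⁻¹ = y.1
    group
  · intro y
    apply Subtype.ext; apply Subtype.ext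
    change g⁻¹ * (g * (y.1 : G) * g⁻¹) * g = y.1
    group

theorem card_invPairs_conj (z w : G) : Nat.card (InvPairs (w * z * w⁻¹)) = Nat.card (InvPairs z) := by
  have e1 : ∀ (c x : G), x * x = 1 → c * x * c⁻¹ * (c * x * c⁻¹) = 1 := by
    intro c x hx
    calc c * x * c⁻¹ * (c * x * c⁻¹) = c * (x * x) * c⁻¹ := by group
      _ = 1 := by rw [hx]; group
  have e2 : ∀ (c x : G), x ≠ 1 → c * x * c⁻¹ ≠ 1 := by
    intro c x hx h1
    exact hx (by simpa using h1)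
  haveI : Fact (Nat.Prime 2) := ⟨Nat.prime_two⟩
  refine Nat.card_congr ⟨fun p => ⟨(w⁻¹ * p.1.1 * w, w⁻¹ * p.1.2 * w), ?_, ?_, ?_⟩,
    fun p => ⟨(w * p.1.1 * w⁻¹, w * p.1.2 * w⁻¹), ?_, ?_, ?_⟩, ?_, ?_⟩
  · have := e1 w⁻¹ _ p.2.1.1
    have h2 := e2 w⁻¹ _ p.2.1.2
    rw [inv_inv] at this h2
    exact ⟨this, h2⟩
  · have := e1 w⁻¹ _ p.2.2.1.1
    have h2 := e2 w⁻¹ _ p.2.2.1.2
    rw [inv_inv] at this h2
    exact ⟨this, h2⟩
  · have := ppart_conj p.2.2.2 w⁻¹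
    have h3 : w⁻¹ * (p.1.1 * p.1.2) * w⁻¹⁻¹ = w⁻¹ * p.1.1 * w * (w⁻¹ * p.1.2 * w) := by group
    have h4 : w⁻¹ * (w * z * w⁻¹) * w⁻¹⁻¹ = z := by group
    rw [h3, h4] at this
    exact this
  · exact ⟨e1 w _ p.2.1.1, e2 w _ p.2.1.2⟩
  · exact ⟨e1 w _ p.2.2.1.1, e2 w _ p.2.2.1.2⟩
  · have := ppart_conj p.2.2.2 w
    have h3 : w * (p.1.1 * p.1.2) * w⁻¹ = w * p.1.1 * w⁻¹ * (w * p.1.2 * w⁻¹) := by group
    rw [h3] at this
    exact this
  · intro p
    apply Subtype.ext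
    change (w * (w⁻¹ * p.1.1 * w) * w⁻¹, w * (w⁻¹ * p.1.2 * w) * w⁻¹) = p.1
    ext <;> (simp only; group)
  · intro p
    apply Subtype.ext
    change (w⁻¹ * (w * p.1.1 * w⁻¹) * w, w⁻¹ * (w * p.1.2 * w⁻¹) * w) = p.1
    ext <;> (simp only; group)

end Conj

section TT

variable {G : Type*} [Group G] [Fintype G] {P : Sylow 2 G} {σ : G} {n : ℕ}

/-- pairs of involutions with product in `σ O` -/
def TT (O : Subgroup G) (σ : G) : Type _ :=
  {w : G × G // (w.1 * w.1 = 1 ∧ w.1 ≠ 1) ∧ (w.2 * w.2 = 1 ∧ w.2 ≠ 1) ∧ σ⁻¹ * (w.1 * w.2) ∈ O}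

variable (h : DihIn (P : Subgroup G) σ n)

include h

theorem norm_core {g : G} (hg : g ∈ Subgroup.centralizer ({DihIn.J σ n} : Set G)) :
    g ∈ Subgroup.normalizer ((centralizerPPrimeCore 2 (DihIn.J σ n) : Subgroup G) : Set G) := by
  haveI : Fact (Nat.Prime 2) := ⟨Nat.prime_two⟩
  refine DihIn.mem_normalizer_fin fun y hy => core_normal h.npcJ (Or.inl ?_) hy
  rw [Subgroup.mem_centralizer_singleton_iff.1 hg]; group

theorem core_conj {g : G} (hg : g ∈ Subgroup.centralizer ({DihIn.J σ n} : Set G)) {y : G}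
    (hy : y ∈ centralizerPPrimeCore 2 (DihIn.J σ n)) : g * y * g⁻¹ ∈ centralizerPPrimeCore 2 (DihIn.J σ n) :=
  ((Subgroup.mem_normalizer_iff.1 (norm_core h hg)) y).1 hy

theorem core_inf : centralizerPPrimeCore 2 (DihIn.J σ n) ⊓ Subgroup.centralizer ({σ} : Set G) = centralizerPPrimeCore 2 σ := by
  haveI : Fact (Nat.Prime 2) := ⟨Nat.prime_two⟩
  have hσ1 : σ ≠ 1 := by
    rintro rfl
    exact h.sig_ne (by simp)
  have hnpc := h.npc_rot (Subgroup.mem_zpowers σ) hσ1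
  ext y
  rw [Subgroup.mem_inf, Subgroup.mem_centralizer_singleton_iff]
  constructor
  · rintro ⟨h1, h2⟩
    exact mem_core_of_comm hnpc h2 (core_ord h1)
  · intro h1
    have h2 := core_comm h1
    refine ⟨mem_core_of_comm h.npcJ ?_ (core_ord h1), h2⟩
    exact (show Commute y σ from h2).pow_right _

theorem card_TT : Nat.card (TT (centralizerPPrimeCore 2 (DihIn.J σ n)) σ) * Nat.card (centralizerPPrimeCore 2 σ) =
    Nat.card (centralizerPPrimeCore 2 (DihIn.J σ n)) * Nat.card (InvPairs σ) := by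
  classical
  haveI : Fact (Nat.Prime 2) := ⟨Nat.prime_two⟩
  set O := centralizerPPrimeCore 2 (DihIn.J σ n) with hO
  haveI : Fintype O := Fintype.ofFinite _
  have hσC : σ ∈ Subgroup.centralizer ({DihIn.J σ n} : Set G) := h.P_le h.mem
  have hodd : Odd (Nat.card O) := odd_core _
  have hσO : ∀ y ∈ O, σ * y * σ⁻¹ ∈ O := fun y hy => core_conj h hσC hy
  have hσO' : ∀ y ∈ O, σ⁻¹ * y * σ ∈ O := fun y hy => by
    have := core_conj h (Subgroup.inv_mem _ hσC) hy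
    rwa [inv_inv] at this
  let S : ℕ := ∑ w : O, ∑ p : G × G, (if ((p.1 * p.1 = 1 ∧ p.1 ≠ 1) ∧ (p.2 * p.2 = 1 ∧ p.2 ≠ 1) ∧
      IsPPart 2 (p.1 * p.2) ((w : G) * σ * (w : G)⁻¹)) then 1 else 0)
  have hS1 : S = Nat.card O * Nat.card (InvPairs σ) := by
    have h1 : ∀ w : O, ∑ p : G × G, (if ((p.1 * p.1 = 1 ∧ p.1 ≠ 1) ∧ (p.2 * p.2 = 1 ∧ p.2 ≠ 1) ∧
      IsPPart 2 (p.1 * p.2) ((w : G) * σ * (w : G)⁻¹)) then 1 else 0) = Nat.card (InvPairs σ) := by
      intro w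
      rw [← card_invPairs_conj σ (w : G), Finset.sum_boole]
      unfold InvPairs
      rw [Nat.card_eq_fintype_card, Fintype.card_subtype]
      simp
    change ∑ w : O, _ = _
    rw [Finset.sum_congr rfl fun w _ => h1 w, Finset.sum_const, Finset.card_univ, ← Nat.card_eq_fintype_card, smul_eq_mul]
  have hS2 : S = Nat.card (TT O σ) * Nat.card (centralizerPPrimeCore 2 σ) := by
    change ∑ w : O, _ = _
    rw [Finset.sum_comm]
    have h1 : ∀ p : G × G, ∑ w : O, (if ((p.1 * p.1 = 1 ∧ p.1 ≠ 1) ∧ (p.2 * p.2 = 1 ∧ p.2 ≠ 1) ∧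
      IsPPart 2 (p.1 * p.2) ((w : G) * σ * (w : G)⁻¹)) then 1 else 0) =
        if ((p.1 * p.1 = 1 ∧ p.1 ≠ 1) ∧ (p.2 * p.2 = 1 ∧ p.2 ≠ 1) ∧ σ⁻¹ * (p.1 * p.2) ∈ O) then
          Nat.card (centralizerPPrimeCore 2 σ) else 0 := by
      rintro ⟨s, t⟩
      simp only
      by_cases hp : ((s * s = 1 ∧ s ≠ 1) ∧ (t * t = 1 ∧ t ≠ 1) ∧ σ⁻¹ * (s * t) ∈ O)
      · rw [if_pos hp]
        obtain ⟨hs, ht, hst⟩ := hp
        obtain ⟨u, hu⟩ := exists_ppart (p := 2) (s * t)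
        -- u in σ O
        obtain ⟨y, hy, hcomm, hu2, hyo⟩ := id hu
        have huσ : σ⁻¹ * u ∈ O := by
          -- y is a power of s t of odd order
          obtain ⟨w, hw⟩ : ∃ w : ℕ, y = (s * t) ^ w := by
            obtain ⟨k, hk⟩ := hu2
            have hco : Nat.Coprime (orderOf u) (orderOf y) := by
              rw [hk]
              exact Nat.Coprime.pow_left k (Nat.coprime_two_left.2 (by rwa [← Nat.not_even_iff_odd, even_iff_two_dvd]))
            obtain ⟨w, hw1, hw2⟩ := Nat.chineseRemainder hco 0 1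
            refine ⟨w, ?_⟩
            rw [← hy, hcomm.mul_pow]
            have e1 : u ^ w = 1 := by
              rw [← orderOf_dvd_iff_pow_eq_one]; exact (Nat.modEq_zero_iff_dvd).1 hw1
            have e2 : y ^ w = y := by
              have := (pow_eq_pow_iff_modEq (x := y)).2 hw2
              rw [pow_one] at this; exact this
            rw [e1, e2, one_mul]
          -- st normalizes O
          have hstC : s * t ∈ Subgroup.centralizer ({DihIn.J σ n} : Set G) := by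
            have : s * t = σ * (σ⁻¹ * (s * t)) := by group
            rw [this]
            exact Subgroup.mul_mem _ hσC (Subgroup.mem_centralizer_singleton_iff.2 (core_comm hst))
          have hyO : y ∈ O := by
            refine mem_core_of_comm h.npcJ ?_ hyo
            rw [hw]
            exact Subgroup.mem_centralizer_singleton_iff.1 (Subgroup.pow_mem _ hstC w)
          have : σ⁻¹ * u = (σ⁻¹ * (s * t)) * y⁻¹ := by rw [← hy]; group
          rw [this]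
          exact O.mul_mem hst (O.inv_mem hyO)
        obtain ⟨w₀, hw₀, huw⟩ := two_elt_conj hodd hσO (two_elt h.mem) hu2 huσ
        have h2 : ∀ w : O, ((s * s = 1 ∧ s ≠ 1) ∧ (t * t = 1 ∧ t ≠ 1) ∧ IsPPart 2 (s * t) ((w : G) * σ * (w : G)⁻¹)) ↔
            (w : G) * σ * (w : G)⁻¹ = w₀ * σ * w₀⁻¹ := by
          intro w
          constructor
          · rintro ⟨-, -, h3⟩
            rw [← huw]; exact ppart_unique h3 hu
          · intro h3
            exact ⟨hs, ht, by rw [h3, ← huw]; exact hu⟩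
        simp only [h2]
        rw [Finset.sum_boole, ← core_inf h]
        simp only [Nat.cast_id]
        rw [← Fintype.card_subtype, ← Nat.card_eq_fintype_card]
        refine Nat.card_congr ⟨fun w => ⟨w₀⁻¹ * w.1, Subgroup.mem_inf.2 ⟨O.mul_mem (O.inv_mem hw₀) w.1.2, ?_⟩⟩,
          fun y => ⟨⟨w₀ * y.1, O.mul_mem hw₀ (Subgroup.mem_inf.1 y.2).1⟩, ?_⟩, ?_, ?_⟩
        · rw [Subgroup.mem_centralizer_singleton_iff]
          have h3 := w.2
          calc w₀⁻¹ * (w.1 : G) * σ = w₀⁻¹ * ((w.1 : G) * σ * (w.1 : G)⁻¹) * w.1 := by group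
            _ = w₀⁻¹ * (w₀ * σ * w₀⁻¹) * w.1 := by rw [h3]
            _ = σ * (w₀⁻¹ * w.1) := by group
        · have h3 := Subgroup.mem_centralizer_singleton_iff.1 (Subgroup.mem_inf.1 y.2).2
          change w₀ * y.1 * σ * (w₀ * y.1)⁻¹ = w₀ * σ * w₀⁻¹
          calc w₀ * y.1 * σ * (w₀ * y.1)⁻¹ = w₀ * (y.1 * σ) * (y.1)⁻¹ * w₀⁻¹ := by group
            _ = w₀ * (σ * y.1) * (y.1)⁻¹ * w₀⁻¹ := by rw [h3]
            _ = _ := by group
        · intro w
          apply Subtype.ext; apply Subtype.ext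
          change w₀ * (w₀⁻¹ * (w.1 : G)) = w.1
          group
        · intro y
          apply Subtype.ext
          change w₀⁻¹ * (w₀ * (y.1 : G)) = y.1
          group
      · rw [if_neg hp]
        refine Finset.sum_eq_zero fun w _ => if_neg ?_
        rintro ⟨h2, h3, h4⟩
        apply hp
        refine ⟨h2, h3, ?_⟩
        obtain ⟨y, hy, hcomm, hu2, hyo⟩ := h4
        have hwC : (w : G) ∈ Subgroup.centralizer ({DihIn.J σ n} : Set G) :=
          Subgroup.mem_centralizer_singleton_iff.2 (core_comm w.2)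
        have hyO : y ∈ O := by
          refine mem_core_of_comm h.npcJ ?_ hyo
          have e1 : DihIn.J σ n = ((w : G) * σ * (w : G)⁻¹) ^ (2 ^ (n - 2)) := by
            rw [conj_pow]
            change _ = (w : G) * DihIn.J σ n * (w : G)⁻¹
            rw [Subgroup.mem_centralizer_singleton_iff.1 hwC]; group
          rw [e1]
          exact (hcomm.symm.pow_right _).eq
        have : σ⁻¹ * (s * t) = (σ⁻¹ * (w : G) * σ) * (w : G)⁻¹ * y := by
          change (w : G) * σ * (w : G)⁻¹ * y = s * t at hy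
          rw [← hy]; group
        rw [this]
        exact O.mul_mem (O.mul_mem (hσO' _ w.2) (O.inv_mem w.2)) hyO
    rw [Finset.sum_congr rfl fun p _ => h1 p, ← Finset.sum_filter, Finset.sum_const, smul_eq_mul]
    congr 1
    unfold TT
    rw [Nat.card_eq_fintype_card, Fintype.card_subtype]
  rw [← hS2, hS1]

open Classical in
theorem card_TT' : Nat.card (TT (centralizerPPrimeCore 2 (DihIn.J σ n)) σ) =
    ∑ x : G, (if x ∈ (P : Subgroup G) ∧ x ∉ Subgroup.zpowers σ then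
      vInv (centralizerPPrimeCore 2 (DihIn.J σ n)) x * vInv (centralizerPPrimeCore 2 (DihIn.J σ n)) (x * σ) else 0) := by
  haveI : Fact (Nat.Prime 2) := ⟨Nat.prime_two⟩
  set O := centralizerPPrimeCore 2 (DihIn.J σ n) with hO
  have hodd : Odd (Nat.card O) := odd_core _
  have hσC : σ ∈ Subgroup.centralizer ({DihIn.J σ n} : Set G) := h.P_le h.mem
  have hσO : ∀ y ∈ O, σ * y * σ⁻¹ ∈ O := fun y hy => core_conj h hσC hy
  have hσO' : ∀ y ∈ O, σ⁻¹ * y * σ ∈ O := fun y hy => by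
    have := core_conj h (Subgroup.inv_mem _ hσC) hy
    rwa [inv_inv] at this
  have hOC : ∀ y ∈ O, y ∈ Subgroup.centralizer ({DihIn.J σ n} : Set G) := fun y hy =>
    Subgroup.mem_centralizer_singleton_iff.2 (core_comm hy)
  let A := {x : G // x ∈ (P : Subgroup G) ∧ x ∉ Subgroup.zpowers σ}
  let V : G → Type _ := fun s => {y : O // s * (y : G) * s⁻¹ = (y : G)⁻¹}
  haveI : ∀ s : G, Fintype (V s) := fun s => Fintype.ofFinite _
  haveI : Fintype A := Fintype.ofFinite _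
  have hPO : ∀ x ∈ (P : Subgroup G), ∀ y ∈ O, x * y * x⁻¹ ∈ O := fun x hx y hy => core_conj h (h.P_le hx) hy
  have hinvol : ∀ x y : G, x ∈ (P : Subgroup G) → x ∉ Subgroup.zpowers σ → y ∈ O → x * y * x⁻¹ = y⁻¹ →
      x * y * (x * y) = 1 ∧ x * y ≠ 1 := by
    intro x y hx hx2 hy hyi
    have hxx := ((h.refl_iff hx).1 hx2).1
    constructor
    · calc x * y * (x * y) = (x * y * x⁻¹) * (x * x) * y := by group
        _ = 1 := by rw [hyi, hxx]; group
    · intro h1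
      have h2 : x = y⁻¹ := eq_inv_of_mul_eq_one_left h1
      have h3 := sylow_core_trivial P hodd hx (h2 ▸ O.inv_mem hy)
      exact hx2 (h3 ▸ Subgroup.one_mem _)
  have hxσ : ∀ x : G, x ∈ (P : Subgroup G) → x ∉ Subgroup.zpowers σ → x * σ ∈ (P : Subgroup G) ∧ x * σ ∉ Subgroup.zpowers σ := by
    intro x hx hx2
    refine ⟨(P : Subgroup G).mul_mem hx h.mem, fun h1 => hx2 ?_⟩
    have := Subgroup.mul_mem _ h1 (Subgroup.inv_mem _ (Subgroup.mem_zpowers σ))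
    simpa using this
  let f : (Σ x : A, V x.1 × V (x.1 * σ)) → TT O σ := fun w =>
    ⟨(w.1.1 * (w.2.1.1 : G), w.1.1 * σ * (w.2.2.1 : G)), hinvol _ _ w.1.2.1 w.1.2.2 w.2.1.1.2 w.2.1.2,
      hinvol _ _ (hxσ _ w.1.2.1 w.1.2.2).1 (hxσ _ w.1.2.1 w.1.2.2).2 w.2.2.1.2 w.2.2.2, by
        have hxx := ((h.refl_iff w.1.2.1).1 w.1.2.2).1
        have h1 : σ⁻¹ * (w.1.1 * (w.2.1.1 : G) * (w.1.1 * σ * (w.2.2.1 : G))) =
            σ⁻¹ * (w.1.1 * (w.2.1.1 : G) * w.1.1⁻¹) * σ * (w.2.2.1 : G) := by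
          calc σ⁻¹ * (w.1.1 * (w.2.1.1 : G) * (w.1.1 * σ * (w.2.2.1 : G))) =
              σ⁻¹ * (w.1.1 * (w.2.1.1 : G) * w.1.1⁻¹) * (w.1.1 * w.1.1) * σ * (w.2.2.1 : G) := by group
            _ = _ := by rw [hxx, mul_one]
        change σ⁻¹ * (w.1.1 * (w.2.1.1 : G) * (w.1.1 * σ * (w.2.2.1 : G))) ∈ O
        rw [h1]
        exact O.mul_mem (hσO' _ (hPO _ w.1.2.1 _ w.2.1.1.2)) w.2.2.1.2⟩
  have hf : Function.Bijective f := by
    constructor
    · rintro ⟨⟨x, hx⟩, ⟨⟨⟨y, hy⟩, hyi⟩, ⟨⟨z, hz⟩, hzi⟩⟩⟩ ⟨⟨x', hx'⟩, ⟨⟨⟨y', hy'⟩, hyi'⟩, ⟨⟨z', hz'⟩, hzi'⟩⟩⟩ hh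
      have h0 := congrArg Subtype.val hh
      have h1 : x * y = x' * y' := congrArg Prod.fst h0
      have h2 : x * σ * z = x' * σ * z' := congrArg Prod.snd h0
      have h3 : x'⁻¹ * x = y' * y⁻¹ := by
        calc x'⁻¹ * x = x'⁻¹ * (x * y) * y⁻¹ := by group
          _ = _ := by rw [h1]; group
      have h4 : x'⁻¹ * x = 1 := sylow_core_trivial P hodd
        ((P : Subgroup G).mul_mem ((P : Subgroup G).inv_mem hx'.1) hx.1) (h3 ▸ O.mul_mem hy' (O.inv_mem hy))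
      have h5 : x' = x := inv_mul_eq_one.1 h4
      subst h5
      have h6 : y = y' := mul_left_cancel h1
      have h7 : z = z' := mul_left_cancel h2
      subst h6; subst h7
      rfl
    · rintro ⟨⟨s, t⟩, ⟨hs, hs1⟩, ⟨ht, ht1⟩, hst⟩
      change s * s = 1 at hs
      change t * t = 1 at ht
      change σ⁻¹ * (s * t) ∈ O at hst
      have hsi : s⁻¹ = s := inv_eq_of_mul_eq_one_left hs
      have hti : t⁻¹ = t := inv_eq_of_mul_eq_one_left ht
      -- s inverts st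
      have hinv : s * (s * t) * s⁻¹ = (s * t)⁻¹ := by
        rw [mul_inv_rev, ← mul_assoc, hs, one_mul, hti]
      set o := σ⁻¹ * (s * t) with ho
      have hsto : s * t = σ * o := by rw [ho]; group
      -- J is a power of the 2-part of st, up to conjugation
      obtain ⟨u, hu⟩ := exists_ppart (p := 2) (s * t)
      obtain ⟨y, hy, hcomm, hu2, hyo⟩ := id hu
      have huσ : σ⁻¹ * u ∈ O := by
        obtain ⟨w, hw⟩ : ∃ w : ℕ, y = (s * t) ^ w := by
          obtain ⟨k, hk⟩ := hu2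
          have hco : Nat.Coprime (orderOf u) (orderOf y) := by
            rw [hk]
            exact Nat.Coprime.pow_left k (Nat.coprime_two_left.2 (by rwa [← Nat.not_even_iff_odd, even_iff_two_dvd]))
          obtain ⟨w, hw1, hw2⟩ := Nat.chineseRemainder hco 0 1
          refine ⟨w, ?_⟩
          rw [← hy, hcomm.mul_pow]
          have e1 : u ^ w = 1 := by
            rw [← orderOf_dvd_iff_pow_eq_one]; exact (Nat.modEq_zero_iff_dvd).1 hw1
          have e2 : y ^ w = y := by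
            have := (pow_eq_pow_iff_modEq (x := y)).2 hw2
            rw [pow_one] at this; exact this
          rw [e1, e2, one_mul]
        have hstC : s * t ∈ Subgroup.centralizer ({DihIn.J σ n} : Set G) := by
          rw [hsto]
          exact Subgroup.mul_mem _ hσC (hOC _ hst)
        have hyO : y ∈ O := by
          refine mem_core_of_comm h.npcJ ?_ hyo
          rw [hw]
          exact Subgroup.mem_centralizer_singleton_iff.1 (Subgroup.pow_mem _ hstC w)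
        have : σ⁻¹ * u = (σ⁻¹ * (s * t)) * y⁻¹ := by rw [← hy]; group
        rw [this]
        exact O.mul_mem hst (O.inv_mem hyO)
      obtain ⟨w₀, hw₀, huw⟩ := two_elt_conj hodd hσO (two_elt h.mem) hu2 huσ
      have huJ : DihIn.J σ n = u ^ (2 ^ (n - 2)) := by
        rw [huw, conj_pow]
        change _ = w₀ * DihIn.J σ n * w₀⁻¹
        rw [Subgroup.mem_centralizer_singleton_iff.1 (hOC _ hw₀)]; group
      have hsu : s * u * s⁻¹ = u⁻¹ := invert_ppart hu hinv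
      have hsC : s ∈ Subgroup.centralizer ({DihIn.J σ n} : Set G) := by
        rw [Subgroup.mem_centralizer_singleton_iff]
        have h1 : s * DihIn.J σ n * s⁻¹ = DihIn.J σ n := by
          rw [huJ, ← conj_pow, hsu, inv_pow, ← huJ, h.J_inv]
        calc s * DihIn.J σ n = (s * DihIn.J σ n * s⁻¹) * s := by group
          _ = _ := by rw [h1]
      obtain ⟨x, hxP, y1, hy1, hsx⟩ := h.facP hsC
      -- x inverts σ
      have hxinv : x * σ * x⁻¹ = σ⁻¹ := by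
        have h1 : s * (σ * o) * s⁻¹ = (σ * o)⁻¹ := by rw [← hsto]; exact hinv
        rw [hsx] at h1
        -- x σ x⁻¹ * σ ∈ O
        have e1 : x * σ * x⁻¹ * σ = x * (σ * (σ⁻¹ * (y1 * (σ * o * (y1⁻¹ * x⁻¹ * x) * σ⁻¹)) * σ)⁻¹ * σ⁻¹) * x⁻¹ *
            (x * y1 * (σ * o) * (x * y1)⁻¹) * σ := by
          group
        have e2 : x * (σ * (σ⁻¹ * (y1 * (σ * o * (y1⁻¹ * x⁻¹ * x) * σ⁻¹)) * σ)⁻¹ * σ⁻¹) * x⁻¹ ∈ O := by
          refine hPO x hxP _ (hσO _ (O.inv_mem (hσO' _ (O.mul_mem hy1 ?_))))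
          have : σ * o * (y1⁻¹ * x⁻¹ * x) * σ⁻¹ = σ * (o * y1⁻¹) * σ⁻¹ := by group
          rw [this]
          exact hσO _ (O.mul_mem hst (O.inv_mem hy1))
        have e3 : x * σ * x⁻¹ * σ ∈ O := by
          rw [e1, h1]
          have : (σ * o)⁻¹ * σ = o⁻¹ * (σ⁻¹ * σ) := by group
          rw [mul_assoc, this]
          have h5 : o⁻¹ * (σ⁻¹ * σ) = o⁻¹ := by group
          rw [h5]
          exact O.mul_mem e2 (O.inv_mem hst)
        have e4 : x * σ * x⁻¹ * σ ∈ (P : Subgroup G) := (P : Subgroup G).mul_mem ((P : Subgroup G).mul_mem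
          ((P : Subgroup G).mul_mem hxP h.mem) ((P : Subgroup G).inv_mem hxP)) h.mem
        exact eq_inv_of_mul_eq_one_left (sylow_core_trivial P hodd e4 e3)
      have hx2 : x ∉ Subgroup.zpowers σ := by
        intro h1
        obtain ⟨k, rfl⟩ := Subgroup.mem_zpowers_iff.1 h1
        apply h.sig_ne
        rw [← hxinv]
        have : σ ^ k * σ = σ * σ ^ k := (Commute.refl σ).zpow_left k
        rw [this]; group
      have hxx := ((h.refl_iff hxP).1 hx2).1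
      have hy1i : x * y1 * x⁻¹ = y1⁻¹ := by
        rw [hsx] at hs
        calc x * y1 * x⁻¹ = (x * y1 * (x * y1)) * y1⁻¹ * (x * x)⁻¹ := by group
          _ = y1⁻¹ := by rw [hs, hxx]; group
      -- t
      have htx : t = x * σ * (σ⁻¹ * y1 * σ * o) := by
        calc t = s⁻¹ * (s * t) := by group
          _ = s * (σ * o) := by rw [hsi, hsto]
          _ = x * y1 * (σ * o) := by rw [hsx]
          _ = _ := by group
      have hy2 : σ⁻¹ * y1 * σ * o ∈ O := O.mul_mem (hσO' _ hy1) hst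
      have hy2i : (x * σ) * (σ⁻¹ * y1 * σ * o) * (x * σ)⁻¹ = (σ⁻¹ * y1 * σ * o)⁻¹ := by
        have h1 := ((h.refl_iff (hxσ x hxP hx2).1).1 (hxσ x hxP hx2).2).1
        rw [htx] at ht
        calc (x * σ) * (σ⁻¹ * y1 * σ * o) * (x * σ)⁻¹ =
            (x * σ * (σ⁻¹ * y1 * σ * o) * (x * σ * (σ⁻¹ * y1 * σ * o))) * (σ⁻¹ * y1 * σ * o)⁻¹ * (x * σ * (x * σ))⁻¹ := by group
          _ = _ := by rw [ht, h1]; group
      refine ⟨⟨⟨x, hxP, hx2⟩, ⟨⟨⟨y1, hy1⟩, hy1i⟩, ⟨⟨_, hy2⟩, hy2i⟩⟩⟩, ?_⟩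
      apply Subtype.ext
      change (x * y1, x * σ * (σ⁻¹ * y1 * σ * o)) = (s, t)
      rw [← hsx, ← htx]
  rw [← Nat.card_congr (Equiv.ofBijective f hf), Nat.card_sigma, ← Finset.sum_filter]
  have h1 : ∀ x : A, Nat.card (V x.1 × V (x.1 * σ)) = vInv O x.1 * vInv O (x.1 * σ) := fun x => Nat.card_prod _ _
  rw [Finset.sum_congr rfl fun x _ => h1 x]
  exact (Finset.sum_subtype (Finset.univ.filter fun x : G => x ∈ (P : Subgroup G) ∧ x ∉ Subgroup.zpowers σ)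
    (by intro x; simp) (fun x => vInv O x * vInv O (x * σ))).symm

end TT

end CfsgH4
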