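import Cfsg.Agent.H4.DihH

/-!
# Order formula for one class of involutions, dihedral Sylow 2-subgroups
-/

set_option autoImplicit false

open Cfsg MonoidAlgebra
open CfsgH4 hiding centralChar sum_conj regInner_symm
open CfsgH5 ComplexConjugate

namespace CfsgH4

theorem sum_range_even_odd (g : ℕ → ℕ) (N a b : ℕ) (ha : ∀ j < N, g (2 * j) = a) (hb : ∀ j < N, g (2 * j + 1) = b) :
    ∑ i ∈ Finset.range (2 * N), g i = N * (a + b) := by
  induction N with
  | zero => simp
  | succ N ih =>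
    rw [show 2 * (N + 1) = 2 * N + 1 + 1 by ring, Finset.sum_range_succ, Finset.sum_range_succ,
      ih (fun j hj => ha j (by omega)) (fun j hj => hb j (by omega)), ha N (by omega), hb N (by omega)]
    ring

section I

variable {G : Type*} [Group G] [Fintype G] {M : Ideal AlgInt} {P : Sylow 2 G} {σ : G} {n : ℕ}
variable (h : DihIn (P : Subgroup G) σ n)

include h

open Classical in
theorem sum_refl {τ : G} (hτ : τ ∈ (P : Subgroup G)) (hτ2 : τ ∉ Subgroup.zpowers σ) (F : G → ℕ) :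
    ∑ x : G, (if x ∈ (P : Subgroup G) ∧ x ∉ Subgroup.zpowers σ then F x else 0) =
      ∑ i ∈ Finset.range (2 ^ (n - 1)), F (σ ^ i * τ) := by
  rw [← Finset.sum_filter]
  symm
  have hττ := ((h.refl_iff hτ).1 hτ2).1
  refine Finset.sum_bij (fun i _ => σ ^ i * τ) ?_ ?_ ?_ ?_
  · intro i _
    simp only [Finset.mem_filter, Finset.mem_univ, true_and]
    refine ⟨(P : Subgroup G).mul_mem ((P : Subgroup G).pow_mem h.mem i) hτ, fun h1 => hτ2 ?_⟩
    have h2 := Subgroup.mul_mem _ (Subgroup.inv_mem _ (Subgroup.npow_mem_zpowers σ i)) h1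
    have : (σ ^ i)⁻¹ * (σ ^ i * τ) = τ := by group
    rwa [this] at h2
  · intro i hi j hj hij
    have h1 : σ ^ i = σ ^ j := mul_right_cancel hij
    rw [Finset.mem_range, ← h.ord] at hi hj
    exact pow_injOn_Iio_orderOf hi hj h1
  · intro x hx
    simp only [Finset.mem_filter, Finset.mem_univ, true_and] at hx
    have h1 := h.refl_mul_refl hx.1 hx.2 hτ hτ2
    rw [← mem_powers_iff_mem_zpowers, Submonoid.mem_powers_iff] at h1
    obtain ⟨k, hk⟩ := h1
    refine ⟨k % 2 ^ (n - 1), Finset.mem_range.2 (Nat.mod_lt _ (by positivity)), ?_⟩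
    have h2 : σ ^ (k % 2 ^ (n - 1)) = x * τ := by
      rw [← hk, ← h.ord, pow_mod_orderOf]
    rw [h2, mul_assoc, hττ, mul_one]
  · intro i _; rfl

theorem vInv_even {τ : G} (hτ : τ ∈ (P : Subgroup G)) (hτ2 : τ ∉ Subgroup.zpowers σ) (k : ℤ) :
    vInv (centralizerPPrimeCore 2 (DihIn.J σ n)) (σ ^ (2 * k) * τ) = vInv (centralizerPPrimeCore 2 (DihIn.J σ n)) τ := by
  have hN : σ ^ k ∈ Subgroup.normalizer ((centralizerPPrimeCore 2 (DihIn.J σ n) : Subgroup G) : Set G) :=
    norm_core h (h.P_le ((P : Subgroup G).zpow_mem h.mem k))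
  rw [← vInv_conj' hN τ]
  congr 1
  have h1 := h.refl_zpow hτ hτ2 (-k)
  have h2 : τ * (σ ^ k)⁻¹ = σ ^ k * τ := by
    rw [zpow_neg, inv_inv] at h1
    calc τ * (σ ^ k)⁻¹ = (τ * (σ ^ k)⁻¹ * τ⁻¹) * τ := by group
      _ = _ := by rw [h1]
  rw [mul_assoc, h2, ← mul_assoc, ← zpow_add, two_mul]

theorem vInv_odd {τ : G} (hτ : τ ∈ (P : Subgroup G)) (hτ2 : τ ∉ Subgroup.zpowers σ) (k : ℤ) :
    vInv (centralizerPPrimeCore 2 (DihIn.J σ n)) (σ ^ (2 * k + 1) * τ) =
      vInv (centralizerPPrimeCore 2 (DihIn.J σ n)) (σ * τ) := by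
  have h1 : σ * τ ∉ Subgroup.zpowers σ := by
    intro h1
    apply hτ2
    have := Subgroup.mul_mem _ (Subgroup.inv_mem _ (Subgroup.mem_zpowers σ)) h1
    simpa using this
  have h2 := vInv_even h ((P : Subgroup G).mul_mem h.mem hτ) h1 k
  rw [← h2]
  congr 1
  rw [zpow_add, zpow_one, mul_assoc]

theorem invPairs_J {τ : G} (hτ : τ ∈ (P : Subgroup G)) (hτ2 : τ ∉ Subgroup.zpowers σ) :
    Nat.card (InvPairs (DihIn.J σ n)) = 2 ^ (n - 2) * (vInv (centralizerPPrimeCore 2 (DihIn.J σ n)) τ ^ 2 +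
      vInv (centralizerPPrimeCore 2 (DihIn.J σ n)) (σ * τ) ^ 2) := by
  classical
  have hn := h.hn
  set O := centralizerPPrimeCore 2 (DihIn.J σ n) with hO
  rw [card_invPairs' P h.J_mem h.npcJ (fun x hx => Or.inl (by rw [h.J_comm hx]; group)) (by
    intro s hs
    apply h.facP
    rw [Subgroup.mem_centralizer_singleton_iff]
    have h1 := hs.2.2.2
    rw [h.J_inv] at h1
    calc s * DihIn.J σ n = (s * DihIn.J σ n * s⁻¹) * s := by group
      _ = _ := by rw [h1])]
  have h1 : ∀ x : G, (x ∈ (P : Subgroup G) ∧ x ∈ InvAt (DihIn.J σ n)) ↔ (x ∈ (P : Subgroup G) ∧ x ∉ Subgroup.zpowers σ) := by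
    intro x
    constructor
    · rintro ⟨hx, h2, h3, h4, -⟩
      refine ⟨hx, fun h5 => ?_⟩
      rcases h.rot_sq h5 h2 with h6 | h6
      · exact h3 h6
      · exact h4 h6
    · rintro ⟨hx, h2⟩
      refine ⟨hx, ((h.refl_iff hx).1 h2).1, ?_, ?_, ?_⟩
      · rintro rfl; exact h2 (Subgroup.one_mem _)
      · rintro rfl; exact h2 h.J_rot
      · rw [h.J_inv, h.J_comm hx]; group
  simp only [h1]
  have h2 := sum_refl h hτ hτ2 (fun x => vInv O x ^ 2)
  rw [h2, pow_half hn, sum_range_even_odd _ _ (vInv O τ ^ 2) (vInv O (σ * τ) ^ 2)]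
  · intro j _
    have := vInv_even h hτ hτ2 (j : ℤ)
    rw [← this, ← hO]
    congr 3
    rw [← zpow_natCast]; push_cast; rfl
  · intro j _
    have := vInv_odd h hτ hτ2 (j : ℤ)
    rw [← this, ← hO]
    congr 3
    rw [← zpow_natCast]; push_cast; rfl

theorem card_TT'' {τ : G} (hτ : τ ∈ (P : Subgroup G)) (hτ2 : τ ∉ Subgroup.zpowers σ) :
    Nat.card (TT (centralizerPPrimeCore 2 (DihIn.J σ n)) σ) = 2 ^ (n - 2) * (2 * (vInv (centralizerPPrimeCore 2 (DihIn.J σ n)) τ *
      vInv (centralizerPPrimeCore 2 (DihIn.J σ n)) (σ * τ))) := by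
  classical
  have hn := h.hn
  set O := centralizerPPrimeCore 2 (DihIn.J σ n) with hO
  have h2 := sum_refl h hτ hτ2 (fun x => vInv O x * vInv O (x * σ))
  have hsw : τ * σ = σ⁻¹ * τ := by
    have h1 := ((h.refl_iff hτ).1 hτ2).2
    rw [← h1]; group
  rw [card_TT' h, h2, pow_half hn, two_mul (vInv O τ * vInv O (σ * τ)),
    sum_range_even_odd _ _ (vInv O τ * vInv O (σ * τ)) (vInv O τ * vInv O (σ * τ))]
  · intro j _
    have e1 := vInv_even h hτ hτ2 (j : ℤ)
    have e2 := vInv_odd h hτ hτ2 ((j : ℤ) - 1)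
    rw [← e1, ← e2, ← hO]
    congr 2
    · rw [← zpow_natCast]; push_cast; rfl
    · rw [mul_assoc, hsw, ← mul_assoc, ← zpow_natCast, ← zpow_neg_one, ← zpow_add]
      congr 2; push_cast; ring
  · intro j _
    have e1 := vInv_odd h hτ hτ2 (j : ℤ)
    have e2 := vInv_even h hτ hτ2 (j : ℤ)
    rw [mul_comm, ← e1, ← e2, ← hO]
    congr 2
    · rw [mul_assoc, hsw, ← mul_assoc, ← zpow_natCast, ← zpow_neg_one, ← zpow_add]
      congr 2; push_cast; ring
    · rw [← zpow_natCast]; push_cast; rfl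

theorem cent_pair {τ : G} (hτ : τ ∈ (P : Subgroup G)) (hτ2 : τ ∉ Subgroup.zpowers σ) :
    Nat.card (Subgroup.centralizer ({DihIn.J σ n, τ} : Set G)) =
      4 * Nat.card (centralizerPPrimeCore 2 (DihIn.J σ n) ⊓ Subgroup.centralizer ({τ} : Set G) : Subgroup G) := by
  classical
  haveI : Fact (Nat.Prime 2) := ⟨Nat.prime_two⟩
  set O := centralizerPPrimeCore 2 (DihIn.J σ n) with hO
  have hodd : Odd (Nat.card O) := odd_core _
  have hmem : ∀ g : G, g ∈ Subgroup.centralizer ({DihIn.J σ n, τ} : Set G) ↔ (g * DihIn.J σ n = DihIn.J σ n * g ∧ g * τ = τ * g) := by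
    intro g
    rw [Subgroup.mem_centralizer_iff]
    constructor
    · intro h1
      exact ⟨(h1 _ (Or.inl rfl)).symm, (h1 _ (Or.inr rfl)).symm⟩
    · rintro ⟨h1, h2⟩ x (rfl | hx)
      · exact h1.symm
      · rw [Set.mem_singleton_iff.1 hx]; exact h2.symm
  -- the P-part
  have h4 : Nat.card ((P : Subgroup G) ⊓ Subgroup.centralizer ({τ} : Set G) : Subgroup G) = 4 := by
    have hset : (((P : Subgroup G) ⊓ Subgroup.centralizer ({τ} : Set G) : Subgroup G) : Set G) =
        (({1, DihIn.J σ n, τ, DihIn.J σ n * τ} : Finset G) : Set G) := by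
      ext g
      simp only [SetLike.mem_coe, Finset.coe_insert, Finset.coe_singleton, Set.mem_insert_iff, Set.mem_singleton_iff,
        Subgroup.mem_inf, Subgroup.mem_centralizer_singleton_iff]
      constructor
      · rintro ⟨h1, h2⟩
        exact h.cent_refl hτ hτ2 h1 h2.symm
      · have e1 := h.J_comm hτ
        rintro (rfl | rfl | rfl | rfl)
        · exact ⟨Subgroup.one_mem _, by simp⟩
        · exact ⟨h.J_mem, e1.symm⟩
        · exact ⟨hτ, rfl⟩
        · refine ⟨(P : Subgroup G).mul_mem h.J_mem hτ, ?_⟩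
          calc DihIn.J σ n * τ * τ = DihIn.J σ n * τ * τ := rfl
            _ = τ * DihIn.J σ n * τ := by rw [e1]
            _ = τ * (DihIn.J σ n * τ) := by group
    obtain ⟨n1, n2, n3⟩ := h.J_mul_ne hτ2
    have hτ1 : τ ≠ 1 := by rintro rfl; exact hτ2 (Subgroup.one_mem _)
    have hτJ : τ ≠ DihIn.J σ n := by rintro rfl; exact hτ2 h.J_rot
    have h3 : ({1, DihIn.J σ n, τ, DihIn.J σ n * τ} : Finset G).card = 4 := by
      rw [Finset.card_insert_of_notMem, Finset.card_insert_of_notMem, Finset.card_insert_of_notMem,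
        Finset.card_singleton]
      · simpa using n3.symm
      · simp only [Finset.mem_insert, Finset.mem_singleton, not_or]
        exact ⟨hτJ.symm, n2.symm⟩
      · simp only [Finset.mem_insert, Finset.mem_singleton, not_or]
        exact ⟨h.J_ne.symm, hτ1.symm, n1.symm⟩
    have h5 : Nat.card (((P : Subgroup G) ⊓ Subgroup.centralizer ({τ} : Set G) : Subgroup G) : Set G) = 4 := by
      rw [hset, Nat.card_eq_fintype_card]
      simp only [Finset.coe_sort_coe, Fintype.card_coe]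
      exact h3
    exact h5
  rw [← h4]
  refine card_of_fac ?_ ?_ ?_ ?_
  · intro g hg
    obtain ⟨h1, h2⟩ := Subgroup.mem_inf.1 hg
    exact (hmem g).2 ⟨h.J_comm h1, Subgroup.mem_centralizer_singleton_iff.1 h2⟩
  · intro g hg
    obtain ⟨h1, h2⟩ := Subgroup.mem_inf.1 hg
    exact (hmem g).2 ⟨core_comm h1, Subgroup.mem_centralizer_singleton_iff.1 h2⟩
  · intro g hg hg2
    exact sylow_core_trivial P hodd (Subgroup.mem_inf.1 hg).1 (Subgroup.mem_inf.1 hg2).1
  · intro k hk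
    obtain ⟨hkJ, hkτ⟩ := (hmem k).1 hk
    obtain ⟨x, hx, y, hy, rfl⟩ := h.facP (Subgroup.mem_centralizer_singleton_iff.2 hkJ)
    have h1 : x⁻¹ * (τ * x * τ⁻¹) = y * (τ * y⁻¹ * τ⁻¹) := by
      calc x⁻¹ * (τ * x * τ⁻¹) = x⁻¹ * (τ * (x * y)) * y⁻¹ * τ⁻¹ := by group
        _ = x⁻¹ * (x * y * τ) * y⁻¹ * τ⁻¹ := by rw [hkτ]
        _ = _ := by group
    have h2 : x⁻¹ * (τ * x * τ⁻¹) = 1 := by
      refine sylow_core_trivial P hodd ?_ (h1 ▸ O.mul_mem hy (core_conj h (h.P_le hτ) (O.inv_mem hy)))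
      exact (P : Subgroup G).mul_mem ((P : Subgroup G).inv_mem hx) ((P : Subgroup G).mul_mem ((P : Subgroup G).mul_mem hτ hx)
        ((P : Subgroup G).inv_mem hτ))
    have h3 : x * τ = τ * x := by
      have := inv_mul_eq_one.1 h2
      calc x * τ = (τ * x * τ⁻¹) * τ := by rw [← this]
        _ = _ := by group
    have h5 : y * τ = τ * y := by
      have e1 : x * (y * τ) = x * (τ * y) := by
        calc x * (y * τ) = x * y * τ := by group
          _ = τ * (x * y) := hkτ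
          _ = (τ * x) * y := by group
          _ = x * (τ * y) := by rw [← h3]; group
      exact mul_left_cancel e1
    exact ⟨x, Subgroup.mem_inf.2 ⟨hx, Subgroup.mem_centralizer_singleton_iff.2 h3⟩, y,
      Subgroup.mem_inf.2 ⟨hy, Subgroup.mem_centralizer_singleton_iff.2 h5⟩, rfl⟩

/-- relation between the number of inverted elements and centralizer orders -/
theorem vInv_cent {τ : G} (hτ : τ ∈ (P : Subgroup G)) (hτ2 : τ ∉ Subgroup.zpowers σ) :
    vInv (centralizerPPrimeCore 2 (DihIn.J σ n)) τ * Nat.card (Subgroup.centralizer ({DihIn.J σ n, τ} : Set G)) =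
      4 * Nat.card (centralizerPPrimeCore 2 (DihIn.J σ n)) := by
  haveI : Fact (Nat.Prime 2) := ⟨Nat.prime_two⟩
  rw [cent_pair h hτ hτ2]
  have h1 := vInv_mul ((h.refl_iff hτ).1 hτ2).1 (centralizerPPrimeCore 2 (DihIn.J σ n))
    (fun y hy => core_conj h (h.P_le hτ) hy) (odd_core _)
  rw [← h1]; ring

end I

end CfsgH4
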