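import Cfsg.Agent.H4.DihI

/-!
# Order formula for one class of involutions, dihedral Sylow 2-subgroups: conclusion
-/

set_option autoImplicit false

open Cfsg MonoidAlgebra
open CfsgH4 hiding centralChar sum_conj regInner_symm
open CfsgH5 ComplexConjugate

namespace CfsgH4

section Idx

variable {n : ℕ} (hn : 3 ≤ n)

include hn

theorem sum_idx [NeZero (2 ^ (n - 1))] (F : ZMod (2 ^ (n - 1)) → ℂ) :
    ∑ j, F j = F 0 + F (hh n) + ∑ i, (F (jj n i) + F (- jj n i)) := by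
  classical
  have hinj1 : Function.Injective (jj n) := fun i k h => jj_inj hn h
  have hinj2 : Function.Injective (fun i => - jj n i) := fun i k h => jj_inj hn (neg_injective h)
  have h1 : (Finset.univ : Finset (ZMod (2 ^ (n - 1)))) =
      insert 0 (insert (hh n) (Finset.univ.image (jj n) ∪ Finset.univ.image (fun i => - jj n i))) := by
    ext j
    simp only [Finset.mem_univ, Finset.mem_insert, Finset.mem_union, Finset.mem_image, true_and, true_iff]
    by_cases hj : j = 0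
    · exact Or.inl hj
    · right
      rcases idx_cases hn hj with h2 | ⟨i, h2⟩ | ⟨i, h2⟩
      · exact Or.inl h2
      · exact Or.inr (Or.inl ⟨i, h2.symm⟩)
      · exact Or.inr (Or.inr ⟨i, h2.symm⟩)
  rw [h1, Finset.sum_insert, Finset.sum_insert, Finset.sum_union, Finset.sum_image (fun i _ k _ hik => hinj1 hik),
    Finset.sum_image (fun i _ k _ hik => hinj2 hik), ← Finset.sum_add_distrib, add_assoc]
  · rw [Finset.disjoint_left]
    intro x hx hx2
    simp only [Finset.mem_image, Finset.mem_univ, true_and] at hx hx2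
    obtain ⟨i, rfl⟩ := hx
    obtain ⟨k, hk⟩ := hx2
    exact jj_add_ne hn i k hk.symm
  · simp only [Finset.mem_union, Finset.mem_image, Finset.mem_univ, true_and, not_or, not_exists]
    refine ⟨fun i hi => jj_ne_hh hn i hi, fun i hi => jj_ne_hh hn i ?_⟩
    rw [← hh_neg hn, ← hi, neg_neg]
  · simp only [Finset.mem_insert, Finset.mem_union, Finset.mem_image, Finset.mem_univ, true_and, not_or, not_exists]
    exact ⟨(hh_ne_zero hn).symm, fun i hi => jj_ne_zero hn i hi, fun i hi => jj_ne_zero hn i (neg_eq_zero.1 hi)⟩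

theorem hh_mul_hh : hh n * hh n = 0 := by
  unfold hh
  rw [← Nat.cast_mul, ZMod.natCast_eq_zero_iff, ← pow_add]
  exact Nat.pow_dvd_pow 2 (by omega)

end Idx

section K

variable {G : Type*} [Group G] [Fintype G] {M : Ideal AlgInt} {P : Sylow 2 G} {σ : G} {n : ℕ}

theorem dih_order (hM : IsPModular 2 M) (h : DihIn (P : Subgroup G) σ n) {τ : G} (hτ : τ ∈ (P : Subgroup G))
    (hτ2 : τ ∉ Subgroup.zpowers σ) (hJτ : IsConj (DihIn.J σ n) τ) (hJσ : IsConj (DihIn.J σ n) (σ * τ))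
    {χ₁ : IrrCharacter G} (hχ₁ : χ₁ ∈ principalBlock M G) (h1 : χ₁ ≠ irrOne G) {δ : ℤ} (hδ : δ = 1 ∨ δ = -1)
    (hval : ∀ l : ℕ, 0 < l → l < 2 ^ (n - 1) → (χ₁ : G → ℂ) (σ ^ l) = δ) :
    (charDegree (χ₁ : G → ℂ) : ℤ) ≠ δ ∧
    (Nat.card G : ℂ) * ((charDegree (χ₁ : G → ℂ) : ℂ) - δ) ^ 2 =
      2 * (charDegree (χ₁ : G → ℂ) : ℂ) * ((charDegree (χ₁ : G → ℂ) : ℂ) + δ) *
      (Nat.card (Subgroup.centralizer ({DihIn.J σ n} : Set G)) : ℂ) ^ 3 *
      (1 / (Nat.card (Subgroup.centralizer ({DihIn.J σ n, τ} : Set G)) : ℂ) +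
        1 / (Nat.card (Subgroup.centralizer ({DihIn.J σ n, σ * τ} : Set G)) : ℂ)) ^ 2 := by
  classical
  haveI : Fact (Nat.Prime 2) := ⟨Nat.prime_two⟩
  haveI : M.IsPrime := hM.2.1.isPrime
  haveI : NeZero (2 ^ (n - 1)) := ⟨by positivity⟩
  have hn := h.hn
  have hph := pow_half hn
  have h2n : 0 < 2 ^ (n - 2) := by positivity
  -- the additive character
  obtain ⟨ζ, hζ⟩ : ∃ ζ : ℂ, IsPrimitiveRoot ζ (2 ^ (n - 1)) := ⟨_, Complex.isPrimitiveRoot_exp _ (NeZero.ne _)⟩
  have he := AddChar.zmodChar_primitive_of_primitive_root (2 ^ (n - 1)) hζ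
  set ε : AddChar (ZMod (2 ^ (n - 1))) ℂ := AddChar.zmodChar (2 ^ (n - 1)) ((IsPrimitiveRoot.iff_def ζ (2 ^ (n - 1))).mp hζ).left with hε
  have hεn : ∀ k : ℕ, ε (k : ZMod (2 ^ (n - 1))) = ζ ^ k := fun k => AddChar.zmodChar_apply' _ k
  have hεh : ε (hh n) = -1 := by
    unfold hh
    rw [hεn]
    have h2 : ζ ^ (2 ^ (n - 2)) * ζ ^ (2 ^ (n - 2)) = 1 := by
      rw [← pow_add, ← two_mul, ← hph, hζ.pow_eq_one]
    rcases mul_self_eq_one_iff.1 h2 with h2 | h2
    · exfalso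
      have h3 := (hζ.pow_eq_one_iff_dvd _).1 h2
      have h5 := Nat.le_of_dvd h2n h3
      omega
    · exact h2
  obtain ⟨a, b, c, f, v, ha, hb, hc, hf, hfinj, hao, hbo, hco, hab, hac, hbc, hfne, hva, hvb, hvc, hvals, hreg, hall⟩ :=
    dih_main hM h he
  have hhne := hh_ne_zero hn
  have h1ne : (1 : ZMod (2 ^ (n - 1))) ≠ 0 := by
    have := cast_zero hn (a := 1) (by norm_num) (by omega)
    simpa using this
  have hrJ : rot h (hh n) = DihIn.J σ n := by unfold hh; rw [rot_nat]; rfl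
  have hrσ : rot h 1 = σ := by
    have := rot_nat h 1
    rw [pow_one, Nat.cast_one] at this
    exact this
  obtain ⟨aJ, bJ, cJ, fJ⟩ := hvals _ hhne
  obtain ⟨aσ, bσ, cσ, fσ⟩ := hvals _ h1ne
  rw [hrJ] at aJ bJ cJ
  rw [hrσ] at aσ bσ cσ
  simp only [hrJ] at fJ
  simp only [hrσ, mul_one] at fσ bσ cσ
  rw [hh_mul_hh hn, AddChar.map_zero_eq_one, mul_one] at bJ cJ
  rw [hεh] at bσ cσ
  -- identify χ₁
  have hδC : (δ : ℂ) * δ = 1 := by rcases hδ with rfl | rfl <;> norm_num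
  have hJval : (χ₁ : G → ℂ) (DihIn.J σ n) = δ := hval _ h2n (by omega)
  have hσval : (χ₁ : G → ℂ) σ = δ := by have := hval 1 (by norm_num) (by omega); rwa [pow_one] at this
  have hεj : ∀ i, ε (jj n i * hh n) = 1 ∨ ε (jj n i * hh n) = -1 := by
    intro i
    have h6 : ε (jj n i * hh n) * ε (jj n i * hh n) = 1 := by
      rw [← AddChar.map_add_eq_mul]
      have : jj n i * hh n + jj n i * hh n = 0 := by
        have h7 := hh_neg hn
        rw [← mul_add]
        have h8 : hh n + hh n = 0 := by nth_rewrite 1 [← h7]; ring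
        rw [h8, mul_zero]
      rw [this, AddChar.map_zero_eq_one]
    exact mul_self_eq_one_iff.1 h6
  have hεj' : ∀ i, ε (-(jj n i * hh n)) = ε (jj n i * hh n) := by
    intro i
    have : -(jj n i * hh n) = jj n i * hh n := by
      rw [← mul_neg, hh_neg hn]
    rw [this]
  have hδ0 : (δ : ℂ) ≠ 0 := by rcases hδ with rfl | rfl <;> norm_num
  have hχa : χ₁ = a := by
    rcases hall χ₁ hχ₁ with h2 | h2 | h2 | h2 | ⟨i, h2⟩
    · exact absurd h2 h1
    · exact h2
    · exfalso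
      rw [h2] at hJval hσval
      rw [bJ] at hJval
      rw [bσ] at hσval
      apply hδ0
      have : (2 : ℂ) * δ = 0 := by linear_combination -hJval - hσval
      simpa using this
    · exfalso
      rw [h2] at hJval hσval
      rw [cJ] at hJval
      rw [cσ] at hσval
      apply hδ0
      have : (2 : ℂ) * δ = 0 := by linear_combination -hJval - hσval
      simpa using this
    · exfalso
      rw [h2, fJ, hεj'] at hJval
      rcases hεj i with h3 | h3 <;> rcases hva with h4 | h4 <;> rcases hδ with h5 | h5 <;> rw [h3, h4, h5] at hJval <;>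
        norm_num at hJval
  subst hχa
  have hvδ : v χ₁ = δ := by
    have : (v χ₁ : ℂ) = δ := by rw [← aJ, hJval]
    exact_mod_cast this
  -- degrees
  set x := (charDegree (χ₁ : G → ℂ) : ℂ) with hx
  have hx0 : x ≠ 0 := by rw [hx]; exact_mod_cast (deg_pos χ₁).ne'
  have hfdeg : ∀ i, (f i : G → ℂ) 1 = x + δ := by
    intro i
    have h2 := (hreg 1 (by rw [orderOf_one]; norm_num)).2 i
    rw [hvδ, deg_eq χ₁, ← hx] at h2
    have h3 : (δ : ℂ) * (1 + δ * x - δ * (f i : G → ℂ) 1) = δ * 0 := by rw [h2]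
    linear_combination (x - (f i : G → ℂ) 1) * hδC - h3 + 0 * hδC
  have hNpos : 0 < 2 ^ (n - 2) - 1 := by
    have := DihIn.two_pow' h
    have h3 : 0 < 2 ^ (n - 3) := by positivity
    omega
  have hxδ : x + δ ≠ 0 := by
    rw [← hfdeg ⟨0, hNpos⟩, deg_eq]
    exact_mod_cast (deg_pos _).ne'
  -- the class of involutions
  have hone : ∀ s : G, s * s = 1 → s ≠ 1 → IsConj (DihIn.J σ n) s := by
    intro s hs hs1
    obtain ⟨g, hg⟩ := CfsgH3.exists_conj_mem_sylow2 P (t := s) (k := 1) (by rw [pow_one, pow_two, hs])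
    have hsg : IsConj (g * s * g⁻¹) s := (isConj_iff.2 ⟨g, rfl⟩ : IsConj s (g * s * g⁻¹)).symm
    refine IsConj.trans ?_ hsg
    set w := g * s * g⁻¹ with hw
    have hww : w * w = 1 := by
      calc w * w = g * (s * s) * g⁻¹ := by rw [hw]; group
        _ = 1 := by rw [hs]; group
    have hw1 : w ≠ 1 := by
      intro h2
      rw [h2] at hsg
      exact hs1 (isConj_one_right.1 hsg)
    by_cases hw2 : w ∈ Subgroup.zpowers σ
    · rw [(h.rot_sq hw2 hww).resolve_left hw1]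
    · have h2 := h.refl_mul_refl hg hw2 hτ hτ2
      obtain ⟨k, hk⟩ := Subgroup.mem_zpowers_iff.1 h2
      have hττ := ((h.refl_iff hτ).1 hτ2).1
      have hwk : w = σ ^ k * τ := by rw [hk, mul_assoc, hττ, mul_one]
      have hsw : ∀ j : ℤ, τ * (σ ^ j)⁻¹ = σ ^ j * τ := by
        intro j
        have h3 := h.refl_zpow hτ hτ2 (-j)
        rw [zpow_neg, inv_inv] at h3
        calc τ * (σ ^ j)⁻¹ = (τ * (σ ^ j)⁻¹ * τ⁻¹) * τ := by group
          _ = _ := by rw [h3]
      rcases Int.even_or_odd k with ⟨j, hj⟩ | ⟨j, hj⟩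
      · refine hJτ.trans (isConj_iff.2 ⟨σ ^ j, ?_⟩)
        rw [mul_assoc, hsw, ← mul_assoc, ← zpow_add, ← hj, ← hwk]
      · refine hJσ.trans (isConj_iff.2 ⟨σ ^ j, ?_⟩)
        calc σ ^ j * (σ * τ) * (σ ^ j)⁻¹ = σ ^ j * σ * (τ * (σ ^ j)⁻¹) := by group
          _ = σ ^ j * σ * (σ ^ j * τ) := by rw [hsw]
          _ = σ ^ (2 * j + 1) * τ := by group
          _ = w := by rw [← hj, ← hwk]
  -- order formulas
  have hσ1 : σ ≠ 1 := by rintro rfl; exact h.sig_ne (by simp)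
  have hσJ : σ ≠ DihIn.J σ n := by
    intro h2
    have h3 := h.JJ
    rw [← h2] at h3
    exact h.sig_ne (inv_eq_of_mul_eq_one_left h3).symm
  have f1 := order_formula hM h.JJ h.J_ne hone (two_elt h.J_mem) h.npcJ
  have f2 := order_formula hM h.JJ h.J_ne hone (two_elt h.mem) (h.npc_rot (Subgroup.mem_zpowers σ) hσ1)
  have g1 := card_cent_core h.npcJ
  have g2 := card_cent_core (h.npc_rot (Subgroup.mem_zpowers σ) hσ1)
  rw [h.fac_J] at f1 g1
  rw [h.fac_rot (Subgroup.mem_zpowers σ) hσ1 hσJ] at f2 g2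
  have g3 := card_TT h
  have g4 := card_TT'' h hτ hτ2
  have g5 := invPairs_J h hτ hτ2
  have hστ2 : σ * τ ∉ Subgroup.zpowers σ := by
    intro h1
    apply hτ2
    have := Subgroup.mul_mem _ (Subgroup.inv_mem _ (Subgroup.mem_zpowers σ)) h1
    simpa using this
  have g6 := vInv_cent h hτ hτ2
  have g7 := vInv_cent h ((P : Subgroup G).mul_mem h.mem hτ) hστ2
  -- character sums
  have hsumB : ∀ F : IrrCharacter G → ℂ, ∑ ζ : IrrCharacter G, (if ζ ∈ principalBlock M G then F ζ else 0) =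
      F (irrOne G) + F χ₁ + F b + F c + ∑ i, F (f i) := by
    intro F
    rw [← Finset.sum_filter]
    have hTT : (Finset.univ.filter fun χ : IrrCharacter G => χ ∈ principalBlock M G) =
        ({irrOne G, χ₁, b, c} : Finset (IrrCharacter G)) ∪ Finset.univ.image f := by
      ext χ
      simp only [Finset.mem_filter, Finset.mem_univ, true_and, Finset.mem_union, Finset.mem_insert, Finset.mem_singleton,
        Finset.mem_image]
      constructor
      · intro h1
        rcases hall χ h1 with h2 | h2 | h2 | h2 | ⟨i, h2⟩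
        · exact Or.inl (Or.inl h2)
        · exact Or.inl (Or.inr (Or.inl h2))
        · exact Or.inl (Or.inr (Or.inr (Or.inl h2)))
        · exact Or.inl (Or.inr (Or.inr (Or.inr h2)))
        · exact Or.inr ⟨i, h2.symm⟩
      · rintro ((rfl | rfl | rfl | rfl) | ⟨i, rfl⟩)
        · exact irrOne_mem
        · exact ha
        · exact hb
        · exact hc
        · exact hf i
    rw [hTT, Finset.sum_union, Finset.sum_insert (by simp [hao.symm, hbo.symm, hco.symm]),
      Finset.sum_insert (by simp [hab, hac]), Finset.sum_insert (by simp [hbc]), Finset.sum_singleton,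
      Finset.sum_image (fun i _ k _ hik => hfinj hik)]
    · ring
    · rw [Finset.disjoint_left]
      intro χ h3 h4
      simp only [Finset.mem_image, Finset.mem_univ, true_and] at h4
      obtain ⟨i, rfl⟩ := h4
      simp only [Finset.mem_insert, Finset.mem_singleton] at h3
      rcases h3 with h3 | h3 | h3 | h3
      · exact (hfne i).1 h3
      · exact (hfne i).2.1 h3
      · exact (hfne i).2.2.1 h3
      · exact (hfne i).2.2.2 h3
  set AJ := ∑ ζ : IrrCharacter G, (if ζ ∈ principalBlock M G then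
        (ζ : G → ℂ) (DihIn.J σ n) * conj ((ζ : G → ℂ) (DihIn.J σ n) * (ζ : G → ℂ) (DihIn.J σ n)) / (ζ : G → ℂ) 1 else 0) with hAJ
  set Aσ := ∑ ζ : IrrCharacter G, (if ζ ∈ principalBlock M G then
        (ζ : G → ℂ) σ * conj ((ζ : G → ℂ) (DihIn.J σ n) * (ζ : G → ℂ) (DihIn.J σ n)) / (ζ : G → ℂ) 1 else 0) with hAσ
  have hA : AJ + Aσ = 2 * (x - δ) ^ 2 / (x * (x + δ)) := by
    rw [hAJ, hAσ, hsumB, hsumB]
    have ho : ∀ g : G, ((irrOne G : IrrCharacter G) : G → ℂ) g = 1 := fun _ => rfl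
    have hb2 : (v b : ℂ) * v b = 1 := by rcases hvb with h2 | h2 <;> rw [h2] <;> norm_num
    have hc2 : (v c : ℂ) * v c = 1 := by rcases hvc with h2 | h2 <;> rw [h2] <;> norm_num
    have hfs : ∀ i, (f i : G → ℂ) (DihIn.J σ n) * conj ((f i : G → ℂ) (DihIn.J σ n) * (f i : G → ℂ) (DihIn.J σ n)) / (f i : G → ℂ) 1 +
        (f i : G → ℂ) σ * conj ((f i : G → ℂ) (DihIn.J σ n) * (f i : G → ℂ) (DihIn.J σ n)) / (f i : G → ℂ) 1 =
        4 * δ / (x + δ) * (2 * ε (jj n i * hh n) + (ε (jj n i) + ε (-jj n i))) := by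
      intro i
      have e1 : (f i : G → ℂ) (DihIn.J σ n) * (f i : G → ℂ) (DihIn.J σ n) = 4 := by
        rw [fJ, hεj', hvδ]
        rcases hεj i with h3 | h3 <;> rw [h3] <;> linear_combination 4 * hδC
      rw [e1, hfdeg i, fJ, fσ, hεj', hvδ]
      have e2 : conj (4 : ℂ) = 4 := by
        have := Complex.conj_natCast 4
        simpa using this
      rw [e2]
      ring
    have hs1 : ∑ i, (ε (jj n i) + ε (-jj n i)) = 0 := by
      have h2 := sum_idx hn (fun j => ε j)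
      have h3 := sum_e he (1 : ZMod (2 ^ (n - 1)))
      rw [if_neg h1ne] at h3
      simp only [one_mul] at h3
      rw [h3, hεh, AddChar.map_zero_eq_one] at h2
      linear_combination -h2
    have hs2 : ∑ i, 2 * ε (jj n i * hh n) = -2 := by
      have h2 := sum_idx hn (fun j => ε (hh n * j))
      have h3 := sum_e he (hh n)
      rw [if_neg hhne] at h3
      rw [h3, hh_mul_hh hn, mul_zero, AddChar.map_zero_eq_one] at h2
      have h4 : ∀ i, ε (hh n * jj n i) + ε (hh n * -jj n i) = 2 * ε (jj n i * hh n) := by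
        intro i
        have e1 : hh n * jj n i = jj n i * hh n := mul_comm _ _
        have e2 : hh n * -jj n i = jj n i * hh n := by rw [mul_neg, ← neg_mul, hh_neg hn, mul_comm]
        rw [e1, e2]; ring
      rw [Finset.sum_congr rfl fun i _ => h4 i] at h2
      linear_combination -h2
    have hfsum : ∑ i, (f i : G → ℂ) (DihIn.J σ n) * conj ((f i : G → ℂ) (DihIn.J σ n) * (f i : G → ℂ) (DihIn.J σ n)) / (f i : G → ℂ) 1 +
        ∑ i, (f i : G → ℂ) σ * conj ((f i : G → ℂ) (DihIn.J σ n) * (f i : G → ℂ) (DihIn.J σ n)) / (f i : G → ℂ) 1 = - 8 * δ / (x + δ) := by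
      rw [← Finset.sum_add_distrib, Finset.sum_congr rfl fun i _ => hfs i, ← Finset.mul_sum, Finset.sum_add_distrib, hs1, hs2]
      ring
    simp only [ho, hJval, hσval, bJ, bσ, cJ, cσ, deg_eq χ₁, ← hx]
    have hcj : ∀ k : ℤ, conj (k : ℂ) = k := fun k => map_intCast _ k
    simp only [map_mul, map_neg, hcj, map_one]
    have e3 : ∀ p q r s t p' q' r' s' t' : ℂ, p + q + r + s + t + (p' + q' + r' + s' + t') =
        (p + p') + (q + q') + (r + r') + (s + s') + (t + t') := by intros; ring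
    rw [e3]
    simp only [map_mul] at hfsum
    rw [hfsum]
    field_simp
    linear_combination (2 * δ * (x + δ)) * hδC
  -- conclusion
  set c₀ := (Nat.card (Subgroup.centralizer ({DihIn.J σ n} : Set G)) : ℂ) with hc₀
  set o := (Nat.card (centralizerPPrimeCore 2 (DihIn.J σ n)) : ℂ) with ho
  set oσ := (Nat.card (centralizerPPrimeCore 2 σ) : ℂ) with hoσ
  set cσ' := (Nat.card (Subgroup.centralizer ({σ} : Set G)) : ℂ) with hcσ'
  set gG := (Nat.card G : ℂ) with hgG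
  set NJ := (Nat.card (InvPairs (DihIn.J σ n)) : ℂ) with hNJ
  set Nσ := (Nat.card (InvPairs σ) : ℂ) with hNσ
  set tt := (Nat.card (TT (centralizerPPrimeCore 2 (DihIn.J σ n)) σ) : ℂ) with htt
  set A := (vInv (centralizerPPrimeCore 2 (DihIn.J σ n)) τ : ℂ) with hAd
  set B := (vInv (centralizerPPrimeCore 2 (DihIn.J σ n)) (σ * τ) : ℂ) with hBd
  set c1 := (Nat.card (Subgroup.centralizer ({DihIn.J σ n, τ} : Set G)) : ℂ) with hc1
  set c2 := (Nat.card (Subgroup.centralizer ({DihIn.J σ n, σ * τ} : Set G)) : ℂ) with hc2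
  set q := (2 : ℂ) ^ (n - 2) with hq
  have hq0 : q ≠ 0 := pow_ne_zero _ two_ne_zero
  have hc₀0 : c₀ ≠ 0 := by rw [hc₀]; exact_mod_cast Nat.card_pos.ne'
  have ho0 : o ≠ 0 := by rw [ho]; exact_mod_cast Nat.card_pos.ne'
  have hoσ0 : oσ ≠ 0 := by rw [hoσ]; exact_mod_cast Nat.card_pos.ne'
  have hcσ0 : cσ' ≠ 0 := by rw [hcσ']; exact_mod_cast Nat.card_pos.ne'
  have hgG0 : gG ≠ 0 := by rw [hgG]; exact_mod_cast Nat.card_pos.ne'
  have hc10 : c1 ≠ 0 := by rw [hc1]; exact_mod_cast Nat.card_pos.ne'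
  have hc20 : c2 ≠ 0 := by rw [hc2]; exact_mod_cast Nat.card_pos.ne'
  have p1 : ((2 ^ n : ℕ) : ℂ) = 4 * q := by
    have : 2 ^ n = 4 * 2 ^ (n - 2) := by
      have h2 : n = (n - 2) + 2 := by omega
      nth_rewrite 1 [h2]; rw [pow_add]; ring
    rw [this]; push_cast; rfl
  have p2 : ((2 ^ (n - 1) : ℕ) : ℂ) = 2 * q := by rw [hph]; push_cast; rfl
  have G1 : c₀ = o * (4 * q) := by rw [← p1, hc₀, ho]; exact_mod_cast g1
  have G2 : cσ' = oσ * (2 * q) := by rw [← p2, hcσ', hoσ]; exact_mod_cast g2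
  have G3 : tt * oσ = o * Nσ := by rw [htt, hoσ, ho, hNσ]; exact_mod_cast g3
  have G4 : tt = q * (2 * (A * B)) := by rw [htt, hAd, hBd, hq]; exact_mod_cast g4
  have G5 : NJ = q * (A ^ 2 + B ^ 2) := by rw [hNJ, hAd, hBd, hq]; exact_mod_cast g5
  have G6 : A * c1 = 4 * o := by rw [hAd, hc1, ho]; exact_mod_cast g6
  have G7 : B * c2 = 4 * o := by rw [hBd, hc2, ho]; exact_mod_cast g7
  rw [p1] at f1
  rw [p2] at f2
  -- c₀² NJ = gG o AJ
  have e1 : c₀ ^ 2 * NJ = gG * o * AJ := by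
    apply mul_left_cancel₀ (mul_ne_zero (by norm_num : (4 : ℂ) ≠ 0) hq0)
    rw [f1, G1]; ring
  have e2 : c₀ ^ 2 * tt = gG * o * Aσ := by
    have e3 : c₀ ^ 2 * Nσ = gG * oσ * Aσ := by
      apply mul_left_cancel₀ (mul_ne_zero (by norm_num : (2 : ℂ) ≠ 0) hq0)
      rw [f2, G2]; ring
    apply mul_right_cancel₀ hoσ0
    calc c₀ ^ 2 * tt * oσ = c₀ ^ 2 * (tt * oσ) := by ring
      _ = o * (c₀ ^ 2 * Nσ) := by rw [G3]; ring
      _ = _ := by rw [e3]; ring
  have e4 : c₀ ^ 2 * (q * (A + B) ^ 2) = gG * o * (2 * (x - δ) ^ 2 / (x * (x + δ))) := by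
    rw [← hA, mul_add, ← e1, ← e2, G4, G5]; ring
  have hA' : A = 4 * o / c1 := by rw [eq_div_iff hc10, G6]
  have hB' : B = 4 * o / c2 := by rw [eq_div_iff hc20, G7]
  have e5 : (A + B) ^ 2 = 16 * o ^ 2 * (1 / c1 + 1 / c2) ^ 2 := by rw [hA', hB']; ring
  rw [e5] at e4
  have e6 : gG * (x - δ) ^ 2 = 2 * x * (x + δ) * c₀ ^ 3 * (1 / c1 + 1 / c2) ^ 2 := by
    have e7 : c₀ ^ 2 * (q * (16 * o ^ 2 * (1 / c1 + 1 / c2) ^ 2)) = 4 * o * c₀ ^ 3 * (1 / c1 + 1 / c2) ^ 2 := by
      have : c₀ ^ 3 = c₀ ^ 2 * (o * (4 * q)) := by rw [pow_succ, ← G1]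
      rw [this]; ring
    rw [e7] at e4
    have e8 : 4 * o * c₀ ^ 3 * (1 / c1 + 1 / c2) ^ 2 * (x * (x + δ)) = gG * o * (2 * (x - δ) ^ 2) := by
      rw [e4]
      field_simp
    apply mul_left_cancel₀ (mul_ne_zero (by norm_num : (2 : ℂ) ≠ 0) ho0)
    linear_combination -e8
  refine ⟨?_, e6⟩
  intro hxd
  have hxd' : x = δ := by rw [hx]; exact_mod_cast hxd
  rw [hxd', sub_self] at e6
  have hsum : (1 / c1 + 1 / c2) ≠ 0 := by
    have e9 : (1 / c1 + 1 / c2) = ((1 / (Nat.card (Subgroup.centralizer ({DihIn.J σ n, τ} : Set G)) : ℝ) +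
        1 / (Nat.card (Subgroup.centralizer ({DihIn.J σ n, σ * τ} : Set G)) : ℝ) : ℝ) : ℂ) := by
      rw [hc1, hc2]; push_cast; rfl
    rw [e9]
    have q1 : (0 : ℝ) < Nat.card (Subgroup.centralizer ({DihIn.J σ n, τ} : Set G)) := by exact_mod_cast Nat.card_pos
    have q2 : (0 : ℝ) < Nat.card (Subgroup.centralizer ({DihIn.J σ n, σ * τ} : Set G)) := by exact_mod_cast Nat.card_pos
    have : (0 : ℝ) < 1 / (Nat.card (Subgroup.centralizer ({DihIn.J σ n, τ} : Set G)) : ℝ) +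
        1 / (Nat.card (Subgroup.centralizer ({DihIn.J σ n, σ * τ} : Set G)) : ℝ) := by positivity
    exact_mod_cast this.ne'
  have h9 : (2 : ℂ) * δ * (δ + δ) * c₀ ^ 3 * (1 / c1 + 1 / c2) ^ 2 ≠ 0 := by
    refine mul_ne_zero (mul_ne_zero (mul_ne_zero (mul_ne_zero two_ne_zero hδ0) ?_) (pow_ne_zero 3 hc₀0)) (pow_ne_zero 2 hsum)
    rw [← two_mul]; exact mul_ne_zero two_ne_zero hδ0
  apply h9
  rw [← e6]; ring

end K

end CfsgH4
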