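import Cfsg.Agent.H4.Perms
import Cfsg.Agent.H4.Odd

/-!
# Frobenius–Schur indicator of real characters of odd degree
-/

set_option autoImplicit false
open scoped ComplexConjugate
open Cfsg

namespace CfsgH4

variable {G : Type*} [Group G] [Fintype G]

/-- the invariant bilinear form of a real irreducible character -/
theorem fs_matrix {n : ℕ} (ρ : Representation ℂ G (Fin n → ℂ)) (hρ : ρ.IsIrreducible)
    (hreal : ∀ s : G, (ρ.character s).im = 0) :
    ∃ A : Matrix (Fin n) (Fin n) ℂ, A ≠ 0 ∧ A.transpose = fs ρ.character • A ∧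
      ∀ g, bilRep ρ g A = A := by
  classical
  have hχ0 := isIrrCharacter_of_rep ρ hρ
  haveI : Invertible (Nat.card G : ℂ) := invertibleOfNonzero (card_ne_zero G)
  haveI : Invertible (Fintype.card G : ℂ) := by
    rw [Fintype.card_eq_nat_card]; infer_instance
  set σ := bilRep ρ with hσ
  set P := Representation.averageMap σ with hP
  have hproj := Representation.isProj_averageMap σ
  set W := Representation.invariants σ with hW
  have hPdef : P = (Nat.card G : ℂ)⁻¹ • ∑ g : G, σ g := by
    rw [hP]
    apply LinearMap.ext; intro x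
    simp [Representation.averageMap, GroupAlgebra.average, Representation.asAlgebraHom_of,
      Nat.card_eq_fintype_card]
  have hdim : (Module.finrank ℂ W : ℂ) =
      classInner ρ.character (fun g => conj (ρ.character g)) := by
    have h1 := Representation.card_inv_mul_sum_char_eq_finrank σ
    rw [hW, ← h1, classInner_def]
    congr 1
    refine Finset.sum_congr rfl fun g _ => ?_
    rw [bilRep_character, Complex.conj_conj]
  have hfs : fs ρ.character = LinearMap.trace ℂ _
      ((Matrix.transposeLinearEquiv (Fin n) (Fin n) ℂ ℂ).toLinearMap ∘ₗ P) := by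
    rw [hPdef]
    have h1 : (Matrix.transposeLinearEquiv (Fin n) (Fin n) ℂ ℂ).toLinearMap ∘ₗ
        ((Nat.card G : ℂ)⁻¹ • ∑ g : G, σ g) = (Nat.card G : ℂ)⁻¹ • ∑ g : G,
        (Matrix.transposeLinearEquiv (Fin n) (Fin n) ℂ ℂ).toLinearMap ∘ₗ σ g := by
      apply LinearMap.ext; intro x
      simp
    rw [h1, map_smul, map_sum, smul_eq_mul, fs]
    congr 1
    exact Finset.sum_congr rfl fun g _ => (trace_transpose_bilRep ρ g).symm
  rw [classInner_irr hχ0 (isIrrCharacter_conj hχ0)] at hdim
  have hreal' : ρ.character = fun g => conj (ρ.character g) := by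
    ext g; exact (Complex.conj_eq_iff_im.2 (hreal g)).symm
  rw [if_pos hreal'] at hdim
  have hd1 : Module.finrank ℂ W = 1 := by exact_mod_cast hdim
  obtain ⟨A, hA0, hA⟩ := finrank_eq_one_iff'.1 hd1
  have hTA : ∃ ε : ℂ, (A : Matrix (Fin n) (Fin n) ℂ).transpose = ε • (A : Matrix _ _ ℂ) := by
    have hmem : (A : Matrix (Fin n) (Fin n) ℂ).transpose ∈ W := by
      refine (Representation.mem_invariants σ _).2 ?_
      intro g
      have h2 := (Representation.mem_invariants σ _).1 A.2 g
      rw [hσ, bilRep_apply] at h2 ⊢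
      have h3 := congrArg Matrix.transpose h2
      refine Eq.trans ?_ h3
      simp [Matrix.transpose_mul, mul_assoc]
    obtain ⟨c, hc⟩ := hA ⟨_, hmem⟩
    exact ⟨c, (congrArg Subtype.val hc).symm⟩
  obtain ⟨ε, hε⟩ := hTA
  have hA0' : (A : Matrix (Fin n) (Fin n) ℂ) ≠ 0 := fun h => hA0 (Subtype.ext h)
  have hTP : (Matrix.transposeLinearEquiv (Fin n) (Fin n) ℂ ℂ).toLinearMap ∘ₗ P = ε • P := by
    apply LinearMap.ext; intro X
    have h2 : P X ∈ W := hproj.map_mem X
    obtain ⟨c, hc⟩ := hA ⟨_, h2⟩
    have h3 : P X = c • (A : Matrix (Fin n) (Fin n) ℂ) := (congrArg Subtype.val hc).symm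
    show (P X).transpose = ε • P X
    rw [h3, Matrix.transpose_smul, hε, smul_comm]
  have htrP : LinearMap.trace ℂ _ P = 1 := by
    rw [hproj.trace, hd1]; simp
  have hfe : fs ρ.character = ε := by
    rw [hfs, hTP, map_smul, htrP, smul_eq_mul, mul_one]
  refine ⟨A, hA0', by rw [hfe]; exact hε, fun g => ?_⟩
  exact (Representation.mem_invariants σ _).1 A.2 g

/-- a nonzero invariant form of an irreducible representation is nondegenerate -/
theorem det_ne_zero_of_invariant {n : ℕ} (ρ : Representation ℂ G (Fin n → ℂ))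
    (hρ : ρ.IsIrreducible) {A : Matrix (Fin n) (Fin n) ℂ} (hA0 : A ≠ 0)
    (hA : ∀ g, bilRep ρ g A = A) : A.det ≠ 0 := by
  classical
  haveI := hρ
  -- the range of A is invariant
  let R : Subrepresentation ρ :=
    { toSubmodule := LinearMap.range (Matrix.mulVecLin A)
      apply_mem_toSubmodule := by
        rintro g _ ⟨w, rfl⟩
        have h1 := hA g
        rw [bilRep_apply] at h1
        refine ⟨(LinearMap.toMatrix' (ρ g⁻¹)).transpose.mulVec w, ?_⟩
        rw [Matrix.mulVecLin_apply, Matrix.mulVecLin_apply]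
        have h2 : ρ g (A.mulVec w) = (LinearMap.toMatrix' (ρ g)).mulVec (A.mulVec w) := by
          rw [LinearMap.toMatrix'_mulVec]
        rw [h2]
        have h3 : (LinearMap.toMatrix' (ρ g)).transpose * (LinearMap.toMatrix' (ρ g⁻¹)).transpose = 1 := by
          rw [← Matrix.transpose_mul, ← LinearMap.toMatrix'_mul, ← map_mul, inv_mul_cancel, map_one]
          show (LinearMap.toMatrix' (LinearMap.id)).transpose = 1
          rw [LinearMap.toMatrix'_id, Matrix.transpose_one]
        have h4 : LinearMap.toMatrix' (ρ g) * A = A * (LinearMap.toMatrix' (ρ g⁻¹)).transpose := by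
          calc LinearMap.toMatrix' (ρ g) * A = LinearMap.toMatrix' (ρ g) * A *
              ((LinearMap.toMatrix' (ρ g)).transpose * (LinearMap.toMatrix' (ρ g⁻¹)).transpose) := by
                rw [h3, mul_one]
            _ = (LinearMap.toMatrix' (ρ g) * A * (LinearMap.toMatrix' (ρ g)).transpose) *
                (LinearMap.toMatrix' (ρ g⁻¹)).transpose := by rw [← mul_assoc]
            _ = _ := by rw [h1]
        rw [Matrix.mulVec_mulVec, Matrix.mulVec_mulVec, h4] }
  have hRne : R ≠ ⊥ := by
    intro h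
    apply hA0
    have h1 : LinearMap.range (Matrix.mulVecLin A) = ⊥ := congrArg Subrepresentation.toSubmodule h
    have h2 : Matrix.mulVecLin A = 0 := LinearMap.range_eq_bot.1 h1
    ext i j
    have h3 := congrFun (LinearMap.congr_fun h2 (Pi.single j 1)) i
    simpa using h3
  have hRtop : R = ⊤ := (eq_bot_or_eq_top R).resolve_left hRne
  have h1 : LinearMap.range (Matrix.mulVecLin A) = ⊤ := congrArg Subrepresentation.toSubmodule hRtop
  intro hdet
  have h2 := Matrix.exists_mulVec_eq_zero_iff.2 hdet
  obtain ⟨v, hv0, hv⟩ := h2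
  have h3 : Function.Injective (Matrix.mulVecLin A) :=
    LinearMap.injective_iff_surjective.2 (LinearMap.range_eq_top.1 h1)
  exact hv0 (h3 (by rw [Matrix.mulVecLin_apply, hv, map_zero]))

theorem fs_real_odd {χ : G → ℂ} (hχ : IsIrrCharacter G χ) (hreal : ∀ s : G, (χ s).im = 0)
    {d : ℕ} (hd : χ 1 = d) (hodd : Odd d) : fs χ = 1 := by
  classical
  have hmain := fs_main hχ
  obtain ⟨n, ρ, hρ, rfl⟩ := hχ
  have hn : n = d := by
    have h2 : ρ.character 1 = n := by rw [Representation.char_one]; simp
    rw [h2] at hd; exact_mod_cast hd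
  rcases hmain with ⟨⟨s, hs⟩, -⟩ | ⟨-, h | h⟩
  · exact absurd (hreal s) hs
  · exact h
  · exfalso
    obtain ⟨A, hA0, hAT, hA⟩ := fs_matrix ρ hρ hreal
    have hdet := det_ne_zero_of_invariant ρ hρ hA0 hA
    rw [h] at hAT
    have h1 := Matrix.det_transpose A
    have hoddn : Odd n := hn ▸ hodd
    rw [hAT, Matrix.det_smul, Fintype.card_fin, hoddn.neg_one_pow] at h1
    apply hdet
    have h2 : (2 : ℂ) * A.det = 0 := by linear_combination -h1
    rcases mul_eq_zero.1 h2 with h3 | h3
    · norm_num at h3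
    · exact h3

end CfsgH4
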