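import Mathlib

/-!
# The grid lemma for the cyclic TI situation
-/

set_option autoImplicit false

namespace CfsgH4

section Grid

variable {X : Type*} [Fintype X] [DecidableEq X]

/-- a set `A` of three points and a vector `γ` of norm three pairing to one -/
structure GGood (A : Finset X) (γ : X → ℤ) : Prop where
  card : A.card = 3
  pair : ∑ x ∈ A, γ x = 1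
  nonneg : ∀ x ∈ A, 0 ≤ γ x
  norm : ∑ x, γ x * γ x = 3

structure GRel (A : Finset X) (γ : X → ℤ) (B : Finset X) (δ : X → ℤ) : Prop where
  card : (A ∩ B).card = 1
  pair1 : ∑ x ∈ A, δ x = 0
  pair2 : ∑ x ∈ B, γ x = 0
  norm : ∑ x, γ x * δ x = 1
  nonneg : ∀ x, 0 ≤ γ x * δ x

theorem GRel.symm {A B : Finset X} {γ δ : X → ℤ} (h : GRel A γ B δ) : GRel B δ A γ :=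
  ⟨by rw [Finset.inter_comm]; exact h.card, h.pair2, h.pair1, by
    rw [← h.norm]; exact Finset.sum_congr rfl fun x _ => mul_comm _ _,
    fun x => by rw [mul_comm]; exact h.nonneg x⟩

theorem GGood.bound {A : Finset X} {γ : X → ℤ} (h : GGood A γ) (x : X) : -1 ≤ γ x ∧ γ x ≤ 1 := by
  have h1 : γ x * γ x ≤ 3 := by
    rw [← h.norm]
    exact Finset.single_le_sum (f := fun x => γ x * γ x) (fun y _ => mul_self_nonneg (γ y))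
      (Finset.mem_univ x)
  constructor <;> nlinarith

/-- squares equal absolute values -/
theorem abs_bd {n : ℤ} (h : -1 ≤ n ∧ n ≤ 1) : n ≤ n * n ∧ -n ≤ n * n := by
  constructor <;> nlinarith [h.1, h.2]

theorem case_B_int (a1 b1 c1 d1 e1 f1 g1 a2 b2 c2 d2 e2 f2 g2 a3 b3 c3 d3 e3 f3 g3
    a4 b4 c4 d4 e4 f4 g4 : ℤ)
    (n1 : a1*a1+b1*b1+c1*c1+d1*d1+e1*e1+f1*f1+g1*g1 ≤ 3)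
    (n2 : a2*a2+b2*b2+c2*c2+d2*d2+e2*e2+f2*f2+g2*g2 ≤ 3)
    (n3 : a3*a3+b3*b3+c3*c3+d3*d3+e3*e3+f3*f3+g3*g3 ≤ 3)
    (n4 : a4*a4+b4*b4+c4*c4+d4*d4+e4*e4+f4*f4+g4*g4 ≤ 3)
    (B1 : (-1 ≤ a1 ∧ a1 ≤ 1) ∧ (-1 ≤ b1 ∧ b1 ≤ 1) ∧ (-1 ≤ c1 ∧ c1 ≤ 1) ∧ (-1 ≤ d1 ∧ d1 ≤ 1) ∧
      (-1 ≤ e1 ∧ e1 ≤ 1) ∧ (-1 ≤ f1 ∧ f1 ≤ 1) ∧ (-1 ≤ g1 ∧ g1 ≤ 1))
    (B2 : (-1 ≤ a2 ∧ a2 ≤ 1) ∧ (-1 ≤ b2 ∧ b2 ≤ 1) ∧ (-1 ≤ c2 ∧ c2 ≤ 1) ∧ (-1 ≤ d2 ∧ d2 ≤ 1) ∧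
      (-1 ≤ e2 ∧ e2 ≤ 1) ∧ (-1 ≤ f2 ∧ f2 ≤ 1) ∧ (-1 ≤ g2 ∧ g2 ≤ 1))
    (B3 : (-1 ≤ a3 ∧ a3 ≤ 1) ∧ (-1 ≤ b3 ∧ b3 ≤ 1) ∧ (-1 ≤ c3 ∧ c3 ≤ 1) ∧ (-1 ≤ d3 ∧ d3 ≤ 1) ∧
      (-1 ≤ e3 ∧ e3 ≤ 1) ∧ (-1 ≤ f3 ∧ f3 ≤ 1) ∧ (-1 ≤ g3 ∧ g3 ≤ 1))
    (B4 : (-1 ≤ a4 ∧ a4 ≤ 1) ∧ (-1 ≤ b4 ∧ b4 ≤ 1) ∧ (-1 ≤ c4 ∧ c4 ≤ 1) ∧ (-1 ≤ d4 ∧ d4 ≤ 1) ∧
      (-1 ≤ e4 ∧ e4 ≤ 1) ∧ (-1 ≤ f4 ∧ f4 ≤ 1) ∧ (-1 ≤ g4 ∧ g4 ≤ 1))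
    (l1 : a1+b1+c1 = 1 ∧ a1+d1+e1 = 0 ∧ a1+f1+g1 = 0 ∧ b1+d1+f1 = 0)
    (l2 : a2+b2+c2 = 0 ∧ a2+d2+e2 = 1 ∧ a2+f2+g2 = 0 ∧ b2+d2+f2 = 0)
    (l3 : a3+b3+c3 = 0 ∧ a3+d3+e3 = 0 ∧ a3+f3+g3 = 1 ∧ b3+d3+f3 = 0)
    (l4 : a4+b4+c4 = 0 ∧ a4+d4+e4 = 0 ∧ a4+f4+g4 = 0 ∧ b4+d4+f4 = 1)
    (p1 : 0 ≤ a1 ∧ 0 ≤ b1 ∧ 0 ≤ c1) (p2 : 0 ≤ a2 ∧ 0 ≤ d2 ∧ 0 ≤ e2)
    (p3 : 0 ≤ a3 ∧ 0 ≤ f3 ∧ 0 ≤ g3) (p4 : 0 ≤ b4 ∧ 0 ≤ d4 ∧ 0 ≤ f4)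
    (m12 : 0 ≤ a1*a2 ∧ 0 ≤ b1*b2 ∧ 0 ≤ c1*c2 ∧ 0 ≤ d1*d2 ∧ 0 ≤ e1*e2 ∧ 0 ≤ f1*f2 ∧ 0 ≤ g1*g2)
    (m13 : 0 ≤ a1*a3 ∧ 0 ≤ b1*b3 ∧ 0 ≤ c1*c3 ∧ 0 ≤ d1*d3 ∧ 0 ≤ e1*e3 ∧ 0 ≤ f1*f3 ∧ 0 ≤ g1*g3)
    (m14 : 0 ≤ a1*a4 ∧ 0 ≤ b1*b4 ∧ 0 ≤ c1*c4 ∧ 0 ≤ d1*d4 ∧ 0 ≤ e1*e4 ∧ 0 ≤ f1*f4 ∧ 0 ≤ g1*g4)
    (m23 : 0 ≤ a2*a3 ∧ 0 ≤ b2*b3 ∧ 0 ≤ c2*c3 ∧ 0 ≤ d2*d3 ∧ 0 ≤ e2*e3 ∧ 0 ≤ f2*f3 ∧ 0 ≤ g2*g3)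
    (m24 : 0 ≤ a2*a4 ∧ 0 ≤ b2*b4 ∧ 0 ≤ c2*c4 ∧ 0 ≤ d2*d4 ∧ 0 ≤ e2*e4 ∧ 0 ≤ f2*f4 ∧ 0 ≤ g2*g4)
    (m34 : 0 ≤ a3*a4 ∧ 0 ≤ b3*b4 ∧ 0 ≤ c3*c4 ∧ 0 ≤ d3*d4 ∧ 0 ≤ e3*e4 ∧ 0 ≤ f3*f4 ∧ 0 ≤ g3*g4)
    (q12 : a1*a1+b1*b1+c1*c1+d1*d1+e1*e1+f1*f1+g1*g1 = 3 ∨ a2*a2+b2*b2+c2*c2+d2*d2+e2*e2+f2*f2+g2*g2 = 3 →
      a1*a2+b1*b2+c1*c2+d1*d2+e1*e2+f1*f2+g1*g2 = 1)
    (q13 : a1*a1+b1*b1+c1*c1+d1*d1+e1*e1+f1*f1+g1*g1 = 3 ∨ a3*a3+b3*b3+c3*c3+d3*d3+e3*e3+f3*f3+g3*g3 = 3 →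
      a1*a3+b1*b3+c1*c3+d1*d3+e1*e3+f1*f3+g1*g3 = 1)
    (q14 : a1*a1+b1*b1+c1*c1+d1*d1+e1*e1+f1*f1+g1*g1 = 3 ∨ a4*a4+b4*b4+c4*c4+d4*d4+e4*e4+f4*f4+g4*g4 = 3 →
      a1*a4+b1*b4+c1*c4+d1*d4+e1*e4+f1*f4+g1*g4 = 1)
    (q23 : a2*a2+b2*b2+c2*c2+d2*d2+e2*e2+f2*f2+g2*g2 = 3 ∨ a3*a3+b3*b3+c3*c3+d3*d3+e3*e3+f3*f3+g3*g3 = 3 →
      a2*a3+b2*b3+c2*c3+d2*d3+e2*e3+f2*f3+g2*g3 = 1)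
    (q24 : a2*a2+b2*b2+c2*c2+d2*d2+e2*e2+f2*f2+g2*g2 = 3 ∨ a4*a4+b4*b4+c4*c4+d4*d4+e4*e4+f4*f4+g4*g4 = 3 →
      a2*a4+b2*b4+c2*c4+d2*d4+e2*e4+f2*f4+g2*g4 = 1)
    (q34 : a3*a3+b3*b3+c3*c3+d3*d3+e3*e3+f3*f3+g3*g3 = 3 ∨ a4*a4+b4*b4+c4*c4+d4*d4+e4*e4+f4*f4+g4*g4 = 3 →
      a3*a4+b3*b4+c3*c4+d3*d4+e3*e4+f3*f4+g3*g4 = 1) : False := by
  obtain ⟨Ba1, Bb1, Bc1, Bd1, Be1, Bf1, Bg1⟩ := B1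
  obtain ⟨Ba2, Bb2, Bc2, Bd2, Be2, Bf2, Bg2⟩ := B2
  obtain ⟨Ba3, Bb3, Bc3, Bd3, Be3, Bf3, Bg3⟩ := B3
  obtain ⟨Ba4, Bb4, Bc4, Bd4, Be4, Bf4, Bg4⟩ := B4
  -- classification of the first vector
  have K1 : (a1 = 1 ∧ b1 = 0 ∧ c1 = 0 ∧ d1 = 0 ∧ e1 = -1 ∧ f1 = 0 ∧ g1 = -1) ∨
      (a1 = 0 ∧ b1 = 1 ∧ c1 = 0 ∧ d1 = -1 ∧ e1 = 1 ∧ f1 = 0 ∧ g1 = 0) ∨
      (a1 = 0 ∧ b1 = 1 ∧ c1 = 0 ∧ d1 = 0 ∧ e1 = 0 ∧ f1 = -1 ∧ g1 = 1) ∨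
      (a1 = 0 ∧ b1 = 0 ∧ c1 = 1 ∧ d1 = 0 ∧ e1 = 0 ∧ f1 = 0 ∧ g1 = 0) := by
    have s1 := abs_bd Ba1; have s2 := abs_bd Bb1; have s3 := abs_bd Bc1; have s4 := abs_bd Bd1
    have s5 := abs_bd Be1; have s6 := abs_bd Bf1; have s7 := abs_bd Bg1
    generalize a1*a1 = A at *; generalize b1*b1 = B at *; generalize c1*c1 = C at *
    generalize d1*d1 = D at *; generalize e1*e1 = E at *; generalize f1*f1 = F at *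
    generalize g1*g1 = H at *
    clear q12 q13 q14 q23 q24 q34 m12 m13 m14 m23 m24 m34
    rcases (show (a1 = 1 ∧ b1 = 0 ∧ c1 = 0) ∨ (a1 = 0 ∧ b1 = 1 ∧ c1 = 0) ∨ (a1 = 0 ∧ b1 = 0 ∧ c1 = 1) by omega)
      with ⟨h1, h2, h3⟩ | ⟨h1, h2, h3⟩ | ⟨h1, h2, h3⟩
    · left; omega
    · rcases (show d1 = 0 ∨ d1 = -1 ∨ d1 = 1 by omega) with h4 | h4 | h4
      · right; right; left; omega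
      · right; left; omega
      · omega
    · right; right; right; omega
  have K2 : (a2 = 1 ∧ d2 = 0 ∧ e2 = 0 ∧ b2 = 0 ∧ c2 = -1 ∧ f2 = 0 ∧ g2 = -1) ∨
      (a2 = 0 ∧ d2 = 1 ∧ e2 = 0 ∧ b2 = -1 ∧ c2 = 1 ∧ f2 = 0 ∧ g2 = 0) ∨
      (a2 = 0 ∧ d2 = 1 ∧ e2 = 0 ∧ b2 = 0 ∧ c2 = 0 ∧ f2 = -1 ∧ g2 = 1) ∨
      (a2 = 0 ∧ d2 = 0 ∧ e2 = 1 ∧ b2 = 0 ∧ c2 = 0 ∧ f2 = 0 ∧ g2 = 0) := by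
    have s1 := abs_bd Ba2; have s2 := abs_bd Bb2; have s3 := abs_bd Bc2; have s4 := abs_bd Bd2
    have s5 := abs_bd Be2; have s6 := abs_bd Bf2; have s7 := abs_bd Bg2
    generalize a2*a2 = A at *; generalize b2*b2 = B at *; generalize c2*c2 = C at *
    generalize d2*d2 = D at *; generalize e2*e2 = E at *; generalize f2*f2 = F at *
    generalize g2*g2 = H at *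
    clear q12 q13 q14 q23 q24 q34 m12 m13 m14 m23 m24 m34
    rcases (show (a2 = 1 ∧ d2 = 0 ∧ e2 = 0) ∨ (a2 = 0 ∧ d2 = 1 ∧ e2 = 0) ∨ (a2 = 0 ∧ d2 = 0 ∧ e2 = 1) by omega)
      with ⟨h1, h2, h3⟩ | ⟨h1, h2, h3⟩ | ⟨h1, h2, h3⟩
    · left; omega
    · rcases (show b2 = 0 ∨ b2 = -1 ∨ b2 = 1 by omega) with h4 | h4 | h4
      · right; right; left; omega
      · right; left; omega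
      · omega
    · right; right; right; omega
  have K3 : (a3 = 1 ∧ f3 = 0 ∧ g3 = 0 ∧ b3 = 0 ∧ c3 = -1 ∧ d3 = 0 ∧ e3 = -1) ∨
      (a3 = 0 ∧ f3 = 1 ∧ g3 = 0 ∧ b3 = -1 ∧ c3 = 1 ∧ d3 = 0 ∧ e3 = 0) ∨
      (a3 = 0 ∧ f3 = 1 ∧ g3 = 0 ∧ b3 = 0 ∧ c3 = 0 ∧ d3 = -1 ∧ e3 = 1) ∨
      (a3 = 0 ∧ f3 = 0 ∧ g3 = 1 ∧ b3 = 0 ∧ c3 = 0 ∧ d3 = 0 ∧ e3 = 0) := by
    have s1 := abs_bd Ba3; have s2 := abs_bd Bb3; have s3 := abs_bd Bc3; have s4 := abs_bd Bd3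
    have s5 := abs_bd Be3; have s6 := abs_bd Bf3; have s7 := abs_bd Bg3
    generalize a3*a3 = A at *; generalize b3*b3 = B at *; generalize c3*c3 = C at *
    generalize d3*d3 = D at *; generalize e3*e3 = E at *; generalize f3*f3 = F at *
    generalize g3*g3 = H at *
    clear q12 q13 q14 q23 q24 q34 m12 m13 m14 m23 m24 m34
    rcases (show (a3 = 1 ∧ f3 = 0 ∧ g3 = 0) ∨ (a3 = 0 ∧ f3 = 1 ∧ g3 = 0) ∨ (a3 = 0 ∧ f3 = 0 ∧ g3 = 1) by omega)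
      with ⟨h1, h2, h3⟩ | ⟨h1, h2, h3⟩ | ⟨h1, h2, h3⟩
    · left; omega
    · rcases (show b3 = 0 ∨ b3 = -1 ∨ b3 = 1 by omega) with h4 | h4 | h4
      · right; right; left; omega
      · right; left; omega
      · omega
    · right; right; right; omega
  have K4 : (a4 = 0 ∧ b4 = 1 ∧ c4 = -1 ∧ d4 = 0 ∧ e4 = 0 ∧ f4 = 0 ∧ g4 = 0) ∨
      (a4 = 0 ∧ b4 = 0 ∧ c4 = 0 ∧ d4 = 1 ∧ e4 = -1 ∧ f4 = 0 ∧ g4 = 0) ∨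
      (a4 = 0 ∧ b4 = 0 ∧ c4 = 0 ∧ d4 = 0 ∧ e4 = 0 ∧ f4 = 1 ∧ g4 = -1) := by
    have s1 := abs_bd Ba4; have s2 := abs_bd Bb4; have s3 := abs_bd Bc4; have s4 := abs_bd Bd4
    have s5 := abs_bd Be4; have s6 := abs_bd Bf4; have s7 := abs_bd Bg4
    generalize a4*a4 = A at *; generalize b4*b4 = B at *; generalize c4*c4 = C at *
    generalize d4*d4 = D at *; generalize e4*e4 = E at *; generalize f4*f4 = F at *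
    generalize g4*g4 = H at *
    clear q12 q13 q14 q23 q24 q34 m12 m13 m14 m23 m24 m34
    rcases (show (b4 = 1 ∧ d4 = 0 ∧ f4 = 0) ∨ (b4 = 0 ∧ d4 = 1 ∧ f4 = 0) ∨ (b4 = 0 ∧ d4 = 0 ∧ f4 = 1) by omega)
      with ⟨h1, h2, h3⟩ | ⟨h1, h2, h3⟩ | ⟨h1, h2, h3⟩
    · rcases (show a4 = 0 ∨ a4 = -1 ∨ a4 = 1 by omega) with h4 | h4 | h4 <;> omega
    · rcases (show a4 = 0 ∨ a4 = -1 ∨ a4 = 1 by omega) with h4 | h4 | h4 <;> omega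
    · rcases (show a4 = 0 ∨ a4 = -1 ∨ a4 = 1 by omega) with h4 | h4 | h4 <;> omega
  clear l1 l2 l3 l4 p1 p2 p3 p4 n1 n2 n3 n4
  clear Ba1 Bb1 Bc1 Bd1 Be1 Bf1 Bg1 Ba2 Bb2 Bc2 Bd2 Be2 Bf2 Bg2 Ba3 Bb3 Bc3 Bd3 Be3 Bf3 Bg3
    Ba4 Bb4 Bc4 Bd4 Be4 Bf4 Bg4
  rcases K4 with ⟨rfl, rfl, rfl, rfl, rfl, rfl, rfl⟩ | ⟨rfl, rfl, rfl, rfl, rfl, rfl, rfl⟩ |
    ⟨rfl, rfl, rfl, rfl, rfl, rfl, rfl⟩ <;>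
  rcases K1 with ⟨rfl, rfl, rfl, rfl, rfl, rfl, rfl⟩ | ⟨rfl, rfl, rfl, rfl, rfl, rfl, rfl⟩ |
    ⟨rfl, rfl, rfl, rfl, rfl, rfl, rfl⟩ | ⟨rfl, rfl, rfl, rfl, rfl, rfl, rfl⟩ <;>
  first
  | (exfalso; revert m14 q14; norm_num; done)
  | (rcases K2 with ⟨rfl, rfl, rfl, rfl, rfl, rfl, rfl⟩ | ⟨rfl, rfl, rfl, rfl, rfl, rfl, rfl⟩ |
      ⟨rfl, rfl, rfl, rfl, rfl, rfl, rfl⟩ | ⟨rfl, rfl, rfl, rfl, rfl, rfl, rfl⟩ <;>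
     first
     | (exfalso; revert m24 q24; norm_num; done)
     | (exfalso; revert m12 q12; norm_num; done)
     | (rcases K3 with ⟨rfl, rfl, rfl, rfl, rfl, rfl, rfl⟩ | ⟨rfl, rfl, rfl, rfl, rfl, rfl, rfl⟩ |
          ⟨rfl, rfl, rfl, rfl, rfl, rfl, rfl⟩ | ⟨rfl, rfl, rfl, rfl, rfl, rfl, rfl⟩ <;>
        first
        | (exfalso; revert m34 q34; norm_num; done)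
        | (exfalso; revert m13 q13; norm_num; done)
        | (exfalso; revert m23 q23; norm_num; done)))

end Grid

end CfsgH4
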