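import Cfsg.Agent.H4.Grid1

/-!
# The grid lemma, II
-/

set_option autoImplicit false

namespace CfsgH4

section Grid

variable {X : Type*} [Fintype X] [DecidableEq X]

theorem inter_uniq {A B : Finset X} (h : (A ∩ B).card = 1) {x y : X} (hx : x ∈ A) (hx' : x ∈ B)
    (hy : y ∈ A) (hy' : y ∈ B) : x = y := by
  obtain ⟨z, hz⟩ := Finset.card_eq_one.1 h
  have h1 : x ∈ A ∩ B := Finset.mem_inter.2 ⟨hx, hx'⟩
  have h2 : y ∈ A ∩ B := Finset.mem_inter.2 ⟨hy, hy'⟩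
  rw [hz, Finset.mem_singleton] at h1 h2
  rw [h1, h2]

theorem inter_ex {A B : Finset X} (h : (A ∩ B).card = 1) : ∃ x, x ∈ A ∧ x ∈ B := by
  obtain ⟨z, hz⟩ := Finset.card_eq_one.1 h
  have h1 : z ∈ A ∩ B := by rw [hz]; exact Finset.mem_singleton_self z
  exact ⟨z, (Finset.mem_inter.1 h1).1, (Finset.mem_inter.1 h1).2⟩

/-- third element of a set with three elements -/
theorem third {A : Finset X} (h : A.card = 3) {a b : X} (ha : a ∈ A) (hb : b ∈ A) (hab : a ≠ b) :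
    ∃ c, c ≠ a ∧ c ≠ b ∧ A = {a, b, c} := by
  have h1 : ((A.erase a).erase b).card = 1 := by
    rw [Finset.card_erase_of_mem (Finset.mem_erase.2 ⟨hab.symm, hb⟩), Finset.card_erase_of_mem ha, h]
  obtain ⟨c, hc⟩ := Finset.card_eq_one.1 h1
  have h2 : c ∈ (A.erase a).erase b := by rw [hc]; exact Finset.mem_singleton_self c
  have h3 := Finset.mem_erase.1 h2
  have h4 := Finset.mem_erase.1 h3.2
  refine ⟨c, h4.1, h3.1, ?_⟩
  symm
  apply Finset.eq_of_subset_of_card_le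
  · intro x hx
    simp only [Finset.mem_insert, Finset.mem_singleton] at hx
    rcases hx with rfl | rfl | rfl
    · exact ha
    · exact hb
    · exact h4.2
  · rw [h, Finset.card_insert_of_notMem, Finset.card_insert_of_notMem, Finset.card_singleton]
    · rw [Finset.mem_singleton]; exact h3.1.symm
    · rw [Finset.mem_insert, Finset.mem_singleton]
      push Not
      exact ⟨hab, h4.1.symm⟩

theorem sum3 {a b c : X} (hab : a ≠ b) (hca : c ≠ a) (hcb : c ≠ b) (f : X → ℤ) :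
    ∑ x ∈ ({a, b, c} : Finset X), f x = f a + f b + f c := by
  rw [Finset.sum_insert, Finset.sum_insert, Finset.sum_singleton]
  · ring
  · rw [Finset.mem_singleton]; exact hcb.symm
  · rw [Finset.mem_insert, Finset.mem_singleton]
    push Not
    exact ⟨hab, hca.symm⟩

theorem sum_le3 {A : Finset X} {γ : X → ℤ} (h : GGood A γ) (S : Finset X) :
    ∑ x ∈ S, γ x * γ x ≤ 3 := by
  rw [← h.norm]
  exact Finset.sum_le_sum_of_subset_of_nonneg (Finset.subset_univ _) (fun x _ _ => mul_self_nonneg (γ x))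

theorem full_of_sum {A : Finset X} {γ : X → ℤ} (h : GGood A γ) {S : Finset X}
    (hS : ∑ x ∈ S, γ x * γ x = 3) (x : X) (hx : x ∉ S) : γ x = 0 := by
  have h1 : ∑ x ∈ insert x S, γ x * γ x ≤ 3 := sum_le3 h _
  rw [Finset.sum_insert hx, hS] at h1
  have h2 := mul_self_nonneg (γ x)
  have h3 : γ x * γ x = 0 := by linarith
  exact mul_self_eq_zero.1 h3

theorem q_lem {A B : Finset X} {γ δ : X → ℤ} (hA : GGood A γ) (hB : GGood B δ) (h : GRel A γ B δ)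
    (S : Finset X) (hS : ∑ x ∈ S, γ x * γ x = 3 ∨ ∑ x ∈ S, δ x * δ x = 3) :
    ∑ x ∈ S, γ x * δ x = 1 := by
  rw [← h.norm]
  apply Finset.sum_subset (Finset.subset_univ S)
  intro x _ hx
  rcases hS with hS | hS
  · rw [full_of_sum hA hS x hx, zero_mul]
  · rw [full_of_sum hB hS x hx, mul_zero]

theorem case_B {A₁ A₂ A₃ A₄ : Finset X} {γ₁ γ₂ γ₃ γ₄ : X → ℤ}
    (g1 : GGood A₁ γ₁) (g2 : GGood A₂ γ₂) (g3 : GGood A₃ γ₃) (g4 : GGood A₄ γ₄)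
    (r12 : GRel A₁ γ₁ A₂ γ₂) (r13 : GRel A₁ γ₁ A₃ γ₃) (r14 : GRel A₁ γ₁ A₄ γ₄)
    (r23 : GRel A₂ γ₂ A₃ γ₃) (r24 : GRel A₂ γ₂ A₄ γ₄) (r34 : GRel A₃ γ₃ A₄ γ₄)
    {a : X} (h1 : a ∈ A₁) (h2 : a ∈ A₂) (h3 : a ∈ A₃) (h4 : a ∉ A₄) : False := by
  obtain ⟨b, b1, b4⟩ := inter_ex r14.card
  obtain ⟨d, d2, d4⟩ := inter_ex r24.card
  obtain ⟨f, f3, f4⟩ := inter_ex r34.card
  have hab : a ≠ b := fun h => h4 (h ▸ b4)
  have had : a ≠ d := fun h => h4 (h ▸ d4)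
  have haf : a ≠ f := fun h => h4 (h ▸ f4)
  obtain ⟨c, hca, hcb, hA1⟩ := third g1.card h1 b1 hab
  obtain ⟨e, hea, hed, hA2⟩ := third g2.card h2 d2 had
  obtain ⟨g, hga, hgf, hA3⟩ := third g3.card h3 f3 haf
  have c1 : c ∈ A₁ := by rw [hA1]; simp
  have e2 : e ∈ A₂ := by rw [hA2]; simp
  have g3' : g ∈ A₃ := by rw [hA3]; simp
  have k12 : ∀ x ∈ A₁, ∀ y ∈ A₂, x ≠ a → x ≠ y := fun x hx y hy hxa hxy =>
    hxa (inter_uniq r12.card hx (hxy ▸ hy) h1 h2)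
  have k13 : ∀ x ∈ A₁, ∀ y ∈ A₃, x ≠ a → x ≠ y := fun x hx y hy hxa hxy =>
    hxa (inter_uniq r13.card hx (hxy ▸ hy) h1 h3)
  have k23 : ∀ x ∈ A₂, ∀ y ∈ A₃, x ≠ a → x ≠ y := fun x hx y hy hxa hxy =>
    hxa (inter_uniq r23.card hx (hxy ▸ hy) h2 h3)
  have hbd := k12 b b1 d d2 hab.symm
  have hbe := k12 b b1 e e2 hab.symm
  have hcd := k12 c c1 d d2 hca
  have hce := k12 c c1 e e2 hca
  have hbf := k13 b b1 f f3 hab.symm
  have hbg := k13 b b1 g g3' hab.symm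
  have hcf := k13 c c1 f f3 hca
  have hcg := k13 c c1 g g3' hca
  have hdf := k23 d d2 f f3 had.symm
  have hdg := k23 d d2 g g3' had.symm
  have hef := k23 e e2 f f3 hea
  have heg := k23 e e2 g g3' hea
  obtain ⟨z, hzb, hzd, hA4⟩ := third g4.card b4 d4 hbd
  have hzf : z = f := by
    have : f ∈ ({b, d, z} : Finset X) := by rw [← hA4]; exact f4
    simp only [Finset.mem_insert, Finset.mem_singleton] at this
    rcases this with h | h | h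
    · exact absurd h.symm hbf
    · exact absurd h.symm hdf
    · exact h.symm
  rw [hzf] at hA4
  have S1 : ∀ h : X → ℤ, ∑ x ∈ A₁, h x = h a + h b + h c := fun h => by rw [hA1, sum3 hab hca hcb]
  have S2 : ∀ h : X → ℤ, ∑ x ∈ A₂, h x = h a + h d + h e := fun h => by rw [hA2, sum3 had hea hed]
  have S3 : ∀ h : X → ℤ, ∑ x ∈ A₃, h x = h a + h f + h g := fun h => by rw [hA3, sum3 haf hga hgf]
  have S4 : ∀ h : X → ℤ, ∑ x ∈ A₄, h x = h b + h d + h f := fun h => by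
    rw [hA4, sum3 hbd hbf.symm hdf.symm]
  set S : Finset X := {a, b, c, d, e, f, g} with hS
  have S7 : ∀ h : X → ℤ, ∑ x ∈ S, h x = h a + h b + h c + h d + h e + h f + h g := by
    intro h
    rw [hS, Finset.sum_insert, Finset.sum_insert, Finset.sum_insert, Finset.sum_insert,
      Finset.sum_insert, Finset.sum_insert, Finset.sum_singleton]
    · ring
    all_goals
      simp only [Finset.mem_insert, Finset.mem_singleton]
      push Not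
    · exact hgf.symm
    · exact ⟨hef, heg⟩
    · exact ⟨hed.symm, hdf, hdg⟩
    · exact ⟨hcd, hce, hcf, hcg⟩
    · exact ⟨hcb.symm, hbd, hbe, hbf, hbg⟩
    · exact ⟨hab, hca.symm, had, hea.symm, haf, hga.symm⟩
  have N : ∀ {A : Finset X} {γ : X → ℤ}, GGood A γ → γ a * γ a + γ b * γ b + γ c * γ c + γ d * γ d +
      γ e * γ e + γ f * γ f + γ g * γ g ≤ 3 := by
    intro A γ hg
    have := sum_le3 hg S
    rwa [S7 (fun x => γ x * γ x)] at this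
  have Q : ∀ {A B : Finset X} {γ δ : X → ℤ}, GGood A γ → GGood B δ → GRel A γ B δ →
      (γ a * γ a + γ b * γ b + γ c * γ c + γ d * γ d + γ e * γ e + γ f * γ f + γ g * γ g = 3 ∨
       δ a * δ a + δ b * δ b + δ c * δ c + δ d * δ d + δ e * δ e + δ f * δ f + δ g * δ g = 3) →
      γ a * δ a + γ b * δ b + γ c * δ c + γ d * δ d + γ e * δ e + γ f * δ f + γ g * δ g = 1 := by
    intro A B γ δ hA hB hr hq
    have := q_lem hA hB hr S (by
      rw [S7 (fun x => γ x * γ x), S7 (fun x => δ x * δ x)]; exact hq)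
    rwa [S7 (fun x => γ x * δ x)] at this
  have p1 := g1.pair
  have p2 := g2.pair
  have p3 := g3.pair
  have p4 := g4.pair
  have t12 := r12.pair1
  have t12' := r12.pair2
  have t13 := r13.pair1
  have t13' := r13.pair2
  have t14 := r14.pair1
  have t14' := r14.pair2
  have t23 := r23.pair1
  have t23' := r23.pair2
  have t24 := r24.pair1
  have t24' := r24.pair2
  have t34 := r34.pair1
  have t34' := r34.pair2
  rw [S1] at p1 t12 t13 t14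
  rw [S2] at p2 t12' t23 t24
  rw [S3] at p3 t13' t23' t34
  rw [S4] at p4 t14' t24' t34'
  exact case_B_int (γ₁ a) (γ₁ b) (γ₁ c) (γ₁ d) (γ₁ e) (γ₁ f) (γ₁ g)
    (γ₂ a) (γ₂ b) (γ₂ c) (γ₂ d) (γ₂ e) (γ₂ f) (γ₂ g)
    (γ₃ a) (γ₃ b) (γ₃ c) (γ₃ d) (γ₃ e) (γ₃ f) (γ₃ g)
    (γ₄ a) (γ₄ b) (γ₄ c) (γ₄ d) (γ₄ e) (γ₄ f) (γ₄ g)
    (N g1) (N g2) (N g3) (N g4)
    ⟨g1.bound a, g1.bound b, g1.bound c, g1.bound d, g1.bound e, g1.bound f, g1.bound g⟩
    ⟨g2.bound a, g2.bound b, g2.bound c, g2.bound d, g2.bound e, g2.bound f, g2.bound g⟩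
    ⟨g3.bound a, g3.bound b, g3.bound c, g3.bound d, g3.bound e, g3.bound f, g3.bound g⟩
    ⟨g4.bound a, g4.bound b, g4.bound c, g4.bound d, g4.bound e, g4.bound f, g4.bound g⟩
    ⟨p1, t12', t13', t14'⟩ ⟨t12, p2, t23', t24'⟩ ⟨t13, t23, p3, t34'⟩ ⟨t14, t24, t34, p4⟩
    ⟨g1.nonneg a h1, g1.nonneg b b1, g1.nonneg c c1⟩
    ⟨g2.nonneg a h2, g2.nonneg d d2, g2.nonneg e e2⟩
    ⟨g3.nonneg a h3, g3.nonneg f f3, g3.nonneg g g3'⟩
    ⟨g4.nonneg b b4, g4.nonneg d d4, g4.nonneg f f4⟩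
    ⟨r12.nonneg a, r12.nonneg b, r12.nonneg c, r12.nonneg d, r12.nonneg e, r12.nonneg f, r12.nonneg g⟩
    ⟨r13.nonneg a, r13.nonneg b, r13.nonneg c, r13.nonneg d, r13.nonneg e, r13.nonneg f, r13.nonneg g⟩
    ⟨r14.nonneg a, r14.nonneg b, r14.nonneg c, r14.nonneg d, r14.nonneg e, r14.nonneg f, r14.nonneg g⟩
    ⟨r23.nonneg a, r23.nonneg b, r23.nonneg c, r23.nonneg d, r23.nonneg e, r23.nonneg f, r23.nonneg g⟩
    ⟨r24.nonneg a, r24.nonneg b, r24.nonneg c, r24.nonneg d, r24.nonneg e, r24.nonneg f, r24.nonneg g⟩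
    ⟨r34.nonneg a, r34.nonneg b, r34.nonneg c, r34.nonneg d, r34.nonneg e, r34.nonneg f, r34.nonneg g⟩
    (Q g1 g2 r12) (Q g1 g3 r13) (Q g1 g4 r14) (Q g2 g3 r23) (Q g2 g4 r24) (Q g3 g4 r34)

/-- four sets have a common point -/
theorem row_common {A₁ A₂ A₃ A₄ : Finset X} {γ₁ γ₂ γ₃ γ₄ : X → ℤ}
    (g1 : GGood A₁ γ₁) (g2 : GGood A₂ γ₂) (g3 : GGood A₃ γ₃) (g4 : GGood A₄ γ₄)
    (r12 : GRel A₁ γ₁ A₂ γ₂) (r13 : GRel A₁ γ₁ A₃ γ₃) (r14 : GRel A₁ γ₁ A₄ γ₄)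
    (r23 : GRel A₂ γ₂ A₃ γ₃) (r24 : GRel A₂ γ₂ A₄ γ₄) (r34 : GRel A₃ γ₃ A₄ γ₄) :
    ∃ x, x ∈ A₁ ∧ x ∈ A₂ ∧ x ∈ A₃ ∧ x ∈ A₄ := by
  by_contra hcon
  push Not at hcon
  -- no point in three sets
  have n123 : ∀ x, x ∈ A₁ → x ∈ A₂ → x ∉ A₃ := fun x h1 h2 h3 =>
    case_B g1 g2 g3 g4 r12 r13 r14 r23 r24 r34 h1 h2 h3 (hcon x h1 h2 h3)
  have n124 : ∀ x, x ∈ A₁ → x ∈ A₂ → x ∉ A₄ := fun x h1 h2 h4 =>
    case_B g1 g2 g4 g3 r12 r14 r13 r24 r23 r34.symm h1 h2 h4 (fun h3 => n123 x h1 h2 h3)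
  have n134 : ∀ x, x ∈ A₁ → x ∈ A₃ → x ∉ A₄ := fun x h1 h3 h4 =>
    case_B g1 g3 g4 g2 r13 r14 r12 r34 r23.symm r24.symm h1 h3 h4 (fun h2 => n123 x h1 h2 h3)
  have n234 : ∀ x, x ∈ A₂ → x ∈ A₃ → x ∉ A₄ := fun x h2 h3 h4 =>
    case_B g2 g3 g4 g1 r23 r24 r12.symm r34 r13.symm r14.symm h2 h3 h4 (fun h1 => n123 x h1 h2 h3)
  obtain ⟨p12, a1, a2⟩ := inter_ex r12.card
  obtain ⟨p13, b1, b3⟩ := inter_ex r13.card
  obtain ⟨p14, c1, c4⟩ := inter_ex r14.card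
  obtain ⟨p23, d2, d3⟩ := inter_ex r23.card
  obtain ⟨p24, e2, e4⟩ := inter_ex r24.card
  obtain ⟨p34, f3, f4⟩ := inter_ex r34.card
  have ab : p12 ≠ p13 := fun h => n123 p12 a1 a2 (h ▸ b3)
  have ac : p12 ≠ p14 := fun h => n124 p12 a1 a2 (h ▸ c4)
  have bc : p13 ≠ p14 := fun h => n134 p13 b1 b3 (h ▸ c4)
  have ad : p12 ≠ p23 := fun h => n123 p12 a1 a2 (h ▸ d3)
  have ae : p12 ≠ p24 := fun h => n124 p12 a1 a2 (h ▸ e4)
  have de : p23 ≠ p24 := fun h => n234 p23 d2 d3 (h ▸ e4)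
  have bd : p13 ≠ p23 := fun h => n123 p13 b1 (h ▸ d2) b3
  have bf : p13 ≠ p34 := fun h => n134 p13 b1 b3 (h ▸ f4)
  have df : p23 ≠ p34 := fun h => n234 p23 d2 d3 (h ▸ f4)
  have ce : p14 ≠ p24 := fun h => n124 p14 c1 (h ▸ e2) c4
  have cf : p14 ≠ p34 := fun h => n134 p14 c1 (h ▸ f3) c4
  have ef : p24 ≠ p34 := fun h => n234 p24 e2 (h ▸ f3) e4
  have hset : ∀ {A : Finset X} {x y z : X}, A.card = 3 → x ∈ A → y ∈ A → z ∈ A → x ≠ y → x ≠ z →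
      y ≠ z → ∀ h : X → ℤ, ∑ t ∈ A, h t = h x + h y + h z := by
    intro A x y z hA hx hy hz hxy hxz hyz h
    obtain ⟨w, hwx, hwy, hw⟩ := third hA hx hy hxy
    have hzw : z = w := by
      rw [hw] at hz
      simp only [Finset.mem_insert, Finset.mem_singleton] at hz
      rcases hz with h' | h' | h'
      · exact absurd h'.symm hxz
      · exact absurd h'.symm hyz
      · exact h'
    rw [hw, sum3 hxy hwx hwy, hzw]
  have q1 := g1.pair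
  have q2 := r12.pair2
  have q3 := r13.pair2
  have q4 := r14.pair2
  rw [hset g1.card a1 b1 c1 ab ac bc] at q1
  rw [hset g2.card a2 d2 e2 ad ae de] at q2
  rw [hset g3.card b3 d3 f3 bd bf df] at q3
  rw [hset g4.card c4 e4 f4 ce cf ef] at q4
  omega

end Grid

end CfsgH4
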