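import Cfsg.Agent.H4.HB

/-!
# Heights in blocks of `p`-solvable groups: induction
-/

set_option autoImplicit false

open Cfsg MonoidAlgebra
open CfsgH4 hiding centralChar sum_conj
open CfsgH5 ComplexConjugate

namespace CfsgH4

universe u

section HB

variable {M : Ideal AlgInt} [hMp : M.IsPrime] {p : ℕ} [hp : Fact p.Prime]

theorem inv_of_ca {G : Type*} [Group G] [Finite G] {K : Subgroup G} [hK : K.Normal]
    {θ : IrrCharacter K} (hb : IsPBlock M ({θ} : Set (IrrCharacter K))) {x : G}
    (h : ca x (idH M K {θ}) = idH M K {θ}) : IsConjCharOf K x (θ : K → ℂ) (θ : K → ℂ) := by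
  have h1 := cjSet_eq_self hb (mem_nz_normal x) h
  rw [cjSet_eq x (cj_normal x).symm, Set.image_singleton, Set.singleton_eq_singleton_iff] at h1
  intro k k' hk
  have h2 : (cjEquiv x (cj_normal (N := K) x).symm) k = k' := Subtype.ext hk.symm
  rw [← h2, ← irrE_apply' (cjEquiv x (cj_normal (N := K) x).symm) θ k, h1]

theorem FR_defect {G : Type*} [Group G] [Fintype G] (hM : IsPModular p M) {N T : Subgroup G}
    [hN : N.Normal] (hNT : N ≤ T)
    {b : Set (IrrCharacter N)} (hb : IsPBlock M b)
    (hT : ∀ x, x ∈ T ↔ ca x (idH M N b) = idH M N b) {B' : Set (IrrCharacter T)}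
    (hB' : IsPBlock M B') {B : Set (IrrCharacter G)} (hB : IsPBlock M B)
    (hmul : idB M B * idH M N b = idH M T B')
    (hdef : blockDefect p B = blockDefect p B') {D : Subgroup T} (hD : IsDefectGroup p M B' D) :
    IsDefectGroup p M B (D.map T.subtype) := by
  obtain ⟨hF, -⟩ := FRh.of_block hNT hb hT
  rw [isDefectGroup_iff_DG hM hB]
  have hD' := (isDefectGroup_iff_DG'' hM hB').1 hD
  obtain ⟨P, hP⟩ := exists_defectGroup hM hB
  have hP' := (isDefectGroup_iff_DG hM hB).1 hP
  refine hP'.of_card hM (isBl_top hB) le_top hD'.pg ?_ ?_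
  · intro h0
    apply hD'.ne
    haveI : CharP (kk M) p := charP_kk hM
    rw [← hmul, br_mul hD'.pg ((isBl_top hB).fx.mono le_top)
      (hF.fx.mono hD'.le), h0, zero_mul]
  · rw [defectGroup_card hM hB hP,
      ← Nat.card_congr (Subgroup.equivMapOfInjective D T.subtype T.subtype_injective).toEquiv,
      defectGroup_card hM hB' hD, hdef]

theorem center_index_congr {A B : Type*} [Group A] [Group B] (e : A ≃* B) :
    (Subgroup.center A).index = (Subgroup.center B).index := by
  have h1 : (Subgroup.center A).map e.toMonoidHom = Subgroup.center B := by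
    ext y
    rw [Subgroup.mem_center_iff]
    constructor
    · rintro ⟨x, hx, rfl⟩ z
      have := Subgroup.mem_center_iff.1 hx (e.symm z)
      have h2 := congrArg e this
      rw [map_mul, map_mul, e.apply_symm_apply] at h2
      exact h2
    · intro h
      refine ⟨e.symm y, Subgroup.mem_center_iff.2 fun z => ?_, e.apply_symm_apply y⟩
      apply e.injective
      rw [map_mul, map_mul, e.apply_symm_apply]
      exact h (e z)
  rw [← h1]
  exact (Subgroup.index_map_equiv _ e).symm

theorem height_bound (hM : IsPModular p M) : ∀ (n : ℕ) (G : Type u) [Group G] [Fintype G]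
    (_ : Nat.card G = n) (_ : IsPSolvable p G) (B : Set (IrrCharacter G)) (_ : IsPBlock M B)
    (P : Subgroup G) (_ : IsDefectGroup p M B P) (χ : IrrCharacter G) (_ : χ ∈ B),
    blockHeight p B (χ : G → ℂ) ≤ ((Subgroup.center P).index).factorization p := by
  intro n
  induction n using Nat.strong_induction_on with
  | _ n ih =>
  intro G _ _ hn hsol B hB P hP χ hχ
  classical
  haveI hKn := CfsgH7.pPrimeCore_normal' p G
  set K := pPrimeCore p G with hK
  have hKp : ¬ p ∣ Nat.card K := not_dvd_pPrimeCore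
  haveI : Fintype K := Fintype.ofFinite K
  obtain ⟨θ0, hθ0, hne⟩ := exists_constituent_restrict K χ.2
  set θ : IrrCharacter K := ⟨θ0, hθ0⟩ with hθ
  have hb := isPBlock_singleton (M := M) hM hKp θ
  have hcov : idB M B * idH M K {θ} ≠ 0 :=
    (cover_iff hB hb).1 ⟨χ, hχ, θ, Set.mem_singleton θ, hne⟩
  set T : Subgroup G := stb (idH M K {θ}) with hTdef
  have hT : ∀ x, x ∈ T ↔ ca x (idH M K {θ}) = idH M K {θ} := fun x => mem_stb
  have hKT : K ≤ T := fx_iff_le.1 (isBl_idH hb).fx
  obtain ⟨B', hB', h1, hind⟩ := FR_surj hKT hb hT hB hcov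
  obtain ⟨B₁, hB₁, hz, hind₁, hmul, hirr, hmem⟩ := FR_induced hKT hb hT hB' h1
  have hq := induced_unique hind hind₁
  subst hq
  obtain ⟨hdef, hhgt⟩ := FR_heights (p := p) (IsPBlock.nonempty hB') hirr hmem
  obtain ⟨ψ, hψ, hψe⟩ := (hmem χ).1 hχ
  by_cases hTt : T = ⊤
  · -- invariant case
    have hinv : ∀ x : G, IsConjCharOf K x (θ : K → ℂ) (θ : K → ℂ) := fun x =>
      inv_of_ca hb ((hT x).1 (by rw [hTt]; trivial))
    have hc := isPConstrained_of_psolvable hsol
    obtain ⟨B₀, hB₀, hmem₀, hS₀, hD₀, -⟩ := over_core hM hc hK (θ := θ) hinv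
    have hBB : B = B₀ := IsPBlock.eq_of_mem hB hB₀ hχ ((hmem₀ χ).2 hne)
    obtain ⟨S, hS⟩ := hD₀ P (hBB ▸ hP)
    have hPs : IsSyl p (⊤ : Subgroup G) P := by rw [hS]; exact isSyl_sylow S
    refine (Nat.sub_le _ _).trans (height_top hc hK hθ0 (fun g k => ?_) hne hPs)
    exact hinv g k _ rfl
  · have hlt : Nat.card T < n := by
      rw [← hn]
      exact (lt_of_le_of_ne (Subgroup.card_le_card_group T) fun h => hTt (T.eq_top_of_card_eq h))
    obtain ⟨D, hD⟩ := exists_defectGroup hM hB'
    haveI : Fintype T := Fintype.ofFinite T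
    have h2 := ih (Nat.card T) hlt T rfl (psolvable_subgroup hsol T) B' hB' D hD ψ hψ
    rw [hψe, hhgt ψ hψ]
    have h3 := FR_defect hM hKT hb hT hB' hB₁ hmul hdef hD
    obtain ⟨x, -, hx⟩ := ((isDefectGroup_iff_DG hM hB₁).1 h3).conj hM (isBl_top hB₁)
      ((isDefectGroup_iff_DG hM hB₁).1 hP)
    have e1 : D ≃* (D.map T.subtype : Subgroup G) :=
      Subgroup.equivMapOfInjective D T.subtype T.subtype_injective
    have e2 : (D.map T.subtype : Subgroup G) ≃* (cj x (D.map T.subtype) : Subgroup G) :=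
      Subgroup.equivMapOfInjective _ (MulAut.conj x).toMonoidHom (MulAut.conj x).injective
    have h4 : (Subgroup.center D).index = (Subgroup.center P).index := by
      rw [center_index_congr e1, center_index_congr e2, ← hx]
    rw [← h4]
    exact h2

end HB

end CfsgH4
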