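import Cfsg.Agent.H4.Do8
import Cfsg.Agent.H4.Ab4

set_option autoImplicit false
set_option linter.all false

/-! # Klein four defect groups: the local data -/

open Cfsg MonoidAlgebra
open CfsgH4 hiding centralChar sum_conj regInner_symm ev_ca
open CfsgH5 CfsgSub CfsgAb CfsgDo ComplexConjugate

namespace CfsgKf

universe w

section Pack

theorem odd_mem {G : Type*} [Group G] [Finite G] {H K : Subgroup G} (hHK : H ≤ K) (hn : (H.subgroupOf K).Normal)
    (hodd : ¬ 2 ∣ H.relIndex K) {t : G} (ht : t ∈ K) (ht2 : t ^ 2 ∈ H) : t ∈ H := by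
  haveI := hn
  have h1 := Subgroup.pow_index_mem (H.subgroupOf K) (⟨t, ht⟩ : K)
  have h2 : t ^ (H.relIndex K) ∈ H := Subgroup.mem_subgroupOf.1 h1
  obtain ⟨m, hm⟩ : ∃ m, H.relIndex K = 2 * m + 1 := by
    rcases Nat.even_or_odd' (H.relIndex K) with ⟨m, h | h⟩
    · exact absurd ⟨m, h⟩ hodd
    · exact ⟨m, h⟩
  rw [hm, pow_add, pow_mul, pow_one] at h2
  exact (H.mul_mem_cancel_left (H.pow_mem ht2 m)).1 h2

variable {G : Type w} [Group G] [Fintype G] {M : Ideal AlgInt} [hMp : M.IsPrime]

theorem klein_pack (hM : IsPModular 2 M) {B : Set (IrrCharacter G)} (hB : IsPBlock M B)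
    {a : Subgroup G × MonoidAlgebra (kk M) G} (hmax : MP 2 ⊤ (idB M B) a) (hV : IsKleinFour a.1) :
    a.1 ≤ cz a.1 ∧ (∀ v ∈ a.1, v ^ 2 = 1) ∧ FreeA a ∧
    ((cz a.1).relIndex (st a) = 1 ∨ (cz a.1).relIndex (st a) = 3) ∧ Nat.card B = 4 ∧
    blockRank 2 B = (cz a.1).relIndex (st a) ∧ ∀ v ∈ a.1, v ≠ 1 → LocQ 2 a (Subgroup.zpowers v) := by
  classical
  haveI : Fact (Nat.Prime 2) := ⟨Nat.prime_two⟩
  obtain ⟨P, z⟩ := a
  have hPp : IsPGroup 2 P := hmax.1.1
  have hc4 : Nat.card P = 4 := hV.card_four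
  have hsq : ∀ v ∈ P, v ^ 2 = 1 := by
    intro v hv
    have h1 := Monoid.pow_exponent_eq_one (⟨v, hv⟩ : P)
    rw [hV.exponent_two] at h1
    exact congrArg Subtype.val h1
  have hcomm : ∀ x ∈ P, ∀ y ∈ P, x * y = y * x := by
    intro x hx y hy
    have h1 : (x * y) * (x * y) = 1 := by rw [← pow_two]; exact hsq _ (P.mul_mem hx hy)
    have h2 : x * x = 1 := by rw [← pow_two]; exact hsq _ hx
    have h3 : y * y = 1 := by rw [← pow_two]; exact hsq _ hy
    calc x * y = x * ((x * y) * (x * y)) * y := by rw [h1, mul_one]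
      _ = (x * x) * y * x * (y * y) := by group
      _ = y * x := by rw [h2, h3]; group
  have hab : P ≤ cz P := by
    intro x hx
    rw [Subgroup.mem_centralizer_iff]
    intro y hy
    exact hcomm y hy x hx
  have hBt := isBl_top hB
  have hfx : Fx (cz P) z := hmax.1.2.2.2.1.fx
  have hczst : cz P ≤ st (P, z) := cz_le_st (a := (P, z)) hfx
  set e := (cz P).relIndex (st (P, z)) with he'
  have hodd : ¬ 2 ∣ (cz P).relIndex (st (P, z)) := by
    have h1 := inertial_index hM hBt hmax
    rwa [sup_eq_right.2 hab] at h1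
  have hnor : ((cz P).subgroupOf (st (P, z))).Normal := by
    refine ⟨fun n hn g => ?_⟩
    rw [Subgroup.mem_subgroupOf] at hn ⊢
    have h3 : (g : G) ∈ nz P := g.2.1
    have h4 := nz_le_nz_cz P h3
    exact (Subgroup.mem_normalizer_iff.1 h4 _).1 hn
  have hfree : FreeA (P, z) := by
    intro x hx v hv hv1 hxv
    apply odd_mem hczst hnor hodd hx
    rw [Subgroup.mem_centralizer_iff]
    intro w hw
    haveI := hV
    have hxw : x * w * x⁻¹ = w ∨ x * w * x⁻¹ = v * w := by
      by_cases h1 : w = 1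
      · left; rw [h1]; group
      by_cases h2 : w = v
      · left; rw [h2]; exact hxv
      have hxw1 : x * w * x⁻¹ ∈ P := (Subgroup.mem_normalizer_iff.1 (show x ∈ Subgroup.normalizer (P : Set G) from hx.1) w).1 hw
      by_cases h3 : x * w * x⁻¹ = w
      · left; exact h3
      right
      have h4 := IsKleinFour.eq_mul_of_ne_all (x := (⟨v, hv⟩ : P)) (y := ⟨w, hw⟩) (z := ⟨x * w * x⁻¹, hxw1⟩)
        (fun h => hv1 (congrArg Subtype.val h)) (fun h => h1 (congrArg Subtype.val h))
        (fun h => h2 (congrArg Subtype.val h).symm)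
        (fun h => h1 (by
          have h5 : x * w * x⁻¹ = 1 := congrArg Subtype.val h
          have h6 : w = x⁻¹ * (x * w * x⁻¹) * x := by group
          rw [h6, h5]; group))
        (fun h => h2 (by
          have h5 : x * w * x⁻¹ = v := congrArg Subtype.val h
          rw [← hxv] at h5
          exact mul_left_cancel (mul_right_cancel h5)))
        (fun h => h3 (congrArg Subtype.val h))
      exact congrArg Subtype.val h4
    have hx2 : x ^ 2 * w * (x ^ 2)⁻¹ = w := by
      have e1 : x ^ 2 * w * (x ^ 2)⁻¹ = x * (x * w * x⁻¹) * x⁻¹ := by rw [pow_two]; group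
      rw [e1]
      rcases hxw with h | h
      · rw [h, h]
      · rw [h]
        have e2 : x * (v * w) * x⁻¹ = (x * v * x⁻¹) * (x * w * x⁻¹) := by group
        rw [e2, hxv, h, ← mul_assoc, ← pow_two, hsq v hv, one_mul]
    have h7 : x ^ 2 * w = w * x ^ 2 := by
      have := congrArg (· * x ^ 2) hx2
      simpa using this
    exact h7.symm
  have hloc : ∀ v ∈ P, v ≠ 1 → LocQ 2 (P, z) (Subgroup.zpowers v) := by
    intro v hv hv1
    exact free_loc hM hBt hmax hab hfree (Q := Subgroup.zpowers v) (by rw [Subgroup.zpowers_le]; exact hv)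
      (by rw [Ne, Subgroup.zpowers_eq_bot]; exact hv1)
  have hcount := free_count hM hB hmax hab hfree
  rw [show (cz ((P, z) : Subgroup G × MonoidAlgebra (kk M) G).1).relIndex (st (P, z)) = e from rfl,
    show Nat.card ((P, z) : Subgroup G × MonoidAlgebra (kk M) G).1 = 4 from hc4] at hcount
  have hne : P ≠ ⊥ := by
    intro h
    rw [h, Subgroup.card_bot] at hc4
    omega
  obtain ⟨v, hv, hv1⟩ := exists_ne_one hne
  have horb := card_orbit (a := (P, z)) hfree hv hv1
  have hle3 : e ≤ 3 := by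
    rw [he', ← horb]
    haveI := Fintype.ofFinite P
    have h1 : Nat.card {w : P // ∃ t ∈ st (P, z), (w : G) = t * v * t⁻¹} ≤ Nat.card {w : P // w ≠ 1} := by
      apply Nat.card_le_card_of_injective (fun w => (⟨w.1, ?_⟩ : {w : P // w ≠ 1}))
      · intro w w' h
        exact Subtype.ext (congrArg (fun z : {w : P // w ≠ 1} => z.1) h)
      · rintro h
        obtain ⟨t, ht, h2⟩ := w.2
        rw [h] at h2
        apply hv1
        have h3 : v = t⁻¹ * (t * v * t⁻¹) * t := by group
        rw [h3, ← h2]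
        simp
    have h2 : Nat.card {w : P // w ≠ 1} = 3 := by
      rw [Nat.card_eq_fintype_card, Fintype.card_subtype_compl, ← Nat.card_eq_fintype_card, hc4]
      simp
    exact h1.trans (le_of_eq h2)
  have he0 : e ≠ 0 := Subgroup.index_ne_zero_of_finite
  have he13 : e = 1 ∨ e = 3 := by
    have : e ≠ 2 := fun h => hodd (by rw [← he', h])
    omega
  refine ⟨hab, hsq, hfree, he13, ?_⟩
  rw [← and_assoc]
  refine ⟨?_, hloc⟩
  rcases he13 with h1 | h3
  · have hst : st (P, z) ≤ cz P := by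
      rw [← Subgroup.relIndex_eq_one, ← he', h1]
    have hn : NilB 2 (idB M B) := (nilB_abelian_iff hM hBt hmax hab).2 hst
    obtain ⟨θ, hθ⟩ := nil_R1 hM hB hn
    have hr := hθ.rank
    rw [h1, hr] at hcount
    refine ⟨by omega, ?_⟩
    show blockRank 2 B = e
    rw [hr, h1]
  · rw [h3] at hcount
    have hl0 : blockRank 2 B ≠ 0 := blockRank_ne_zero hM hB
    have h4 := four_count hM hB hmax hab hc4 hv (hsq v hv) (hloc v hv hv1) (by omega)
    refine ⟨h4, ?_⟩
    show blockRank 2 B = e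
    rw [h3]; omega

end Pack

end CfsgKf
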