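import Cfsg.Agent.H4.Kf1
import Cfsg.Agent.H5.EqDeg4
import Cfsg.Agent.H4.Nil11

set_option autoImplicit false
set_option linter.all false

/-! # Values of class functions vanishing on singular elements -/

open Cfsg MonoidAlgebra
open CfsgH4 hiding centralChar sum_conj regInner_symm ev_ca
open CfsgH5 CfsgSub CfsgAb CfsgDo ComplexConjugate

namespace CfsgKf

section Proj

variable {G : Type*} [Group G] [Fintype G] {M : Ideal AlgInt} {p : ℕ} [hp : Fact p.Prime]

theorem avg_int (Q : Subgroup G) [Fintype Q] {s : G} (hs : ∀ q ∈ Q, q * s = s * q) {χ : G → ℂ} (hχ : IsCharacter G χ) :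
    IsIntegral ℤ ((Nat.card Q : ℂ)⁻¹ * ∑ q : Q, χ (s * q)) := by
  classical
  have hcQ : (Nat.card Q : ℂ) ≠ 0 := by exact_mod_cast Nat.card_pos.ne'
  set j : MonoidAlgebra ℂ G := mkA fun g => if g ∈ Q then (Nat.card Q : ℂ)⁻¹ else 0 with hj
  have hjj : j * j = j := by
    refine algExt fun x => ?_
    rw [coeff_mul_left]
    have h1 : ∀ g : G, j.coeff g * j.coeff (g⁻¹ * x) = if g ∈ Q then (Nat.card Q : ℂ)⁻¹ * j.coeff x else 0 := by
      intro g
      rw [hj, coeff_mkA, coeff_mkA, coeff_mkA]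
      by_cases hg : g ∈ Q
      · rw [if_pos hg, if_pos hg]
        have : g⁻¹ * x ∈ Q ↔ x ∈ Q := Q.mul_mem_cancel_left (Q.inv_mem hg)
        simp only [this]
      · rw [if_neg hg, if_neg hg, zero_mul]
    rw [Finset.sum_congr rfl fun g _ => h1 g, ← Finset.sum_filter, Finset.sum_const, nsmul_eq_mul]
    have h2 : ((Finset.univ.filter fun g : G => g ∈ Q).card : ℂ) = Nat.card Q := by
      rw [Nat.card_eq_fintype_card, Fintype.card_subtype]
    rw [h2, ← mul_assoc, mul_inv_cancel₀ hcQ, one_mul]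
  have hfx : Fx (Subgroup.zpowers s) j := by
    intro x hx g
    rw [hj, coeff_mkA, coeff_mkA]
    obtain ⟨n, rfl⟩ := Subgroup.mem_zpowers_iff.1 hx
    have hcomm : ∀ q ∈ Q, s ^ n * q * (s ^ n)⁻¹ = q := by
      intro q hq
      have h1 : Commute (s ^ n) q := Commute.zpow_left (hs q hq).symm n
      rw [h1.eq, mul_inv_cancel_right]
    have hcomm' : ∀ q ∈ Q, (s ^ n)⁻¹ * q * (s ^ n) = q := by
      intro q hq
      have h1 : Commute ((s ^ n)⁻¹) q := by rw [← zpow_neg]; exact Commute.zpow_left (hs q hq).symm (-n)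
      rw [h1.eq, inv_mul_cancel_right]
    have : s ^ n * g * (s ^ n)⁻¹ ∈ Q ↔ g ∈ Q := by
      constructor
      · intro h
        have h2 := hcomm' _ h
        have h3 : (s ^ n)⁻¹ * (s ^ n * g * (s ^ n)⁻¹) * (s ^ n) = g := by group
        rw [h3] at h2
        rw [h2]; exact h
      · intro h
        rw [hcomm g h]; exact h
    simp only [this]
  have h1 := isCharacter_cut (Subgroup.zpowers s) hjj hfx hχ
  have h2 := IsCharacter.isIntegral h1 ⟨s, Subgroup.mem_zpowers s⟩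
  have h3 : ev χ (single s 1 * j) = (Nat.card Q : ℂ)⁻¹ * ∑ q : Q, χ (s * q) := by
    rw [ev_single_mul, Finset.mul_sum]
    have h4 : ∀ g : G, j.coeff g * χ (s * g) = if g ∈ Q then (Nat.card Q : ℂ)⁻¹ * χ (s * g) else 0 := by
      intro g
      rw [hj, coeff_mkA]
      split_ifs
      · rfl
      · rw [zero_mul]
    rw [Finset.sum_congr rfl fun g _ => h4 g, ← Finset.sum_filter]
    rw [Finset.sum_subtype (p := fun g => g ∈ Q) _ (fun x => by simp) (fun g => (Nat.card Q : ℂ)⁻¹ * χ (s * g))]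
  rw [← h3]
  exact h2

theorem sing_mul {s q : G} (hs : ¬ p ∣ orderOf s) (hsq : q * s = s * q) (hq : ∃ k, orderOf q = p ^ k) (hq1 : q ≠ 1) :
    p ∣ orderOf (s * q) := by
  obtain ⟨k, hk⟩ := hq
  have hcop : (orderOf s).Coprime (orderOf q) := by
    rw [hk]
    exact Nat.Coprime.pow_right k ((hp.out.coprime_iff_not_dvd.2 hs).symm)
  have h1 := Commute.orderOf_mul_eq_mul_orderOf_of_coprime (show Commute s q from hsq.symm) hcop
  rw [h1, hk]
  have hk0 : k ≠ 0 := by
    intro h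
    rw [h, pow_zero, orderOf_eq_one_iff] at hk
    exact hq1 hk
  exact (dvd_pow_self p hk0).mul_left _

/-- the values of a generalized character vanishing on singular elements -/
theorem proj_div (hM : IsPModular p M) (r : IrrCharacter G → ℂ) (hr : ∀ χ, IsIntegral ℤ (r χ))
    (hf : ∀ g : G, p ∣ orderOf g → ∑ χ : IrrCharacter G, r χ * (χ : G → ℂ) g = 0) (s : G) :
    MemLocalRing M ((∑ χ : IrrCharacter G, r χ * (χ : G → ℂ) s) / (Nat.card (Subgroup.centralizer ({s} : Set G)) : ℂ)) := by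
  classical
  haveI := IsPModular.isPrime hM
  by_cases hs : p ∣ orderOf s
  · rw [hf s hs, zero_div]; exact memLocalRing_zero
  set C := Subgroup.centralizer ({s} : Set G) with hC
  obtain ⟨Q₀⟩ : Nonempty (Sylow p C) := inferInstance
  set Q : Subgroup G := (Q₀ : Subgroup C).map C.subtype with hQ
  haveI : Fintype Q := Fintype.ofFinite _
  have hcQ : Nat.card Q = Nat.card (Q₀ : Subgroup C) := (Nat.card_congr (Subgroup.equivMapOfInjective _ _ C.subtype_injective).toEquiv).symm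
  have hcom : ∀ q ∈ Q, q * s = s * q := by
    rintro _ ⟨y, -, rfl⟩
    exact (Subgroup.mem_centralizer_singleton_iff.1 y.2).symm ▸ rfl
  have hp' : ∀ q ∈ Q, ∃ k, orderOf q = p ^ k := by
    rintro _ ⟨y, hy, rfl⟩
    obtain ⟨k, hk⟩ := IsPGroup.iff_orderOf.1 Q₀.isPGroup' ⟨y, hy⟩
    refine ⟨k, ?_⟩
    rw [← hk, Subgroup.orderOf_mk]
    exact Subgroup.orderOf_coe y
  have hcQ0 : (Nat.card Q : ℂ) ≠ 0 := by exact_mod_cast Nat.card_pos.ne'
  have h1 : (∑ χ : IrrCharacter G, r χ * (χ : G → ℂ) s) * (Nat.card Q : ℂ)⁻¹ =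
      ∑ χ : IrrCharacter G, r χ * ((Nat.card Q : ℂ)⁻¹ * ∑ q : Q, (χ : G → ℂ) (s * q)) := by
    have h2 : ∑ q : Q, ∑ χ : IrrCharacter G, r χ * (χ : G → ℂ) (s * q) = ∑ χ : IrrCharacter G, r χ * (χ : G → ℂ) s := by
      rw [Finset.sum_eq_single (1 : Q)]
      · simp
      · intro q _ hq
        exact hf _ (sing_mul hs (hcom q q.2) (hp' q q.2) (fun h => hq (Subtype.ext h)))
      · intro h; exact absurd (Finset.mem_univ _) h
    rw [← h2, Finset.sum_comm, Finset.sum_mul]
    refine Finset.sum_congr rfl fun χ _ => ?_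
    rw [← Finset.mul_sum]; ring
  have h2 : IsIntegral ℤ ((∑ χ : IrrCharacter G, r χ * (χ : G → ℂ) s) * (Nat.card Q : ℂ)⁻¹) := by
    rw [h1]
    exact IsIntegral.sum _ fun χ _ => (hr χ).mul (avg_int Q hcom (IsIrr.isCharacter χ.2))
  have h3 : Nat.card C = Nat.card Q * (Q₀ : Subgroup C).index := by
    rw [hcQ, Subgroup.card_mul_index]
  have h4 : ¬ p ∣ (Q₀ : Subgroup C).index := Q₀.not_dvd_index
  have h5 : (∑ χ : IrrCharacter G, r χ * (χ : G → ℂ) s) / (Nat.card C : ℂ) =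
      ((∑ χ : IrrCharacter G, r χ * (χ : G → ℂ) s) * (Nat.card Q : ℂ)⁻¹) * (((Q₀ : Subgroup C).index : ℂ))⁻¹ := by
    rw [h3, Nat.cast_mul, div_eq_mul_inv, mul_inv]; ring
  rw [h5]
  exact MemLocalRing.mul (memLocalRing_of_isIntegral h2) (memLocalRing_natCast_inv hM h4)

end Proj

end CfsgKf
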