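import Cfsg.Agent.H4.Kf2

set_option autoImplicit false
set_option linter.all false

/-! # Local sign vectors -/

open Cfsg MonoidAlgebra
open CfsgH4 hiding centralChar sum_conj regInner_symm
open CfsgH5 hiding ev_ca
open CfsgSub CfsgAb CfsgDo ComplexConjugate

namespace CfsgKf

section Theta

variable {C : Type*} [Group C] [Fintype C] {M : Ideal AlgInt} {p : ℕ} [hp : Fact p.Prime]

theorem theta_div (hM : IsPModular p M) {e : Set (IrrCharacter C)} (he : IsPBlock M e) {θ : IrrCharacter C} (hθ : θ ∈ e)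
    {s : C} (hs : ¬ p ∣ orderOf s) :
    MemLocalRing M ((p : ℂ) ^ blockDefect p e * (θ : C → ℂ) s / (Nat.card (Subgroup.centralizer ({s} : Set C)) : ℂ)) := by
  classical
  haveI := IsPModular.isPrime hM
  have hcC : (Nat.card C : ℂ) ≠ 0 := by exact_mod_cast Nat.card_pos.ne'
  set F : C → ℂ := fun g => if p ∣ orderOf g then 0 else (p : ℂ) ^ blockDefect p e * (θ : C → ℂ) g with hF
  have hFc : IsClassFunction C F := by
    intro g x
    have h1 : orderOf (x * g * x⁻¹) = orderOf g := by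
      have := orderOf_injective (MulAut.conj x).toMonoidHom (MulAut.conj x).injective g
      simpa using this
    simp only [hF, h1, IsIrr.isClassFunction θ.2 g x]
  have hin : ∀ ζ : IrrCharacter C, classInner F (ζ : C → ℂ) = (cA p e θ ζ : ℂ) := by
    intro ζ
    have h1 : classInner F (ζ : C → ℂ) = (Nat.card C : ℂ)⁻¹ * ((p : ℂ) ^ blockDefect p e * regInner p (θ : C → ℂ) (ζ : C → ℂ)) := by
      rw [classInner_def, regInner]
      congr 1
      rw [Finset.mul_sum]
      refine Finset.sum_congr rfl fun g _ => ?_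
      simp only [hF]
      split_ifs
      · rw [zero_mul, mul_zero]
      · ring
    rw [h1]
    by_cases hζ : ζ ∈ e
    · rw [cA_spec hM he hθ hζ, ← mul_assoc, inv_mul_cancel₀ hcC, one_mul]
    · rw [regInner_eq_zero' hM (inS_eSet he) hθ hζ, cA_off (Or.inr hζ), mul_zero, mul_zero, Int.cast_zero]
  have hexp : ∀ g : C, ∑ ζ : IrrCharacter C, (cA p e θ ζ : ℂ) * (ζ : C → ℂ) g = F g := by
    intro g
    rw [classFun_expand_apply hFc g]
    exact Finset.sum_congr rfl fun ζ _ => by rw [hin]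
  have h1 := proj_div hM (fun ζ : IrrCharacter C => (cA p e θ ζ : ℂ)) (fun ζ => isIntegral_algebraMap (R := ℤ) (x := cA p e θ ζ))
    (fun g hg => by rw [hexp g]; simp only [hF, if_pos hg]) s
  rw [hexp s] at h1
  simp only [hF, if_neg hs] at h1
  exact h1

end Theta

section Vec

variable {G : Type*} [Group G] [Fintype G] {M : Ideal AlgInt} [hMp : M.IsPrime]

theorem card_split {v s : G} (hv : ∃ k, orderOf v = 2 ^ k) (hvs : v * s = s * v) (hs : ¬ 2 ∣ orderOf s)
    (hsC : s ∈ cz (Subgroup.zpowers v)) :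
    Nat.card (Subgroup.centralizer ({(⟨s, hsC⟩ : cz (Subgroup.zpowers v))} : Set (cz (Subgroup.zpowers v)))) =
      Nat.card (Subgroup.centralizer ({v * s} : Set G)) := by
  haveI : Fact (Nat.Prime 2) := ⟨Nat.prime_two⟩
  have hpp : IsPPart 2 (v * s) v := ⟨s, rfl, hvs, hv, hs⟩
  refine Nat.card_congr
    { toFun := fun g => ⟨(g.1 : G), ?_⟩
      invFun := fun g => ⟨⟨g.1, ?_⟩, ?_⟩
      left_inv := fun g => rfl
      right_inv := fun g => rfl }
  · rw [Subgroup.mem_centralizer_singleton_iff]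
    have h1 := Subgroup.mem_centralizer_singleton_iff.1 g.2
    have h2 : (g.1 : G) * s = s * (g.1 : G) := congrArg Subtype.val h1
    have h3 : v * (g.1 : G) = (g.1 : G) * v := mem_cz_zpowers.1 g.1.2
    calc (g.1 : G) * (v * s) = ((g.1 : G) * v) * s := by group
      _ = v * ((g.1 : G) * s) := by rw [← h3]; group
      _ = v * s * (g.1 : G) := by rw [h2]; group
  · rw [mem_cz_zpowers]
    have h1 : v * s ∈ Subgroup.centralizer ({(g.1 : G)} : Set G) := by
      rw [Subgroup.mem_centralizer_singleton_iff]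
      exact (Subgroup.mem_centralizer_singleton_iff.1 g.2).symm
    exact Subgroup.mem_centralizer_singleton_iff.1 (ppart_mem hpp h1)
  · rw [Subgroup.mem_centralizer_singleton_iff]
    apply Subtype.ext
    show (g.1 : G) * s = s * g.1
    have h1 : v * s ∈ Subgroup.centralizer ({(g.1 : G)} : Set G) := by
      rw [Subgroup.mem_centralizer_singleton_iff]
      exact (Subgroup.mem_centralizer_singleton_iff.1 g.2).symm
    have h2 := ppart_mem hpp h1
    have h3 : s ∈ Subgroup.centralizer ({(g.1 : G)} : Set G) := by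
      have h4 := Subgroup.mul_mem _ (Subgroup.inv_mem _ h2) h1
      have h5 : v⁻¹ * (v * s) = s := by group
      rwa [h5] at h4
    exact (Subgroup.mem_centralizer_singleton_iff.1 h3).symm

/-- the value vector of a subsection -/
noncomputable def Wv (v : G) (b : MonoidAlgebra (kk M) G) (χ : G → ℂ) : ℂ :=
  ev χ (single v 1 * lb (cz (Subgroup.zpowers v)) b)

theorem Wv_conj {v : G} {b : MonoidAlgebra (kk M) G} (hb : IsBl (cz (Subgroup.zpowers v)) b) {χ : G → ℂ} (hχ : IsClassFunction G χ)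
    (x : G) : Wv (x * v * x⁻¹) (ca x b) χ = Wv v b χ := by
  rw [Wv, Wv]
  have h1 : cz (Subgroup.zpowers (x * v * x⁻¹)) = cj x (cz (Subgroup.zpowers v)) := by
    rw [← zp_conj, cz_cj]
  rw [h1, lb_ca hb x, ← CfsgH4.ca_single x v (1 : ℂ), ← ca_mul, CfsgH4.ev_ca hχ]

/-- the sign vectors of the local blocks -/
structure SVec (B : Set (IrrCharacter G)) (n : IrrCharacter G → ℤ) (v : G) (b : MonoidAlgebra (kk M) G) : Prop where
  ne : v ≠ 1
  pp : ∃ k, orderOf v = 2 ^ k
  bl : IsBl (cz (Subgroup.zpowers v)) b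
  of : Of 2 ⊤ (idB M B) (Subgroup.zpowers v, b)
  on : ∀ χ ∈ B, n χ = 1 ∨ n χ = -1
  off : ∀ χ, χ ∉ B → n χ = 0
  w : ∃ m : ℝ, 0 < m ∧ ∀ χ : IrrCharacter G, Wv v b (χ : G → ℂ) = (n χ : ℂ) * (m : ℂ)

theorem klein_cj {P : Subgroup G} (h : IsKleinFour P) (x : G) : IsKleinFour (cj x P) := by
  have e := cjEquiv x (H := P) (K := cj x P) rfl
  refine ⟨?_, ?_⟩
  · rw [← h.card_four]; exact (Nat.card_congr e.toEquiv).symm
  · rw [← h.exponent_two]; exact (Monoid.exponent_eq_of_mulEquiv e).symm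

end Vec

end CfsgKf
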