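import Cfsg.Agent.H4.Kf3

set_option autoImplicit false
set_option linter.all false

/-! # Local sign vectors, existence -/

open Cfsg MonoidAlgebra
open CfsgH4 hiding centralChar sum_conj regInner_symm
open CfsgH5 hiding ev_ca
open CfsgSub CfsgAb CfsgDo ComplexConjugate

namespace CfsgKf

section Vec

variable {G : Type*} [Group G] [Fintype G] {M : Ideal AlgInt} [hMp : M.IsPrime]

theorem exists_svec (hM : IsPModular 2 M) {B : Set (IrrCharacter G)} (hB : IsPBlock M B)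
    {a₀ : Subgroup G × MonoidAlgebra (kk M) G} (hmax₀ : MP 2 ⊤ (idB M B) a₀) (hV : IsKleinFour a₀.1)
    {v : G} {b : MonoidAlgebra (kk M) G} (hv1 : v ≠ 1) (hvp : ∃ k, orderOf v = 2 ^ k) (hbl : IsBl (cz (Subgroup.zpowers v)) b)
    (hof : Of 2 ⊤ (idB M B) (Subgroup.zpowers v, b)) :
    ∃ n : IrrCharacter G → ℤ, SVec (M := M) B n v b ∧ (∀ s : G, v * s = s * v → ¬ 2 ∣ orderOf s →
      ∃ φ : ℂ, IsIntegral ℤ φ ∧ MemLocalRing M (4 * φ / (Nat.card (Subgroup.centralizer ({v * s} : Set G)) : ℂ)) ∧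
        ∀ χ : IrrCharacter G, ev (χ : G → ℂ) (single (v * s) 1 * lb (cz (Subgroup.zpowers v)) b) = (n χ : ℂ) * φ) ∧
      ∀ a' : Subgroup G × MonoidAlgebra (kk M) G, bq 2 a' (Subgroup.zpowers v) = b → ∀ χ ψ : IrrCharacter G,
        4 * Tm 2 a' v (χ : G → ℂ) (ψ : G → ℂ) = (n χ : ℂ) * n ψ := by
  classical
  haveI : Fact (Nat.Prime 2) := ⟨Nat.prime_two⟩
  have hBt := isBl_top hB
  obtain ⟨a, hmax, hle⟩ := exists_MP_ge hof
  obtain ⟨x, -, hx⟩ := mp_conj hM hBt hmax₀ hmax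
  have hVa : IsKleinFour a.1 := by rw [hx]; exact klein_cj hV x
  obtain ⟨hab, hsq, hfree, he13, hk4, hl, hloc⟩ := klein_pack hM hB hmax hVa
  have hva : v ∈ a.1 := hle.le (Subgroup.mem_zpowers v)
  obtain ⟨e, θ, he, hid, hθ⟩ := hloc v hva hv1
  have hbq : bq 2 a (Subgroup.zpowers v) = b := bq_eq hM hle
  haveI := Fintype.ofFinite (cz (Subgroup.zpowers v))
  have hu := uc_center v
  have hQ : Subgroup.zpowers v ≤ a.1 := hle.le
  have hof' := hof
  rw [← hbq, ← hid] at hof'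
  have hind := (of_iff_ind hM hvp he hB).1 hof'
  obtain ⟨hcd, hdd⟩ := loc_defect hM hB hmax hab hQ he hid
  rw [hVa.card_four] at hcd
  have hθ1 : (θ : cz (Subgroup.zpowers v) → ℂ) 1 ≠ 0 := IsIrr.one_ne_zero θ.2
  -- integrality
  have hint : ∀ χ : IrrCharacter G, ∃ n : ℤ, Rf e θ (uc v) (χ : G → ℂ) = n := by
    intro χ
    have hd : ∀ ζ : IrrCharacter (cz (Subgroup.zpowers v)), ∃ d : ℕ, ζ ∈ e → (ζ : cz (Subgroup.zpowers v) → ℂ) 1 = d * (θ : cz (Subgroup.zpowers v) → ℂ) 1 := by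
      intro ζ
      by_cases hζ : ζ ∈ e
      · obtain ⟨d, hd⟩ := hθ.2 ζ hζ
        exact ⟨d, fun _ => hd 1 not_dvd_orderOf_one⟩
      · exact ⟨0, fun h => absurd h hζ⟩
    choose d hd using hd
    have hw : ∀ ζ : IrrCharacter (cz (Subgroup.zpowers v)), ∃ n : ℤ, wt (uc v) ζ = n := by
      intro ζ
      have h1 := wt_root hu (N := 2) (show ((uc v : cz (Subgroup.zpowers v)) : G) ^ 2 = 1 from hsq v hva) ζ
      have h2 : (wt (uc v) ζ - 1) * (wt (uc v) ζ + 1) = 0 := by linear_combination h1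
      rcases mul_eq_zero.1 h2 with h | h
      · exact ⟨1, by rw [Int.cast_one]; linear_combination h⟩
      · exact ⟨-1, by rw [Int.cast_neg, Int.cast_one]; linear_combination h⟩
    choose w hw using hw
    refine ⟨∑ ζ, if ζ ∈ e then mz (cz (Subgroup.zpowers v)) (χ : G → ℂ) ζ * d ζ * w ζ else 0, ?_⟩
    rw [Rf, Xf_wt hu, Finset.sum_div]
    push_cast
    refine Finset.sum_congr rfl fun ζ _ => ?_
    split_ifs with hζ
    · rw [hd ζ hζ, mz_spec, hw]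
      push_cast
      field_simp
    · rw [zero_div]
  choose n hn using hint
  -- the norm
  have hCeq := cz_zpowers_eq v
  have hsum : ∑ χ : IrrCharacter G, (n χ) ^ 2 = 4 := by
    have h1 := ctr_trace (u := uc v) hM hCeq hvp he
    rw [hθ.rank, Nat.cast_one] at h1
    have h2 : ∑ χ : IrrCharacter G, ((2 : ℕ) : ℂ) ^ blockDefect 2 e * ctr 2 (uc v) e (χ : G → ℂ) (χ : G → ℂ) = ((∑ χ : IrrCharacter G, (n χ) ^ 2 : ℤ) : ℂ) := by
      push_cast
      refine Finset.sum_congr rfl fun χ _ => ?_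
      have h3 := ctr_Rf hM he hθ hu (χ : G → ℂ) (χ : G → ℂ)
      rw [hn, show conj ((n χ : ℤ) : ℂ) = ((n χ : ℤ) : ℂ) from map_intCast (starRingEnd ℂ) (n χ)] at h3
      push_cast at h3
      rw [h3]; ring
    rw [← Finset.mul_sum, h1, mul_one] at h2
    have h3 : (((2 : ℕ) : ℂ)) ^ blockDefect 2 e = 4 := by exact_mod_cast hcd.symm
    rw [h3] at h2
    exact_mod_cast h2.symm
  have hnB : ∀ χ ∈ B, n χ ≠ 0 := by
    intro χ hχ h0
    obtain ⟨χ₀, hχ₀, h00⟩ := exists_height_zero 2 (B := B) (IsPBlock.nonempty hB)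
    have hxx := mz_not_mem hM hind hχ₀ h00
    have hne0 := ctr_ne_zero (u := uc v) hM hu he (aF_ne_zero (u := uc v) hM hu hvp hind hdd hxx hχ)
    have h3 := ctr_Rf hM he hθ hu (χ : G → ℂ) (χ : G → ℂ)
    rw [hn, h0, Int.cast_zero, zero_mul] at h3
    rcases mul_eq_zero.1 h3 with h | h
    · exact absurd h (pow_ne_zero _ (by norm_num))
    · exact hne0 h
  have hnot : ∀ χ, χ ∉ B → n χ = 0 := by
    intro χ hχ
    have h1 := hn χ
    rw [Rf, Xf_zero (u := uc v) hM hCeq hvp hind hχ (not_dvd_orderOf_one), zero_div] at h1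
    exact_mod_cast h1.symm
  set S : Finset (IrrCharacter G) := Finset.univ.filter (fun χ => χ ∈ B) with hS
  have hcardS : S.card = 4 := by
    rw [← hk4, hS, ← Fintype.card_subtype, ← Nat.card_eq_fintype_card]
  have hsumS : ∑ χ ∈ S, (n χ) ^ 2 = 4 := by
    rw [← hsum, hS, Finset.sum_filter]
    refine Finset.sum_congr rfl fun χ _ => ?_
    split_ifs with h
    · rfl
    · rw [hnot χ h]; ring
  have hone : ∀ χ ∈ S, (n χ) ^ 2 = 1 := by
    have h1 : ∑ χ ∈ S, ((n χ) ^ 2 - 1) = 0 := by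
      rw [Finset.sum_sub_distrib, hsumS, Finset.sum_const, hcardS]; norm_num
    have h2 : ∀ χ ∈ S, 0 ≤ (n χ) ^ 2 - 1 := by
      intro χ hχ
      have h3 := hnB χ (Finset.mem_filter.1 hχ).2
      have : 0 < (n χ) ^ 2 := by positivity
      omega
    intro χ hχ
    have h3 := (Finset.sum_eq_zero_iff_of_nonneg h2).1 h1 χ hχ
    omega
  have hon : ∀ χ ∈ B, n χ = 1 ∨ n χ = -1 := by
    intro χ hχ
    have h := hone χ (Finset.mem_filter.2 ⟨Finset.mem_univ _, hχ⟩)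
    rcases mul_eq_zero.1 (show (n χ - 1) * (n χ + 1) = 0 by linear_combination h) with h | h
    · left; omega
    · right; omega
  have hev : ∀ (s : G) (hs : v * s = s * v), ¬ 2 ∣ orderOf s → ∀ χ : IrrCharacter G,
      ev (χ : G → ℂ) (single (v * s) 1 * lb (cz (Subgroup.zpowers v)) b) = (n χ : ℂ) * (θ : cz (Subgroup.zpowers v) → ℂ) ⟨s, mem_cz_zpowers.2 hs⟩ := by
    intro s hs hsr χ
    have h1 := ev_lb he (IsIrr.isClassFunction χ.2) (⟨s, mem_cz_zpowers.2 hs⟩ : cz (Subgroup.zpowers v))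
    rw [hid, hbq] at h1
    rw [h1, Xf_R1 hu hθ (χ : G → ℂ) (s := (⟨s, mem_cz_zpowers.2 hs⟩ : cz (Subgroup.zpowers v))) (by rw [Subgroup.orderOf_mk]; exact hsr)]
    have h2 := hn χ
    rw [Rf] at h2
    rw [h2]
  refine ⟨n, ⟨hv1, hvp, hbl, hof, hon, hnot, ?_⟩, ?_, ?_⟩
  · refine ⟨(charDegree (θ : cz (Subgroup.zpowers v) → ℂ) : ℝ), ?_, fun χ => ?_⟩
    · exact_mod_cast lt_of_lt_of_le Nat.zero_lt_one (IsIrr.one_eq θ.2).2
    · have h1 := hev 1 (by rw [mul_one, one_mul]) not_dvd_orderOf_one χ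
      have e1 : (single (v * 1) (1 : ℂ) : MonoidAlgebra ℂ G) = single v 1 := by rw [mul_one]
      rw [Wv, ← e1, h1]
      congr 1
      have h2 : (⟨1, mem_cz_zpowers.2 (by rw [mul_one, one_mul])⟩ : cz (Subgroup.zpowers v)) = 1 := rfl
      rw [h2, (IsIrr.one_eq θ.2).1]
      push_cast; rfl
  · intro s hs hsr
    refine ⟨(θ : cz (Subgroup.zpowers v) → ℂ) ⟨s, mem_cz_zpowers.2 hs⟩, IsCharacter.isIntegral (IsIrr.isCharacter θ.2) _, ?_, hev s hs hsr⟩
    have h1 := theta_div hM he hθ.1 (s := (⟨s, mem_cz_zpowers.2 hs⟩ : cz (Subgroup.zpowers v))) (by rw [Subgroup.orderOf_mk]; exact hsr)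
    rw [card_split hvp hs hsr] at h1
    have h3 : (((2 : ℕ) : ℂ)) ^ blockDefect 2 e = 4 := by exact_mod_cast hcd.symm
    rw [h3] at h1
    exact h1
  · intro a' ha' χ ψ
    have h1 : Tm 2 a' v (χ : G → ℂ) (ψ : G → ℂ) = Tm 2 a v (χ : G → ℂ) (ψ : G → ℂ) := by
      rw [Tm, Tm, ha', hbq]
    rw [h1, Tm_eq_ctr hM he hid]
    have h3 := ctr_Rf hM he hθ hu (χ : G → ℂ) (ψ : G → ℂ)
    rw [hn, hn, show conj ((n ψ : ℤ) : ℂ) = ((n ψ : ℤ) : ℂ) from map_intCast (starRingEnd ℂ) (n ψ)] at h3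
    have h4 : (((2 : ℕ) : ℂ)) ^ blockDefect 2 e = 4 := by exact_mod_cast hcd.symm
    rw [h4] at h3
    exact h3

end Vec

end CfsgKf
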