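import Cfsg.Agent.H4.Kf4

set_option autoImplicit false
set_option linter.all false

/-! # Local sign vectors, relations -/

open Cfsg MonoidAlgebra
open CfsgH4 hiding centralChar sum_conj regInner_symm
open CfsgH5 hiding ev_ca
open CfsgSub CfsgAb CfsgDo ComplexConjugate

namespace CfsgKf

section Vec

variable {G : Type*} [Group G] [Fintype G] {M : Ideal AlgInt} [hMp : M.IsPrime]

theorem SVec.conj {a : Subgroup G × MonoidAlgebra (kk M) G} {B : Set (IrrCharacter G)} {n : IrrCharacter G → ℤ} {v : G}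
    {b : MonoidAlgebra (kk M) G} (h : SVec B n v b) (hM : IsPModular 2 M) (hB : IsPBlock M B)
    (hmax : MP 2 ⊤ (idB M B) a) : ∃ v' ∈ a.1, v' ≠ 1 ∧
      ∀ χ : IrrCharacter G, Wv v' (bq 2 a (Subgroup.zpowers v')) (χ : G → ℂ) = Wv v b (χ : G → ℂ) := by
  haveI : Fact (Nat.Prime 2) := ⟨Nat.prime_two⟩
  obtain ⟨a', hmax', hle⟩ := exists_MP_ge h.of
  obtain ⟨x, -, hx⟩ := mp_conj hM (isBl_top hB) hmax' hmax
  have h1 := hle.cp x
  rw [← hx] at h1
  have h3 : cp x (Subgroup.zpowers v, b) = (Subgroup.zpowers (x * v * x⁻¹), ca x b) := by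
    rw [cp, ← zp_conj]
  rw [h3] at h1
  refine ⟨x * v * x⁻¹, h1.le (Subgroup.mem_zpowers _), ?_, fun χ => ?_⟩
  · intro h2
    apply h.ne
    have h4 : v = x⁻¹ * (x * v * x⁻¹) * x := by group
    rw [h4, h2]; group
  · rw [bq_eq hM h1, Wv_conj h.bl (IsIrr.isClassFunction χ.2)]

theorem SVec.unique {B : Set (IrrCharacter G)} (hB : IsPBlock M B) {n n' : IrrCharacter G → ℤ} {v v' : G}
    {b b' : MonoidAlgebra (kk M) G} (h : SVec B n v b) (h' : SVec B n' v' b')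
    (hW : ∀ χ : IrrCharacter G, Wv v b (χ : G → ℂ) = Wv v' b' (χ : G → ℂ)) : n = n' := by
  obtain ⟨m, hm, hw⟩ := h.w
  obtain ⟨m', hm', hw'⟩ := h'.w
  have h1 : ∀ χ : IrrCharacter G, (n χ : ℝ) * m = (n' χ : ℝ) * m' := by
    intro χ
    have h2 := hW χ
    rw [hw, hw'] at h2
    exact_mod_cast h2
  obtain ⟨χ₀, hχ₀⟩ := IsPBlock.nonempty hB
  have h2 := h1 χ₀
  have hmm : m = m' := by
    rcases h.on χ₀ hχ₀ with h3 | h3 <;> rcases h'.on χ₀ hχ₀ with h4 | h4 <;> rw [h3, h4] at h2 <;> push_cast at h2 <;> linarith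
  funext χ
  have h3 := h1 χ
  rw [← hmm] at h3
  exact_mod_cast mul_right_cancel₀ hm.ne' h3

variable {B : Set (IrrCharacter G)} {a : Subgroup G × MonoidAlgebra (kk M) G}

/-- the choice of sign vectors for the elements of the defect group -/
theorem exists_nv (hM : IsPModular 2 M) (hB : IsPBlock M B) (hmax : MP 2 ⊤ (idB M B) a) (hV : IsKleinFour a.1) :
    ∃ nv : G → IrrCharacter G → ℤ, ∀ v ∈ a.1, v ≠ 1 → SVec B (nv v) v (bq 2 a (Subgroup.zpowers v)) ∧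
      ∀ χ ψ : IrrCharacter G, 4 * Tm 2 a v (χ : G → ℂ) (ψ : G → ℂ) = (nv v χ : ℂ) * nv v ψ := by
  classical
  haveI : Fact (Nat.Prime 2) := ⟨Nat.prime_two⟩
  have h1 : ∀ v : G, ∃ n : IrrCharacter G → ℤ, (v ∈ a.1 → v ≠ 1 → SVec B n v (bq 2 a (Subgroup.zpowers v)) ∧
      ∀ χ ψ : IrrCharacter G, 4 * Tm 2 a v (χ : G → ℂ) (ψ : G → ℂ) = (n χ : ℂ) * n ψ) := by
    intro v
    by_cases hv : v ∈ a.1 ∧ v ≠ 1
    · have ha : IsBl (cz a.1) a.2 := hmax.1.2.2.2.1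
      have hap : IsPGroup 2 a.1 := hmax.1.1
      have hQ : Subgroup.zpowers v ≤ a.1 := by rw [Subgroup.zpowers_le]; exact hv.1
      have hup : ∃ k, orderOf v = 2 ^ k := by
        obtain ⟨k, hk⟩ := IsPGroup.iff_orderOf.1 hap ⟨v, hv.1⟩
        exact ⟨k, by rw [← hk, Subgroup.orderOf_mk]⟩
      have hle := bq_le hM hap ha hQ
      have hof : Of 2 ⊤ (idB M B) (Subgroup.zpowers v, bq 2 a (Subgroup.zpowers v)) :=
        (LE.of_iff hM (isBl_top hB) hle le_top le_top).2 hmax.1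
      obtain ⟨n, h1, -, h2⟩ := exists_svec hM hB hmax hV hv.2 hup (hle.isBl ha) hof
      exact ⟨n, fun _ _ => ⟨h1, h2 a rfl⟩⟩
    · exact ⟨0, fun h h' => absurd ⟨h, h'⟩ hv⟩
  choose nv hnv using h1
  exact ⟨nv, hnv⟩

/-- the row relation -/
theorem row4 (hM : IsPModular 2 M) (hB : IsPBlock M B) (hmax : MP 2 ⊤ (idB M B) a) (hV : IsKleinFour a.1) [Fintype a.1]
    {nv : G → IrrCharacter G → ℤ} (hnv : ∀ v ∈ a.1, v ≠ 1 → SVec B (nv v) v (bq 2 a (Subgroup.zpowers v)) ∧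
      ∀ χ ψ : IrrCharacter G, 4 * Tm 2 a v (χ : G → ℂ) (ψ : G → ℂ) = (nv v χ : ℂ) * nv v ψ) {χ ψ : IrrCharacter G}
    (hχ : χ ∈ B) (hψ : ψ ∈ B) :
    4 * (((cz a.1).relIndex (st a) : ℕ) : ℂ) * classInner (χ : G → ℂ) (ψ : G → ℂ) =
      (((cz a.1).relIndex (st a) : ℕ) : ℂ) * (4 / (Nat.card G : ℂ) * regInner 2 (χ : G → ℂ) (ψ : G → ℂ)) +
      ∑ v : a.1, (open Classical in if (v : G) = 1 then 0 else (nv v χ : ℂ) * nv v ψ) := by
  classical
  haveI : Fact (Nat.Prime 2) := ⟨Nat.prime_two⟩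
  obtain ⟨hab, hsq, hfree, he13, hk4, hl, hloc⟩ := klein_pack hM hB hmax hV
  have h1 := free_row' hM hB hmax hab hfree hχ hψ
  have h2 : ∀ v : a.1, (if (v : G) = 1 then 0 else (nv v χ : ℂ) * nv v ψ) =
      4 * (if (v : G) = 1 then 0 else Tm 2 a (v : G) (χ : G → ℂ) (ψ : G → ℂ)) := by
    intro v
    split_ifs with hv
    · rw [mul_zero]
    · rw [(hnv v v.2 hv).2]
  rw [Finset.sum_congr rfl fun v _ => h2 v, ← Finset.mul_sum, mul_assoc, h1]
  ring

open Classical in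
theorem card_ne_one (hV : IsKleinFour a.1) [Fintype a.1] :
    (Finset.univ.filter fun v : a.1 => ¬ (v : G) = 1).card = 3 := by
  have h1 : (Finset.univ.filter fun v : a.1 => ¬ (v : G) = 1) = Finset.univ.erase (1 : a.1) := by
    ext v
    rw [Finset.mem_filter, Finset.mem_erase]
    constructor
    · rintro ⟨_, h⟩
      exact ⟨fun h' => h (by rw [h']; rfl), Finset.mem_univ _⟩
    · rintro ⟨h, _⟩
      exact ⟨Finset.mem_univ _, fun h' => h (Subtype.ext h')⟩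
  rw [h1, Finset.card_erase_of_mem (Finset.mem_univ _), Finset.card_univ, ← Nat.card_eq_fintype_card, hV.card_four]

/-- transitivity -/
theorem trans3 (hM : IsPModular 2 M) (hB : IsPBlock M B) (hmax : MP 2 ⊤ (idB M B) a) (hV : IsKleinFour a.1)
    (h3 : (cz a.1).relIndex (st a) = 3) {v w : G} (hv : v ∈ a.1) (hv1 : v ≠ 1) (hw : w ∈ a.1) (hw1 : w ≠ 1) :
    ∃ t ∈ st a, w = t * v * t⁻¹ := by
  classical
  haveI : Fact (Nat.Prime 2) := ⟨Nat.prime_two⟩
  haveI : Fintype a.1 := Fintype.ofFinite _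
  obtain ⟨hab, hsq, hfree, he13, hk4, hl, hloc⟩ := klein_pack hM hB hmax hV
  have h1 := card_orbit hfree hv hv1
  rw [h3, Nat.card_eq_fintype_card, Fintype.card_subtype] at h1
  have h2 : (Finset.univ.filter fun w : a.1 => ∃ t ∈ st a, (w : G) = t * v * t⁻¹) =
      (Finset.univ.filter fun v : a.1 => ¬ (v : G) = 1) := by
    apply Finset.eq_of_subset_of_card_le
    · intro w hw
      rw [Finset.mem_filter] at hw ⊢
      refine ⟨hw.1, fun h => ?_⟩
      obtain ⟨t, ht, h2⟩ := hw.2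
      rw [h] at h2
      apply hv1
      have h3 : v = t⁻¹ * (t * v * t⁻¹) * t := by group
      rw [h3, ← h2]; group
    · rw [card_ne_one hV]; exact h1.ge
  have h4 : (⟨w, hw⟩ : a.1) ∈ (Finset.univ.filter fun v : a.1 => ¬ (v : G) = 1) :=
    Finset.mem_filter.2 ⟨Finset.mem_univ _, hw1⟩
  rw [← h2] at h4
  exact (Finset.mem_filter.1 h4).2

/-- for index three there is only one sign vector -/
theorem svec_eq3 (hM : IsPModular 2 M) (hB : IsPBlock M B) (hmax : MP 2 ⊤ (idB M B) a) (hV : IsKleinFour a.1)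
    (h3 : (cz a.1).relIndex (st a) = 3) {n n' : IrrCharacter G → ℤ} {v v' : G}
    {b b' : MonoidAlgebra (kk M) G} (h : SVec B n v b) (h' : SVec B n' v' b') : n = n' := by
  haveI : Fact (Nat.Prime 2) := ⟨Nat.prime_two⟩
  obtain ⟨w, hw, hw1, hW⟩ := h.conj hM hB hmax
  obtain ⟨w', hw', hw1', hW'⟩ := h'.conj hM hB hmax
  obtain ⟨t, ht, rfl⟩ := trans3 hM hB hmax hV h3 hw hw1 hw' hw1'
  have ha : IsBl (cz a.1) a.2 := hmax.1.2.2.2.1
  have hap : IsPGroup 2 a.1 := hmax.1.1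
  have hQ : Subgroup.zpowers w ≤ a.1 := by rw [Subgroup.zpowers_le]; exact hw
  have hle := bq_le hM hap ha hQ
  refine h.unique hB h' fun χ => ?_
  rw [← hW χ, ← hW' χ, (bq_st hM hap ha hw ht).2, Wv_conj (hle.isBl ha) (IsIrr.isClassFunction χ.2)]

end Vec

end CfsgKf
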