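import Cfsg.Agent.H4.Kf5

set_option autoImplicit false
set_option linter.all false

/-! # Local sign vectors: orthogonality -/

open Cfsg MonoidAlgebra
open CfsgH4 hiding centralChar sum_conj regInner_symm
open CfsgH5 hiding ev_ca
open CfsgSub CfsgAb CfsgDo ComplexConjugate

namespace CfsgKf

section Vec

variable {G : Type*} [Group G] [Fintype G] {M : Ideal AlgInt} [hMp : M.IsPrime]
variable {B : Set (IrrCharacter G)} {a : Subgroup G × MonoidAlgebra (kk M) G}

theorem zero_of_reg (n : IrrCharacter G → ℤ)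
    (h0 : ∑ χ : IrrCharacter G, ∑ ψ : IrrCharacter G, (n χ : ℂ) * n ψ * regInner 2 (χ : G → ℂ) (ψ : G → ℂ) = 0) {t : G}
    (ht : ¬ 2 ∣ orderOf t) : ∑ χ : IrrCharacter G, (n χ : ℂ) * (χ : G → ℂ) t = 0 := by
  classical
  set F : G → ℂ := fun t => ∑ χ : IrrCharacter G, (n χ : ℂ) * (χ : G → ℂ) t with hF
  have h1 : ∑ t : G, (if 2 ∣ orderOf t then (0 : ℂ) else F t * conj (F t)) = 0 := by
    refine Eq.trans ?_ h0
    have h2 : ∀ t : G, (if 2 ∣ orderOf t then (0 : ℂ) else F t * conj (F t)) =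
        ∑ χ : IrrCharacter G, ∑ ψ : IrrCharacter G, (n χ : ℂ) * n ψ * (if 2 ∣ orderOf t then 0 else (χ : G → ℂ) t * conj ((ψ : G → ℂ) t)) := by
      intro t
      split_ifs
      · simp
      · rw [hF]
        simp only
        rw [map_sum, Finset.sum_mul]
        refine Finset.sum_congr rfl fun χ _ => ?_
        rw [Finset.mul_sum]
        refine Finset.sum_congr rfl fun ψ _ => ?_
        rw [map_mul, show conj ((n ψ : ℤ) : ℂ) = ((n ψ : ℤ) : ℂ) from map_intCast (starRingEnd ℂ) (n ψ)]; ring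
    rw [Finset.sum_congr rfl fun t _ => h2 t, Finset.sum_comm]
    refine Finset.sum_congr rfl fun χ _ => ?_
    rw [Finset.sum_comm]
    refine Finset.sum_congr rfl fun ψ _ => ?_
    rw [regInner, Finset.mul_sum]
  have h2 : ∑ t : G, (if 2 ∣ orderOf t then (0 : ℝ) else Complex.normSq (F t)) = 0 := by
    have h3 : ((∑ t : G, (if 2 ∣ orderOf t then (0 : ℝ) else Complex.normSq (F t)) : ℝ) : ℂ) = 0 := by
      refine Eq.trans ?_ h1
      push_cast
      refine Finset.sum_congr rfl fun t _ => ?_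
      split_ifs
      · rfl
      · rw [Complex.mul_conj]
    exact_mod_cast h3
  have h3 := (Finset.sum_eq_zero_iff_of_nonneg (fun t _ => by split_ifs <;> [exact le_rfl; exact Complex.normSq_nonneg _])).1 h2 t (Finset.mem_univ _)
  rw [if_neg ht] at h3
  exact Complex.normSq_eq_zero.1 h3

theorem SVec.sq {n : IrrCharacter G → ℤ} {v : G} {b : MonoidAlgebra (kk M) G} (h : SVec B n v b) {χ : IrrCharacter G} (hχ : χ ∈ B) :
    n χ * n χ = 1 := by
  rcases h.on χ hχ with h1 | h1 <;> rw [h1] <;> norm_num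

open Classical in
theorem sum_B (hk4 : Nat.card B = 4) : ∑ χ : IrrCharacter G, (if χ ∈ B then (1 : ℂ) else 0) = 4 := by
  rw [← Finset.sum_filter, Finset.sum_const, nsmul_eq_mul, mul_one]
  have : (Finset.univ.filter fun χ : IrrCharacter G => χ ∈ B).card = 4 := by
    rw [← hk4, ← Fintype.card_subtype, ← Nat.card_eq_fintype_card]
  rw [this]; norm_num

theorem orth3 (hM : IsPModular 2 M) (hB : IsPBlock M B) (hmax : MP 2 ⊤ (idB M B) a) (hV : IsKleinFour a.1)
    (h3 : (cz a.1).relIndex (st a) = 3) {n : IrrCharacter G → ℤ} {v : G} {b : MonoidAlgebra (kk M) G} (h : SVec B n v b)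
    {t : G} (ht : ¬ 2 ∣ orderOf t) : ∑ χ : IrrCharacter G, (n χ : ℂ) * (χ : G → ℂ) t = 0 := by
  classical
  haveI : Fact (Nat.Prime 2) := ⟨Nat.prime_two⟩
  haveI : Fintype a.1 := Fintype.ofFinite _
  obtain ⟨hab, hsq, hfree, he13, hk4, hl, hloc⟩ := klein_pack hM hB hmax hV
  obtain ⟨nv, hnv⟩ := exists_nv hM hB hmax hV
  have hcG : (Nat.card G : ℂ) ≠ 0 := by exact_mod_cast Nat.card_pos.ne'
  have hrow : ∀ χ ψ : IrrCharacter G, (n χ : ℂ) * n ψ * regInner 2 (χ : G → ℂ) (ψ : G → ℂ) =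
      (Nat.card G : ℂ) / 4 * ((if χ = ψ then 4 * (if χ ∈ B then (1 : ℂ) else 0) else 0) - (if χ ∈ B then (1 : ℂ) else 0) * (if ψ ∈ B then (1 : ℂ) else 0)) := by
    intro χ ψ
    by_cases hχ : χ ∈ B
    · by_cases hψ : ψ ∈ B
      · have h1 := row4 hM hB hmax hV hnv hχ hψ
        rw [h3, classInner_irr'] at h1
        have h2 : ∀ w : a.1, (if (w : G) = 1 then (0 : ℂ) else (nv w χ : ℂ) * nv w ψ) = if ¬ (w : G) = 1 then (n χ : ℂ) * n ψ else 0 := by
          intro w
          by_cases hw : (w : G) = 1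
          · rw [if_pos hw, if_neg (not_not.2 hw)]
          · rw [if_neg hw, if_pos hw, svec_eq3 hM hB hmax hV h3 (hnv w w.2 hw).1 h]
        rw [Finset.sum_congr rfl fun w _ => h2 w, ← Finset.sum_filter, Finset.sum_const, card_ne_one hV, nsmul_eq_mul] at h1
        have e1 : (n χ : ℂ) * n χ = 1 := by exact_mod_cast h.sq hχ
        have e2 : (n ψ : ℂ) * n ψ = 1 := by exact_mod_cast h.sq hψ
        rw [if_pos hχ, if_pos hψ]
        have h4 : 4 / (Nat.card G : ℂ) * regInner 2 (χ : G → ℂ) (ψ : G → ℂ) = 4 * (if χ = ψ then 1 else 0) - (n χ : ℂ) * n ψ := by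
          push_cast at h1
          linear_combination (-1/3) * h1
        have h5 : regInner 2 (χ : G → ℂ) (ψ : G → ℂ) = (Nat.card G : ℂ) / 4 * (4 * (if χ = ψ then 1 else 0) - (n χ : ℂ) * n ψ) := by
          rw [← h4]; field_simp
        rw [h5]
        by_cases hχψ : χ = ψ
        · subst hχψ
          rw [if_pos rfl, if_pos rfl]
          linear_combination ((Nat.card G : ℂ) / 4 * 4 - (Nat.card G : ℂ) / 4 * ((n χ : ℂ) * n χ + 1)) * e1
        · rw [if_neg hχψ, if_neg hχψ]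
          linear_combination (-(Nat.card G : ℂ) / 4) * ((n ψ : ℂ) * n ψ * e1 + e2)
      · rw [h.off ψ hψ, if_neg hψ]
        have : χ ≠ ψ := fun h' => hψ (h' ▸ hχ)
        rw [if_neg this]; simp
    · rw [h.off χ hχ, if_neg hχ]
      simp
  apply zero_of_reg n _ ht
  rw [Finset.sum_congr rfl fun χ _ => Finset.sum_congr rfl fun ψ _ => hrow χ ψ]
  have hsB := sum_B hk4
  simp_rw [← Finset.mul_sum, Finset.sum_sub_distrib, ← Finset.mul_sum, hsB]
  have h6 : ∀ χ : IrrCharacter G, ∑ ψ : IrrCharacter G, (if χ = ψ then 4 * (if χ ∈ B then (1 : ℂ) else 0) else 0) = 4 * (if χ ∈ B then (1 : ℂ) else 0) := by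
    intro χ
    rw [Finset.sum_eq_single χ]
    · rw [if_pos rfl]
    · intro ψ _ hne
      rw [if_neg (Ne.symm hne)]
    · intro h; exact absurd (Finset.mem_univ _) h
  rw [Finset.sum_congr rfl fun χ _ => h6 χ, ← Finset.mul_sum, hsB, ← Finset.sum_mul, hsB]
  norm_num

theorem const1 (hM : IsPModular 2 M) (hB : IsPBlock M B) (hmax : MP 2 ⊤ (idB M B) a) (hV : IsKleinFour a.1)
    (h1 : (cz a.1).relIndex (st a) = 1) : ∃ θ ∈ B, (4 / (Nat.card G : ℂ) * regInner 2 (θ : G → ℂ) (θ : G → ℂ) = 1) ∧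
      ∀ χ ∈ B, ∀ t : G, ¬ 2 ∣ orderOf t → (χ : G → ℂ) t = (θ : G → ℂ) t := by
  classical
  haveI : Fact (Nat.Prime 2) := ⟨Nat.prime_two⟩
  haveI : Fintype a.1 := Fintype.ofFinite _
  obtain ⟨hab, hsq, hfree, he13, hk4, hl, hloc⟩ := klein_pack hM hB hmax hV
  obtain ⟨nv, hnv⟩ := exists_nv hM hB hmax hV
  have hcG : (Nat.card G : ℂ) ≠ 0 := by exact_mod_cast Nat.card_pos.ne'
  have hn : NilB 2 (idB M B) := by
    obtain ⟨P, z⟩ := a
    have hst : st (P, z) ≤ cz P := by
      rw [← Subgroup.relIndex_eq_one]; exact h1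
    exact (nilB_abelian_iff hM (isBl_top hB) hmax hab).2 hst
  obtain ⟨θ, hθ⟩ := nil_R1 hM hB hn
  have hdiag : ∀ χ ∈ B, 4 / (Nat.card G : ℂ) * regInner 2 (χ : G → ℂ) (χ : G → ℂ) = 1 := by
    intro χ hχ
    have h2 := row4 hM hB hmax hV hnv hχ hχ
    rw [h1, classInner_irr', if_pos rfl] at h2
    have h3 : ∀ w : a.1, (if (w : G) = 1 then (0 : ℂ) else (nv w χ : ℂ) * nv w χ) = if ¬ (w : G) = 1 then 1 else 0 := by
      intro w
      by_cases hw : (w : G) = 1
      · rw [if_pos hw, if_neg (not_not.2 hw)]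
      · rw [if_neg hw, if_pos hw]
        exact_mod_cast (hnv w w.2 hw).1.sq hχ
    rw [Finset.sum_congr rfl fun w _ => h3 w, ← Finset.sum_filter, Finset.sum_const, card_ne_one hV, nsmul_eq_mul] at h2
    push_cast at h2
    linear_combination -h2
  refine ⟨θ, hθ.1, hdiag θ hθ.1, fun χ hχ t ht => ?_⟩
  obtain ⟨d, hd⟩ := hθ.2 χ hχ
  have h2 : regInner 2 (χ : G → ℂ) (χ : G → ℂ) = (d : ℂ) ^ 2 * regInner 2 (θ : G → ℂ) (θ : G → ℂ) := by
    rw [regInner, regInner, Finset.mul_sum]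
    refine Finset.sum_congr rfl fun g _ => ?_
    split_ifs with hg
    · rw [mul_zero]
    · rw [hd g hg, map_mul, Complex.conj_natCast]; ring
  have h3 := hdiag χ hχ
  have h4 := hdiag θ hθ.1
  rw [h2] at h3
  have h5 : (d : ℂ) ^ 2 = 1 := by
    have : (d : ℂ) ^ 2 = (d : ℂ) ^ 2 * (4 / (Nat.card G : ℂ) * regInner 2 (θ : G → ℂ) (θ : G → ℂ)) := by rw [h4, mul_one]
    rw [this]; linear_combination h3
  have h6 : d ^ 2 = 1 := by exact_mod_cast h5
  have h7 : d = 1 := by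
    rcases Nat.pow_eq_one.1 h6 with h | h
    · exact h
    · exact absurd h two_ne_zero
  rw [hd t ht, h7, Nat.cast_one, one_mul]

theorem sum1 (hM : IsPModular 2 M) (hB : IsPBlock M B) (hmax : MP 2 ⊤ (idB M B) a) (hV : IsKleinFour a.1)
    (h1 : (cz a.1).relIndex (st a) = 1) {n : IrrCharacter G → ℤ} {v : G} {b : MonoidAlgebra (kk M) G} (h : SVec B n v b) :
    ∑ χ : IrrCharacter G, n χ = 0 := by
  classical
  haveI : Fact (Nat.Prime 2) := ⟨Nat.prime_two⟩
  haveI : Fintype a.1 := Fintype.ofFinite _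
  obtain ⟨hab, hsq, hfree, he13, hk4, hl, hloc⟩ := klein_pack hM hB hmax hV
  obtain ⟨nv, hnv⟩ := exists_nv hM hB hmax hV
  obtain ⟨θ, hθB, hθ1, hθ⟩ := const1 hM hB hmax hV h1
  have hcG : (Nat.card G : ℂ) ≠ 0 := by exact_mod_cast Nat.card_pos.ne'
  have hrow : ∀ χ ψ : IrrCharacter G, ∑ w : a.1, (if (w : G) = 1 then (0 : ℂ) else (nv w χ : ℂ) * nv w ψ) =
      (if χ = ψ then 4 * (if χ ∈ B then (1 : ℂ) else 0) else 0) - (if χ ∈ B then (1 : ℂ) else 0) * (if ψ ∈ B then (1 : ℂ) else 0) := by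
    intro χ ψ
    by_cases hχ : χ ∈ B
    · by_cases hψ : ψ ∈ B
      · have h2 := row4 hM hB hmax hV hnv hχ hψ
        have h3 : regInner 2 (χ : G → ℂ) (ψ : G → ℂ) = regInner 2 (θ : G → ℂ) (θ : G → ℂ) := by
          rw [regInner, regInner]
          refine Finset.sum_congr rfl fun g _ => ?_
          split_ifs with hg
          · rfl
          · rw [hθ χ hχ g hg, hθ ψ hψ g hg]
        rw [h1, classInner_irr', h3, hθ1] at h2
        rw [if_pos hχ, if_pos hψ]
        by_cases hχψ : χ = ψ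
        · rw [if_pos hχψ] at h2 ⊢
          push_cast at h2
          linear_combination -h2
        · rw [if_neg hχψ] at h2 ⊢
          push_cast at h2
          linear_combination -h2
      · rw [if_neg hψ]
        have : χ ≠ ψ := fun h' => hψ (h' ▸ hχ)
        rw [if_neg this]
        rw [Finset.sum_eq_zero]
        · simp
        · intro w _
          split_ifs with hw
          · rfl
          · rw [(hnv w w.2 hw).1.off ψ hψ]; simp
    · rw [if_neg hχ, Finset.sum_eq_zero]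
      · simp
      · intro w _
        split_ifs with hw
        · rfl
        · rw [(hnv w w.2 hw).1.off χ hχ]; simp
  have hsB := sum_B hk4
  have htot : ∑ χ : IrrCharacter G, ∑ ψ : IrrCharacter G, ∑ w : a.1, (if (w : G) = 1 then (0 : ℂ) else (nv w χ : ℂ) * nv w ψ) = 0 := by
    rw [Finset.sum_congr rfl fun χ _ => Finset.sum_congr rfl fun ψ _ => hrow χ ψ]
    simp_rw [Finset.sum_sub_distrib, ← Finset.mul_sum, hsB]
    have h6 : ∀ χ : IrrCharacter G, ∑ ψ : IrrCharacter G, (if χ = ψ then 4 * (if χ ∈ B then (1 : ℂ) else 0) else 0) = 4 * (if χ ∈ B then (1 : ℂ) else 0) := by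
      intro χ
      rw [Finset.sum_eq_single χ]
      · rw [if_pos rfl]
      · intro ψ _ hne
        rw [if_neg (Ne.symm hne)]
      · intro h; exact absurd (Finset.mem_univ _) h
    rw [Finset.sum_congr rfl fun χ _ => h6 χ, ← Finset.mul_sum, hsB, ← Finset.sum_mul, hsB]
    norm_num
  have hsq' : ∑ w : a.1, (if (w : G) = 1 then (0 : ℤ) else (∑ χ : IrrCharacter G, nv w χ) * (∑ χ : IrrCharacter G, nv w χ)) = 0 := by
    have h2 : ((∑ w : a.1, (if (w : G) = 1 then (0 : ℤ) else (∑ χ : IrrCharacter G, nv w χ) * (∑ χ : IrrCharacter G, nv w χ)) : ℤ) : ℂ) = 0 := by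
      refine Eq.trans ?_ htot
      have h3 : ∀ χ : IrrCharacter G, ∑ ψ : IrrCharacter G, ∑ w : a.1, (if (w : G) = 1 then (0 : ℂ) else (nv w χ : ℂ) * nv w ψ) =
          ∑ w : a.1, ∑ ψ : IrrCharacter G, (if (w : G) = 1 then (0 : ℂ) else (nv w χ : ℂ) * nv w ψ) := fun χ => Finset.sum_comm
      rw [Finset.sum_congr rfl fun χ _ => h3 χ, Finset.sum_comm]
      push_cast
      refine Finset.sum_congr rfl fun w _ => ?_
      split_ifs
      · simp
      · rw [Finset.sum_mul_sum]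
    exact_mod_cast h2
  obtain ⟨w, hw, hw1, hW⟩ := h.conj hM hB hmax
  have h3 := (Finset.sum_eq_zero_iff_of_nonneg (fun w _ => by split_ifs <;> [exact le_rfl; exact mul_self_nonneg _])).1 hsq' ⟨w, hw⟩ (Finset.mem_univ _)
  simp only at h3
  rw [if_neg hw1] at h3
  have h4 : n = nv w := h.unique hB (hnv w hw hw1).1 (fun χ => (hW χ).symm)
  rw [h4]
  exact mul_self_eq_zero.1 h3

/-- the allowed contributions at `x` -/
def ClS (B : Set (IrrCharacter G)) (M : Ideal AlgInt) [hMp : M.IsPrime] (x : G) : Set (IrrCharacter G → ℂ) :=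
  {f | ∃ (n : IrrCharacter G → ℤ) (v : G) (b : MonoidAlgebra (kk M) G) (φ : ℂ), SVec B n v b ∧ IsIntegral ℤ φ ∧
    MemLocalRing M (4 * φ / (Nat.card (Subgroup.centralizer ({x} : Set G)) : ℂ)) ∧ f = fun χ => (n χ : ℂ) * φ}

open Classical in
theorem mem_cl (hM : IsPModular 2 M) (hB : IsPBlock M B) (hmax : MP 2 ⊤ (idB M B) a) (hV : IsKleinFour a.1) {x : G}
    (hx : 2 ∣ orderOf x) : (fun χ : IrrCharacter G => if χ ∈ B then (χ : G → ℂ) x else 0) ∈ AddSubgroup.closure (ClS B M x) := by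
  haveI : Fact (Nat.Prime 2) := ⟨Nat.prime_two⟩
  obtain ⟨u, s, hu, hus, hcomm, hup, hs⟩ := exists_decomp (p := 2) x
  have hu1 : u ≠ 1 := by
    rintro rfl
    rw [one_mul] at hus
    rw [hus] at hs
    exact hs hx
  set C := cz (Subgroup.zpowers u) with hC
  have hexp : (fun χ : IrrCharacter G => if χ ∈ B then (χ : G → ℂ) x else 0) =
      ∑ b ∈ bls M C, (fun χ : IrrCharacter G => if χ ∈ B then ev (χ : G → ℂ) (single (u * s) 1 * lb C b) else 0) := by
    funext χ
    rw [Finset.sum_apply]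
    split_ifs
    · rw [← map_sum, ← Finset.mul_sum, sum_lb, mul_one, ev_single, one_mul, hus]
    · rw [Finset.sum_const_zero]
  rw [hexp]
  refine AddSubgroup.sum_mem _ fun b hb => ?_
  have hbl := mem_bls.1 hb
  by_cases hof : Of 2 ⊤ (idB M B) (Subgroup.zpowers u, b)
  · obtain ⟨n, hn, hval, -⟩ := exists_svec hM hB hmax hV hu1 hup hbl hof
    obtain ⟨φ, hφ, hφ4, hev⟩ := hval s hcomm hs
    apply AddSubgroup.subset_closure
    refine ⟨n, u, b, φ, hn, hφ, ?_, ?_⟩
    · rw [← hus]; exact hφ4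
    · funext χ
      by_cases hχ : χ ∈ B
      · rw [if_pos hχ, hev]
      · rw [if_neg hχ, hn.off χ hχ, Int.cast_zero, zero_mul]
  · have h0 : (fun χ : IrrCharacter G => if χ ∈ B then ev (χ : G → ℂ) (single (u * s) 1 * lb C b) else 0) = 0 := by
      funext χ
      by_cases hχ : χ ∈ B
      · rw [if_pos hχ, ev_zero_of_not hM hup hB hbl hof hχ hcomm hs]; rfl
      · rw [if_neg hχ]; rfl
    rw [h0]; exact AddSubgroup.zero_mem _

end Vec

end CfsgKf
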