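import Cfsg.Agent.H4.Kf6

set_option autoImplicit false
set_option linter.all false

/-! # Perfect isometries for Klein four defect groups -/

open Cfsg MonoidAlgebra
open CfsgH4 hiding centralChar sum_conj regInner_symm
open CfsgH5 hiding ev_ca
open CfsgSub CfsgAb CfsgDo ComplexConjugate

namespace CfsgKf

section Perf

variable {G : Type*} [Group G] [Fintype G] {H : Type*} [Group H] [Fintype H] {M : Ideal AlgInt} [hMp : M.IsPrime]
variable {B : Set (IrrCharacter G)} {c : Set (IrrCharacter H)} [Fintype c]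

/-- the pairing -/
noncomputable def pr2 (E : c ≃ B) (ε : IrrCharacter H → ℤ) (f : IrrCharacter G → ℂ) (g : IrrCharacter H → ℂ) : ℂ :=
  ∑ η : c, (ε η : ℂ) * f (E η) * g η

theorem pr2_add_left (E : c ≃ B) (ε : IrrCharacter H → ℤ) (f f' : IrrCharacter G → ℂ) (g : IrrCharacter H → ℂ) :
    pr2 E ε (f + f') g = pr2 E ε f g + pr2 E ε f' g := by
  rw [pr2, pr2, pr2, ← Finset.sum_add_distrib]
  exact Finset.sum_congr rfl fun η _ => by rw [Pi.add_apply]; ring

theorem pr2_neg_left (E : c ≃ B) (ε : IrrCharacter H → ℤ) (f : IrrCharacter G → ℂ) (g : IrrCharacter H → ℂ) :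
    pr2 E ε (-f) g = - pr2 E ε f g := by
  rw [pr2, pr2, ← Finset.sum_neg_distrib]
  exact Finset.sum_congr rfl fun η _ => by rw [Pi.neg_apply]; ring

theorem pr2_zero_left (E : c ≃ B) (ε : IrrCharacter H → ℤ) (g : IrrCharacter H → ℂ) : pr2 E ε 0 g = 0 := by
  rw [pr2]
  exact Finset.sum_eq_zero fun η _ => by rw [Pi.zero_apply]; ring

theorem pr2_add_right (E : c ≃ B) (ε : IrrCharacter H → ℤ) (f : IrrCharacter G → ℂ) (g g' : IrrCharacter H → ℂ) :
    pr2 E ε f (g + g') = pr2 E ε f g + pr2 E ε f g' := by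
  rw [pr2, pr2, pr2, ← Finset.sum_add_distrib]
  exact Finset.sum_congr rfl fun η _ => by rw [Pi.add_apply]; ring

theorem pr2_neg_right (E : c ≃ B) (ε : IrrCharacter H → ℤ) (f : IrrCharacter G → ℂ) (g : IrrCharacter H → ℂ) :
    pr2 E ε f (-g) = - pr2 E ε f g := by
  rw [pr2, pr2, ← Finset.sum_neg_distrib]
  exact Finset.sum_congr rfl fun η _ => by rw [Pi.neg_apply]; ring

theorem pr2_zero_right (E : c ≃ B) (ε : IrrCharacter H → ℤ) (f : IrrCharacter G → ℂ) : pr2 E ε f 0 = 0 := by
  rw [pr2]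
  exact Finset.sum_eq_zero fun η _ => by rw [Pi.zero_apply]; ring

open Classical in
theorem perfect_of (hM : IsPModular 2 M) (E : c ≃ B) (ε : IrrCharacter H → ℤ) (hε : ∀ η ∈ c, ε η = 1 ∨ ε η = -1)
    (χ₀ : IrrCharacter G)
    (hB : ∀ x : G, 2 ∣ orderOf x → (fun χ : IrrCharacter G => if χ ∈ B then (χ : G → ℂ) x else 0) ∈ AddSubgroup.closure (ClS B M x))
    (hc : ∀ y : H, 2 ∣ orderOf y → (fun η : IrrCharacter H => if η ∈ c then (η : H → ℂ) y else 0) ∈ AddSubgroup.closure (ClS c M y))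
    (S1 : ∀ (n : IrrCharacter G → ℤ) (v : G) (b : MonoidAlgebra (kk M) G) (n' : IrrCharacter H → ℤ) (v' : H) (b' : MonoidAlgebra (kk M) H),
      SVec B n v b → SVec c n' v' b' → ∃ k : ℤ, ∑ η : c, ε η * n (E η) * n' η = 4 * k)
    (S2 : ∀ (n' : IrrCharacter H → ℤ) (v' : H) (b' : MonoidAlgebra (kk M) H), SVec c n' v' b' → ∀ t : G, ¬ 2 ∣ orderOf t →
      ∑ η : c, (ε η : ℂ) * ((E η : IrrCharacter G) : G → ℂ) t * n' η = 0)
    (S3 : ∀ (n : IrrCharacter G → ℤ) (v : G) (b : MonoidAlgebra (kk M) G), SVec B n v b → ∀ t : H, ¬ 2 ∣ orderOf t →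
      ∑ η : c, (ε η : ℂ) * n (E η) * ((η : IrrCharacter H) : H → ℂ) t = 0) :
    ∃ (I : IrrCharacter H → IrrCharacter G) (ε : IrrCharacter H → ℤ), IsPerfectIsometry 2 M c B I ε := by
  haveI : Fact (Nat.Prime 2) := ⟨Nat.prime_two⟩
  set I : IrrCharacter H → IrrCharacter G := fun η => if h : η ∈ c then (E ⟨η, h⟩ : IrrCharacter G) else χ₀ with hI
  have hIE : ∀ η : c, I η = E η := fun η => by simp only [hI]; rw [dif_pos η.2]
  set fB : G → IrrCharacter G → ℂ := fun x χ => if χ ∈ B then (χ : G → ℂ) x else 0 with hfB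
  set fc : H → IrrCharacter H → ℂ := fun y η => if η ∈ c then (η : H → ℂ) y else 0 with hfc
  have hμ : ∀ x y, signedBijectionKernel c I ε x y = pr2 E ε (fB x) (fc y) := by
    intro x y
    rw [signedBijectionKernel, ← finsum_set_coe_eq_finsum_mem, finsum_eq_sum_of_fintype, pr2]
    refine Finset.sum_congr rfl fun η _ => ?_
    simp only [hfB, hfc]
    rw [if_pos (E η).2, if_pos η.2, hIE]
  -- separation
  have sep1 : ∀ x y, 2 ∣ orderOf x → ¬ 2 ∣ orderOf y → pr2 E ε (fB x) (fc y) = 0 := by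
    intro x y hx hy
    refine AddSubgroup.closure_induction (p := fun f _ => pr2 E ε f (fc y) = 0) ?_ ?_ ?_ ?_ (hB x hx)
    · rintro f ⟨n, v, b, φ, hn, -, -, rfl⟩
      have h1 := S3 n v b hn y hy
      have h2 : pr2 E ε (fun χ => (n χ : ℂ) * φ) (fc y) = φ * ∑ η : c, (ε η : ℂ) * n (E η) * ((η : IrrCharacter H) : H → ℂ) y := by
        rw [pr2, Finset.mul_sum]
        refine Finset.sum_congr rfl fun η _ => ?_
        simp only [hfc]
        rw [if_pos η.2]; ring
      rw [h2, h1, mul_zero]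
    · exact pr2_zero_left E ε _
    · intro f g _ _ hf hg
      rw [pr2_add_left, hf, hg, add_zero]
    · intro f _ hf
      rw [pr2_neg_left, hf, neg_zero]
  have sep2 : ∀ x y, ¬ 2 ∣ orderOf x → 2 ∣ orderOf y → pr2 E ε (fB x) (fc y) = 0 := by
    intro x y hx hy
    refine AddSubgroup.closure_induction (p := fun g _ => pr2 E ε (fB x) g = 0) ?_ ?_ ?_ ?_ (hc y hy)
    · rintro f ⟨n, v, b, φ, hn, -, -, rfl⟩
      have h1 := S2 n v b hn x hx
      have h2 : pr2 E ε (fB x) (fun χ => (n χ : ℂ) * φ) = φ * ∑ η : c, (ε η : ℂ) * ((E η : IrrCharacter G) : G → ℂ) x * n η := by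
        rw [pr2, Finset.mul_sum]
        refine Finset.sum_congr rfl fun η _ => ?_
        simp only [hfB]
        rw [if_pos (E η).2]; ring
      rw [h2, h1, mul_zero]
    · exact pr2_zero_right E ε _
    · intro f g _ _ hf hg
      rw [pr2_add_right, hf, hg, add_zero]
    · intro f _ hf
      rw [pr2_neg_right, hf, neg_zero]
  -- both singular
  have sing : ∀ x y, 2 ∣ orderOf x → 2 ∣ orderOf y →
      MemLocalRing M (pr2 E ε (fB x) (fc y) / (Nat.card (Subgroup.centralizer ({x} : Set G)) : ℂ)) ∧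
      MemLocalRing M (pr2 E ε (fB x) (fc y) / (Nat.card (Subgroup.centralizer ({y} : Set H)) : ℂ)) := by
    intro x y hx hy
    set X : ℂ := (Nat.card (Subgroup.centralizer ({x} : Set G)) : ℂ) with hX
    set Y : ℂ := (Nat.card (Subgroup.centralizer ({y} : Set H)) : ℂ) with hY
    refine AddSubgroup.closure_induction (p := fun f _ => MemLocalRing M (pr2 E ε f (fc y) / X) ∧ MemLocalRing M (pr2 E ε f (fc y) / Y)) ?_ ?_ ?_ ?_ (hB x hx)
    · rintro f ⟨n, v, b, φ, hn, hφ, hφ4, rfl⟩
      refine AddSubgroup.closure_induction (p := fun g _ => MemLocalRing M (pr2 E ε (fun χ => (n χ : ℂ) * φ) g / X) ∧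
        MemLocalRing M (pr2 E ε (fun χ => (n χ : ℂ) * φ) g / Y)) ?_ ?_ ?_ ?_ (hc y hy)
      · rintro g ⟨n', v', b', φ', hn', hφ', hφ4', rfl⟩
        obtain ⟨k, hk⟩ := S1 n v b n' v' b' hn hn'
        have hk' : ∑ η : c, (ε η : ℂ) * n (E η) * n' η = 4 * k := by exact_mod_cast hk
        have h2 : pr2 E ε (fun χ => (n χ : ℂ) * φ) (fun χ => (n' χ : ℂ) * φ') = (k : ℂ) * (4 * φ * φ') := by
          rw [pr2]
          calc _ = (φ * φ') * ∑ η : c, (ε η : ℂ) * n (E η) * n' η := by
                rw [Finset.mul_sum]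
                exact Finset.sum_congr rfl fun η _ => by ring
            _ = _ := by rw [hk']; ring
        rw [h2]
        constructor
        · have h3 : (k : ℂ) * (4 * φ * φ') / X = (k : ℂ) * ((4 * φ / X) * φ') := by ring
          rw [h3]
          exact MemLocalRing.mul (memLocalRing_intCast k) (MemLocalRing.mul hφ4 (memLocalRing_of_isIntegral hφ'))
        · have h3 : (k : ℂ) * (4 * φ * φ') / Y = (k : ℂ) * ((4 * φ' / Y) * φ) := by ring
          rw [h3]
          exact MemLocalRing.mul (memLocalRing_intCast k) (MemLocalRing.mul hφ4' (memLocalRing_of_isIntegral hφ))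
      · rw [pr2_zero_right, zero_div, zero_div]
        exact ⟨memLocalRing_zero, memLocalRing_zero⟩
      · intro f g _ _ hf hg
        rw [pr2_add_right, add_div, add_div]
        exact ⟨MemLocalRing.add hf.1 hg.1, MemLocalRing.add hf.2 hg.2⟩
      · intro f _ hf
        rw [pr2_neg_right, neg_div, neg_div]
        exact ⟨MemLocalRing.neg hf.1, MemLocalRing.neg hf.2⟩
    · rw [pr2_zero_left, zero_div, zero_div]
      exact ⟨memLocalRing_zero, memLocalRing_zero⟩
    · intro f g _ _ hf hg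
      rw [pr2_add_left, add_div, add_div]
      exact ⟨MemLocalRing.add hf.1 hg.1, MemLocalRing.add hf.2 hg.2⟩
    · intro f _ hf
      rw [pr2_neg_left, neg_div, neg_div]
      exact ⟨MemLocalRing.neg hf.1, MemLocalRing.neg hf.2⟩
  -- both regular
  have hεint : ∀ η : IrrCharacter H, IsIntegral ℤ (ε η : ℂ) := fun η => isIntegral_algebraMap (R := ℤ) (x := ε η)
  have regG : ∀ x y, ¬ 2 ∣ orderOf y → MemLocalRing M (pr2 E ε (fB x) (fc y) / (Nat.card (Subgroup.centralizer ({x} : Set G)) : ℂ)) := by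
    intro x y hy
    set r : IrrCharacter G → ℂ := fun χ => ∑ η : c, if (E η : IrrCharacter G) = χ then (ε η : ℂ) * ((η : IrrCharacter H) : H → ℂ) y else 0 with hr
    have hsum : ∀ g : G, ∑ χ : IrrCharacter G, r χ * (χ : G → ℂ) g = pr2 E ε (fB g) (fc y) := by
      intro g
      simp only [hr, Finset.sum_mul]
      rw [Finset.sum_comm, pr2]
      refine Finset.sum_congr rfl fun η _ => ?_
      rw [Finset.sum_eq_single (E η : IrrCharacter G)]
      · rw [if_pos rfl]
        simp only [hfB, hfc]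
        rw [if_pos (E η).2, if_pos η.2]; ring
      · intro χ _ hne
        rw [if_neg (Ne.symm hne), zero_mul]
      · intro h; exact absurd (Finset.mem_univ _) h
    have h1 := proj_div hM r (fun χ => IsIntegral.sum _ fun η _ => by
      split_ifs
      · exact (hεint η).mul (IsCharacter.isIntegral (IsIrr.isCharacter (η : IrrCharacter H).2) y)
      · exact isIntegral_zero) (fun g hg => by rw [hsum g]; exact sep1 g y hg hy) x
    rwa [hsum x] at h1
  have regH : ∀ x y, ¬ 2 ∣ orderOf x → MemLocalRing M (pr2 E ε (fB x) (fc y) / (Nat.card (Subgroup.centralizer ({y} : Set H)) : ℂ)) := by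
    intro x y hx
    set r : IrrCharacter H → ℂ := fun η => if h : η ∈ c then (ε η : ℂ) * ((E ⟨η, h⟩ : IrrCharacter G) : G → ℂ) x else 0 with hr
    have hsum : ∀ g : H, ∑ η : IrrCharacter H, r η * (η : H → ℂ) g = pr2 E ε (fB x) (fc g) := by
      intro g
      rw [pr2]
      have h1 : ∑ η : IrrCharacter H, r η * (η : H → ℂ) g = ∑ η ∈ Finset.univ.filter (fun η : IrrCharacter H => η ∈ c), r η * (η : H → ℂ) g := by
        rw [Finset.sum_filter]
        refine Finset.sum_congr rfl fun η _ => ?_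
        split_ifs with h
        · rfl
        · simp only [hr]; rw [dif_neg h, zero_mul]
      rw [h1, Finset.sum_subtype (p := fun η => η ∈ c) _ (fun x => by simp) (fun η => r η * (η : H → ℂ) g)]
      refine Finset.sum_congr rfl fun η _ => ?_
      simp only [hr, hfB, hfc]
      rw [dif_pos η.2, if_pos (E η).2, if_pos η.2]
    have h1 := proj_div hM r (fun η => by
      simp only [hr]
      split_ifs
      · exact (hεint η).mul (IsCharacter.isIntegral (IsIrr.isCharacter (Subtype.property _)) x)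
      · exact isIntegral_zero) (fun g hg => by rw [hsum g]; exact sep2 x g hx hg) y
    rwa [hsum y] at h1
  refine ⟨I, ε, ⟨?_, ?_, ?_⟩, hε, ?_⟩
  · intro η hη
    have := hIE ⟨η, hη⟩
    simp only at this
    rw [this]; exact (E ⟨η, hη⟩).2
  · intro η hη η' hη' h
    have h1 := hIE ⟨η, hη⟩
    have h2 := hIE ⟨η', hη'⟩
    simp only at h1 h2
    rw [h1, h2] at h
    exact congrArg Subtype.val (E.injective (Subtype.ext h))
  · intro χ hχ
    refine ⟨E.symm ⟨χ, hχ⟩, (E.symm ⟨χ, hχ⟩).2, ?_⟩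
    rw [hIE, Equiv.apply_symm_apply]
  · intro x y
    rw [hμ]
    by_cases hx : 2 ∣ orderOf x
    · by_cases hy : 2 ∣ orderOf y
      · refine ⟨(sing x y hx hy).1, (sing x y hx hy).2, Or.inl ?_⟩
        exact ⟨fun h => absurd hx h, fun h => absurd hy h⟩
      · rw [sep1 x y hx hy, zero_div, zero_div]
        exact ⟨memLocalRing_zero, memLocalRing_zero, Or.inr rfl⟩
    · by_cases hy : 2 ∣ orderOf y
      · rw [sep2 x y hx hy, zero_div, zero_div]
        exact ⟨memLocalRing_zero, memLocalRing_zero, Or.inr rfl⟩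
      · refine ⟨regG x y hy, regH x y hx, Or.inl ?_⟩
        exact ⟨fun _ => hy, fun _ => hx⟩

end Perf

end CfsgKf
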