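import Cfsg.Agent.H4.Kf7

set_option autoImplicit false
set_option linter.all false

/-! # Perfect isometries for Klein four defect groups -/

open Cfsg MonoidAlgebra
open CfsgH4 hiding centralChar sum_conj regInner_symm
open CfsgH5 hiding ev_ca
open CfsgSub CfsgAb CfsgDo ComplexConjugate

namespace CfsgKf

section Perf

theorem sum_sub {ι : Type*} [Fintype ι] {R : Type*} [AddCommMonoid R] (B : Set ι) [Fintype B] (f : ι → R) (hf : ∀ i, i ∉ B → f i = 0) :
    ∑ i : B, f i = ∑ i : ι, f i := by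
  classical
  have h1 : ∑ i : ι, f i = ∑ i ∈ Finset.univ.filter (fun i => i ∈ B), f i := by
    rw [Finset.sum_filter]
    refine Finset.sum_congr rfl fun i _ => ?_
    split_ifs with h
    · rfl
    · exact hf i h
  rw [h1, Finset.sum_subtype (p := fun i => i ∈ B) _ (fun x => by simp) f]

theorem exists_nontriv {G : Type*} [Group G] {P : Subgroup G} (hV : IsKleinFour P) : ∃ v ∈ P, v ≠ 1 := by
  apply exists_ne_one
  intro h
  have := hV.card_four
  rw [h, Subgroup.card_bot] at this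
  omega

variable {G : Type*} [Group G] [Fintype G] {H : Type*} [Group H] [Fintype H] {M : Ideal AlgInt} [hMp : M.IsPrime]
variable {B : Set (IrrCharacter G)} {c : Set (IrrCharacter H)}

theorem perfect4 (hM : IsPModular 2 M) (hB : IsPBlock M B) {a : Subgroup G × MonoidAlgebra (kk M) G}
    (hmax : MP 2 ⊤ (idB M B) a) (hV : IsKleinFour a.1) (hc : IsPBlock M c) {a' : Subgroup H × MonoidAlgebra (kk M) H}
    (hmax' : MP 2 ⊤ (idB M c) a') (hV' : IsKleinFour a'.1)
    (he : (cz a.1).relIndex (st a) = (cz a'.1).relIndex (st a')) :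
    ∃ (I : IrrCharacter H → IrrCharacter G) (ε : IrrCharacter H → ℤ), IsPerfectIsometry 2 M c B I ε := by
  classical
  haveI : Fact (Nat.Prime 2) := ⟨Nat.prime_two⟩
  haveI : Fintype c := Fintype.ofFinite _
  haveI : Fintype B := Fintype.ofFinite _
  obtain ⟨hab, hsq, hfree, he13, hk4, hl, hloc⟩ := klein_pack hM hB hmax hV
  obtain ⟨-, -, -, -, hk4', -, -⟩ := klein_pack hM hc hmax' hV'
  obtain ⟨E⟩ : Nonempty (c ≃ B) := Finite.card_eq.1 (hk4'.trans hk4.symm)
  obtain ⟨χ₀, hχ₀⟩ := IsPBlock.nonempty hB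
  have hcard : Fintype.card c = 4 := by rw [← Nat.card_eq_fintype_card]; exact hk4'
  rcases he13 with h1 | h3
  · obtain ⟨θ, hθB, -, hθ⟩ := const1 hM hB hmax hV h1
    obtain ⟨θ', hθB', -, hθ'⟩ := const1 hM hc hmax' hV' (he.symm.trans h1)
    have hsn : ∀ (n : IrrCharacter G → ℤ) (v : G) (b : MonoidAlgebra (kk M) G), SVec B n v b → ∑ η : c, n (E η) = 0 := by
      intro n v b hn
      rw [Equiv.sum_comp E (fun χ : B => n χ), sum_sub B n hn.off]
      exact sum1 hM hB hmax hV h1 hn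
    have hsn' : ∀ (n' : IrrCharacter H → ℤ) (v' : H) (b' : MonoidAlgebra (kk M) H), SVec c n' v' b' → ∑ η : c, n' η = 0 := by
      intro n' v' b' hn'
      rw [sum_sub c n' hn'.off]
      exact sum1 hM hc hmax' hV' (he.symm.trans h1) hn'
    refine perfect_of hM E (fun _ => 1) (fun _ _ => Or.inl rfl) χ₀ (fun x hx => mem_cl hM hB hmax hV hx)
      (fun y hy => mem_cl hM hc hmax' hV' hy) ?_ ?_ ?_
    · intro n v b n' v' b' hn hn'
      have h2 : (4 : ℤ) ∣ ∑ η : c, (1 + n (E η)) * (1 + n' η) := by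
        apply Finset.dvd_sum
        intro η _
        rcases hn.on _ (E η).2 with h | h <;> rcases hn'.on _ η.2 with h' | h' <;> rw [h, h'] <;> norm_num
      have h3 : ∑ η : c, (1 + n (E η)) * (1 + n' η) = 4 + ∑ η : c, 1 * n (E η) * n' η := by
        have h4 : ∀ η : c, (1 + n (E η)) * (1 + n' η) = 1 + n (E η) + n' η + 1 * n (E η) * n' η := fun η => by ring
        rw [Finset.sum_congr rfl fun η _ => h4 η, Finset.sum_add_distrib, Finset.sum_add_distrib, Finset.sum_add_distrib,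
          hsn n v b hn, hsn' n' v' b' hn', Finset.sum_const, Finset.card_univ, hcard]
        norm_num
      rw [h3] at h2
      obtain ⟨k, hk⟩ := h2
      exact ⟨k - 1, by linear_combination hk⟩
    · intro n' v' b' hn' t ht
      have h2 : ∀ η : c, (((1 : ℤ) : ℤ) : ℂ) * ((E η : IrrCharacter G) : G → ℂ) t * n' η = (θ : G → ℂ) t * n' η := by
        intro η
        rw [hθ _ (E η).2 t ht]; push_cast; ring
      rw [Finset.sum_congr rfl fun η _ => h2 η, ← Finset.mul_sum]
      have h3 : ∑ η : c, ((n' η : ℤ) : ℂ) = 0 := by exact_mod_cast hsn' n' v' b' hn'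
      rw [h3, mul_zero]
    · intro n v b hn t ht
      have h2 : ∀ η : c, (((1 : ℤ) : ℤ) : ℂ) * n (E η) * ((η : IrrCharacter H) : H → ℂ) t = (θ' : H → ℂ) t * n (E η) := by
        intro η
        rw [hθ' _ η.2 t ht]; push_cast; ring
      rw [Finset.sum_congr rfl fun η _ => h2 η, ← Finset.mul_sum]
      have h3 : ∑ η : c, ((n (E η) : ℤ) : ℂ) = 0 := by exact_mod_cast hsn n v b hn
      rw [h3, mul_zero]
  · have h3' := he.symm.trans h3
    obtain ⟨nv, hnv⟩ := exists_nv hM hB hmax hV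
    obtain ⟨nv', hnv'⟩ := exists_nv hM hc hmax' hV'
    obtain ⟨v₀, hv₀, hv1⟩ := exists_nontriv hV
    obtain ⟨v₀', hv₀', hv1'⟩ := exists_nontriv hV'
    have hn₀ := (hnv v₀ hv₀ hv1).1
    have hn₀' := (hnv' v₀' hv₀' hv1').1
    set n₀ := nv v₀ with hn₀d
    set n₀' := nv' v₀' with hn₀d'
    set ε : IrrCharacter H → ℤ := fun η => if h : η ∈ c then n₀ (E ⟨η, h⟩) * n₀' η else 1 with hε
    have hεE : ∀ η : c, ε η = n₀ (E η) * n₀' η := fun η => by simp only [hε]; rw [dif_pos η.2]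
    have e1 : ∀ η : c, n₀ (E η) * n₀ (E η) = 1 := fun η => hn₀.sq (E η).2
    have e2 : ∀ η : c, n₀' η * n₀' η = 1 := fun η => hn₀'.sq η.2
    refine perfect_of hM E ε ?_ χ₀ (fun x hx => mem_cl hM hB hmax hV hx) (fun y hy => mem_cl hM hc hmax' hV' hy) ?_ ?_ ?_
    · intro η hη
      have h2 := hεE ⟨η, hη⟩
      simp only at h2
      rw [h2]
      rcases hn₀.on _ (E ⟨η, hη⟩).2 with h | h <;> rcases hn₀'.on _ hη with h' | h' <;> rw [h, h'] <;> norm_num
    · intro n v b n' v' b' hn hn'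
      rw [svec_eq3 hM hB hmax hV h3 hn hn₀, svec_eq3 hM hc hmax' hV' h3' hn' hn₀']
      refine ⟨1, ?_⟩
      have h2 : ∀ η : c, ε η * n₀ (E η) * n₀' η = 1 := by
        intro η
        rw [hεE]
        calc n₀ (E η) * n₀' η * n₀ (E η) * n₀' η = (n₀ (E η) * n₀ (E η)) * (n₀' η * n₀' η) := by ring
          _ = 1 := by rw [e1, e2]; norm_num
      rw [Finset.sum_congr rfl fun η _ => h2 η, Finset.sum_const, Finset.card_univ, hcard]
      norm_num
    · intro n' v' b' hn' t ht
      rw [svec_eq3 hM hc hmax' hV' h3' hn' hn₀']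
      have h2 : ∀ η : c, (ε η : ℂ) * ((E η : IrrCharacter G) : G → ℂ) t * n₀' η = (n₀ (E η) : ℂ) * ((E η : IrrCharacter G) : G → ℂ) t := by
        intro η
        have e2' : (n₀' η : ℂ) * n₀' η = 1 := by exact_mod_cast e2 η
        rw [hεE]; push_cast
        linear_combination (n₀ (E η) : ℂ) * ((E η : IrrCharacter G) : G → ℂ) t * e2'
      rw [Finset.sum_congr rfl fun η _ => h2 η, Equiv.sum_comp E (fun χ : B => (n₀ χ : ℂ) * ((χ : IrrCharacter G) : G → ℂ) t),
        sum_sub B (fun χ : IrrCharacter G => (n₀ χ : ℂ) * (χ : G → ℂ) t) (fun χ hχ => by rw [hn₀.off χ hχ]; simp)]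
      exact orth3 hM hB hmax hV h3 hn₀ ht
    · intro n v b hn t ht
      rw [svec_eq3 hM hB hmax hV h3 hn hn₀]
      have h2 : ∀ η : c, (ε η : ℂ) * n₀ (E η) * ((η : IrrCharacter H) : H → ℂ) t = (n₀' η : ℂ) * ((η : IrrCharacter H) : H → ℂ) t := by
        intro η
        have e1' : (n₀ (E η) : ℂ) * n₀ (E η) = 1 := by exact_mod_cast e1 η
        rw [hεE]; push_cast
        linear_combination (n₀' η : ℂ) * ((η : IrrCharacter H) : H → ℂ) t * e1'
      rw [Finset.sum_congr rfl fun η _ => h2 η,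
        sum_sub c (fun η : IrrCharacter H => (n₀' η : ℂ) * (η : H → ℂ) t) (fun χ hχ => by rw [hn₀'.off χ hχ]; simp)]
      exact orth3 hM hc hmax' hV' h3' hn₀' ht

end Perf

end CfsgKf
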