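import Cfsg.Agent.H4.Kf8
import Cfsg.Agent.H4.Bp13

set_option autoImplicit false
set_option linter.all false

/-! # The Brauer correspondent of a block with Klein four defect group -/

open Cfsg MonoidAlgebra
open CfsgH4 hiding centralChar sum_conj regInner_symm
open CfsgH5 hiding ev_ca
open CfsgSub CfsgAb CfsgDo ComplexConjugate

namespace CfsgKf

section Corr

variable {G : Type*} [Group G] [Fintype G] {M : Ideal AlgInt} [hMp : M.IsPrime]

theorem embK_inj {N : Subgroup G} {z w : MonoidAlgebra (kk M) N} (h : embK N z = embK N w) : z = w := by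
  rw [← rsK_embK (H := N) z, h, rsK_embK]

theorem klein_corr (hM : IsPModular 2 M) {B : Set (IrrCharacter G)} (hB : IsPBlock M B) {P : Subgroup G}
    (hPD : IsDefectGroup 2 M B P) (hV : IsKleinFour P) {c : Set (IrrCharacter (nz P))}
    (hcD : IsDefectGroup 2 M c (P.subgroupOf (nz P))) (hc : IsInducedBlock M (nz P) c B) :
    ∃ (I : IrrCharacter (nz P) → IrrCharacter G) (ε : IrrCharacter (nz P) → ℤ), IsPerfectIsometry 2 M c B I ε := by
  classical
  haveI : Fact (Nat.Prime 2) := ⟨Nat.prime_two⟩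
  haveI : Fintype (nz P) := Fintype.ofFinite _
  have hPp : IsPGroup 2 P := CfsgH5.IsDefectGroup.isPGroup hPD
  have hPN : P ≤ nz P := Subgroup.le_normalizer
  have hCN : cz P ≤ nz P := cz_le_nz P
  have hw := isBl_idH (M := M) hc.1
  have hws : Sup (cz P) (idH M (nz P) c) := hw.sup_cz hM hPp hPN le_rfl
  have hbw := br_of_sup hws
  have hBw := (ind_iff hM hPp hPN hCN le_rfl hc.1 hB).1 hc
  have hsum := eq_sum_below hws (hw.fx.mono hCN) hw.idem
  obtain ⟨z, hz, hwz⟩ : ∃ z, IsBl (cz P) z ∧ idH M (nz P) c * z = z := by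
    by_contra hcon
    push Not at hcon
    apply hw.ne
    rw [hsum]
    apply Finset.sum_eq_zero
    intro z hz
    rw [Finset.mem_filter] at hz
    exact absurd hz.2 (hcon z (mem_bls.1 hz.1))
  have hBz : br P (idB M B) * z = z := by
    calc br P (idB M B) * z = br P (idB M B) * (idH M (nz P) c * z) := by rw [hwz]
      _ = _ := by rw [← mul_assoc, hBw, hwz]
  have hof : Of 2 ⊤ (idB M B) (P, z) := ⟨hPp, le_top, le_top, hz, hBz⟩
  have hmax := mp_of_dg hof ((isDefectGroup_iff_DG hM hB).1 hPD)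
  have hzN : Sup (nz P) z := hz.sup.mono hCN
  have hz' : IsBl (cz (P.subgroupOf (nz P))) (rsK (nz P) z) := by
    rw [cz_subgroupOf hPN]; exact hz.rsK hCN
  have hPp' : IsPGroup 2 (P.subgroupOf (nz P)) := CfsgH5.IsDefectGroup.isPGroup hcD
  have hof' : Of 2 ⊤ (idB M c) (P.subgroupOf (nz P), rsK (nz P) z) := by
    refine ⟨hPp', le_top, le_top, hz', ?_⟩
    show br (P.subgroupOf (nz P)) (idB M c) * rsK (nz P) z = rsK (nz P) z
    rw [← rsK_idH (M := M) c, ← rsK_br hPN, hbw, ← rsK_mul hw.sup hzN, hwz]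
  have hmax' := mp_of_dg hof' ((isDefectGroup_iff_DG hM hc.1).1 hcD)
  have hV' : IsKleinFour (P.subgroupOf (nz P)) := by
    have e := Subgroup.subgroupOfEquivOfLe hPN
    exact ⟨by rw [Nat.card_congr e.toEquiv]; exact hV.card_four, by rw [Monoid.exponent_eq_of_mulEquiv e]; exact hV.exponent_two⟩
  have hst : st (P.subgroupOf (nz P), rsK (nz P) z) = (st (P, z)).subgroupOf (nz P) := by
    ext x
    rw [Subgroup.mem_subgroupOf, mem_st, mem_st]
    have h1 : x ∈ nz (P.subgroupOf (nz P)) := by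
      rw [Subgroup.mem_normalizer_iff]
      intro h
      rw [Subgroup.mem_subgroupOf, Subgroup.mem_subgroupOf]
      exact Subgroup.mem_normalizer_iff.1 x.2 (h : G)
    have h2 : ca x (rsK (nz P) z) = rsK (nz P) z ↔ ca (x : G) z = z := by
      constructor
      · intro h
        have h3 := congrArg (embK (nz P)) h
        rwa [embK_ca, embK_rsK hzN] at h3
      · intro h
        apply embK_inj (M := M)
        rw [embK_ca, embK_rsK hzN, h]
    constructor
    · rintro ⟨-, h⟩; exact ⟨x.2, h2.1 h⟩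
    · rintro ⟨-, h⟩; exact ⟨h1, h2.2 h⟩
  have he : (cz P).relIndex (st (P, z)) = (cz (P.subgroupOf (nz P))).relIndex (st (P.subgroupOf (nz P), rsK (nz P) z)) := by
    rw [hst, cz_subgroupOf hPN, Subgroup.relIndex_subgroupOf (st_le_nz (P, z))]
  exact perfect4 hM hB hmax hV hc.1 hmax' hV' he

end Corr

end CfsgKf
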