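import Cfsg.Agent.H4.Do8
import Cfsg.Agent.H4.Cov5

set_option autoImplicit false
set_option linter.all false

/-! # Normal subgroups of `p`-power index and abelian defect groups -/

open Cfsg MonoidAlgebra
open CfsgH4 hiding centralChar sum_conj regInner_symm ev_ca
open CfsgH5 CfsgSub CfsgAb CfsgDo ComplexConjugate

namespace CfsgKn

section Lin

theorem irr_comm_one {A : Type*} [Group A] [Fintype A] (hc : ∀ a b : A, a * b = b * a) (β : IrrCharacter A) :
    charDegree (β : A → ℂ) = 1 := by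
  classical
  have h1 : Fintype.card (IrrCharacter A) = Fintype.card A := by
    rw [← Nat.card_eq_fintype_card, ← Nat.card_eq_fintype_card, card_irr]
    refine Nat.card_congr (Equiv.symm (Equiv.ofBijective (fun a : A => ConjClasses.mk a) ⟨?_, ?_⟩))
    · intro a b h
      have h2 : IsConj a b := ConjClasses.mk_eq_mk_iff_isConj.1 h
      obtain ⟨c, hc'⟩ := isConj_iff.1 h2
      rw [← hc', hc c a, mul_inv_cancel_right]
    · intro c
      obtain ⟨a, rfl⟩ := ConjClasses.mk_surjective c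
      exact ⟨a, rfl⟩
  have h2 := CfsgH5.sum_deg_sq (G := A)
  by_contra hne
  have h3 : 1 < charDegree (β : A → ℂ) := lt_of_le_of_ne (IsIrr.one_eq β.2).2 (Ne.symm hne)
  have h4 : ∑ χ : IrrCharacter A, 1 < ∑ χ : IrrCharacter A, charDegree (χ : A → ℂ) ^ 2 := by
    apply Finset.sum_lt_sum
    · intro χ _
      exact Nat.one_le_pow _ _ (IsIrr.one_eq χ.2).2
    · exact ⟨β, Finset.mem_univ _, Nat.one_lt_pow two_ne_zero h3⟩
  rw [h2, Finset.sum_const, Finset.card_univ, h1, smul_eq_mul, mul_one, Nat.card_eq_fintype_card] at h4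
  exact lt_irrefl _ h4

variable {G : Type*} [Group G] [Fintype G]

theorem exists_lin (N : Subgroup G) [hN : N.Normal] [Fintype N] (hab : ∀ a b : G ⧸ N, a * b = b * a) {χ : IrrCharacter G}
    (hne : classInner (fun n : N => (χ : G → ℂ) n) (fun n : N => (χ : G → ℂ) n) ≠ 1) :
    ∃ f : G →* ℂˣ, (∀ n ∈ N, f n = 1) ∧ f ≠ 1 ∧ ∀ g, (f g : ℂ) * (χ : G → ℂ) g = (χ : G → ℂ) g := by
  classical
  haveI := Fintype.ofFinite (G ⧸ N)
  have hcG : (Nat.card G : ℂ) ≠ 0 := by exact_mod_cast Nat.card_pos.ne'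
  have hcN : (Nat.card N : ℂ) ≠ 0 := by exact_mod_cast Nat.card_pos.ne'
  have hcA : (Nat.card G : ℂ) = (Nat.card (G ⧸ N) : ℂ) * (Nat.card N : ℂ) := by
    exact_mod_cast Subgroup.card_eq_card_quotient_mul_card_subgroup N
  have hlin : ∀ β : IrrCharacter (G ⧸ N), ∃ f : G →* ℂˣ, (∀ n ∈ N, f n = 1) ∧ ∀ g : G, (β : G ⧸ N → ℂ) (g : G ⧸ N) = (f g : ℂ) := by
    intro β
    obtain ⟨f, hf⟩ := IsCharacter.linear_of_one (IsIrr.isCharacter β.2)
      (by rw [(IsIrr.one_eq β.2).1, irr_comm_one hab β, Nat.cast_one])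
    refine ⟨f.comp (QuotientGroup.mk' N), fun n hn => ?_, fun g => ?_⟩
    · rw [MonoidHom.comp_apply, QuotientGroup.mk'_apply, (QuotientGroup.eq_one_iff n).2 hn, map_one]
    · rw [hf]; rfl
  choose f hf1 hf2 using hlin
  -- the sum
  have hsum : ∑ β : IrrCharacter (G ⧸ N), classInner (fun g => (f β g : ℂ) * (χ : G → ℂ) g) (χ : G → ℂ) =
      classInner (fun n : N => (χ : G → ℂ) n) (fun n : N => (χ : G → ℂ) n) := by
    have h1 : ∀ g : G, ∑ β : IrrCharacter (G ⧸ N), (f β g : ℂ) = if g ∈ N then (Nat.card (G ⧸ N) : ℂ) else 0 := by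
      intro g
      have h2 := sum_one_mul (G := G ⧸ N) (g : G ⧸ N)
      have h3 : ∀ β : IrrCharacter (G ⧸ N), (β : G ⧸ N → ℂ) 1 * (β : G ⧸ N → ℂ) (g : G ⧸ N) = (f β g : ℂ) := by
        intro β
        rw [(IsIrr.one_eq β.2).1, irr_comm_one hab β, Nat.cast_one, one_mul, hf2]
      rw [← Finset.sum_congr rfl fun β _ => h3 β, h2]
      by_cases hg : g ∈ N
      · rw [if_pos ((QuotientGroup.eq_one_iff g).2 hg), if_pos hg]
      · rw [if_neg (fun h => hg ((QuotientGroup.eq_one_iff g).1 h)), if_neg hg]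
    simp only [classInner_def]
    rw [← Finset.mul_sum, Finset.sum_comm]
    have h4 : ∀ g : G, ∑ β : IrrCharacter (G ⧸ N), ((f β g : ℂ) * (χ : G → ℂ) g) * conj ((χ : G → ℂ) g) =
        if g ∈ N then (Nat.card (G ⧸ N) : ℂ) * ((χ : G → ℂ) g * conj ((χ : G → ℂ) g)) else 0 := by
      intro g
      have h5 : ∀ β : IrrCharacter (G ⧸ N), ((f β g : ℂ) * (χ : G → ℂ) g) * conj ((χ : G → ℂ) g) =
          (f β g : ℂ) * ((χ : G → ℂ) g * conj ((χ : G → ℂ) g)) := fun β => by ring
      rw [Finset.sum_congr rfl fun β _ => h5 β, ← Finset.sum_mul, h1]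
      split_ifs
      · rfl
      · rw [zero_mul]
    rw [Finset.sum_congr rfl fun g _ => h4 g, sum_of_support (H := N) _ (fun x hx => if_neg hx)]
    have h6 : ∀ n : N, (if (n : G) ∈ N then (Nat.card (G ⧸ N) : ℂ) * ((χ : G → ℂ) n * conj ((χ : G → ℂ) n)) else 0) =
        (Nat.card (G ⧸ N) : ℂ) * ((χ : G → ℂ) n * conj ((χ : G → ℂ) n)) := fun n => if_pos n.2
    rw [Finset.sum_congr rfl fun n _ => h6 n, ← Finset.mul_sum, ← mul_assoc]
    congr 1
    have hcA' : (Nat.card (G ⧸ N) : ℂ) ≠ 0 := by exact_mod_cast Nat.card_pos.ne'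
    rw [hcA]
    field_simp
  have hex : ∃ β : IrrCharacter (G ⧸ N), (f β ≠ 1) ∧ classInner (fun g => (f β g : ℂ) * (χ : G → ℂ) g) (χ : G → ℂ) ≠ 0 := by
    by_contra hcon
    push Not at hcon
    apply hne
    rw [← hsum]
    set one : IrrCharacter (G ⧸ N) := irrOne (G ⧸ N) with hone
    rw [Finset.sum_eq_single one]
    · have h1 : (fun g => (f one g : ℂ) * (χ : G → ℂ) g) = (χ : G → ℂ) := by
        funext g
        rw [← hf2 one g]
        show (1 : ℂ) * _ = _
        rw [one_mul]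
      rw [h1, classInner_irr_self χ.2]
    · intro β _ hβ
      apply hcon
      intro h
      apply hβ
      apply Subtype.ext
      funext x
      obtain ⟨g, rfl⟩ := QuotientGroup.mk_surjective x
      rw [hf2 β g, h]
      show ((1 : ℂˣ) : ℂ) = 1
      exact Units.val_one
    · intro h; exact absurd (Finset.mem_univ _) h
  obtain ⟨β, hβ1, hβ2⟩ := hex
  refine ⟨f β, hf1 β, hβ1, fun g => ?_⟩
  have h1 := linear_mul_irr (f β) χ.2
  by_contra hcon
  apply hβ2
  exact classInner_irr_ne h1 χ.2 (fun h => hcon (congrFun h g))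

end Lin

section Res

variable {G : Type*} [Group G] [Fintype G] {M : Ideal AlgInt} {p : ℕ} [hp : Fact p.Prime]

theorem Xf_eq' {C : Subgroup G} [Fintype C] (u : C) (c : Set (IrrCharacter C)) {χ : G → ℂ} (hχ : IsClassFunction G χ) (x : C) :
    Xf u c χ x = ∑ k : C, blockCoeff c k * χ ((k : G) * (u * x)) := by
  rw [Xf_eq_blockPart, blockPart_eq c (isClassFunction_res hχ C)]
  rfl

theorem reg_mem {N : Subgroup G} [hN : N.Normal] (hidx : ∃ k : ℕ, N.index = p ^ k) {g : G} (hg : ¬ p ∣ orderOf g) : g ∈ N := by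
  obtain ⟨k, hk⟩ := hidx
  rw [← QuotientGroup.eq_one_iff]
  have h1 : orderOf (g : G ⧸ N) ∣ p ^ k := by
    rw [← hk]; exact orderOf_dvd_natCard _
  obtain ⟨j, -, hj⟩ := (Nat.dvd_prime_pow hp.out).1 h1
  have h2 : orderOf (g : G ⧸ N) ∣ orderOf g := orderOf_map_dvd (QuotientGroup.mk' N) g
  have h3 : j = 0 := by
    by_contra h0
    apply hg
    rw [hj] at h2
    exact (dvd_pow_self p h0).trans h2
  rw [h3, pow_zero, orderOf_eq_one_iff] at hj
  exact hj

theorem res_irr (hM : IsPModular p M) {N : Subgroup G} [hN : N.Normal] [Fintype N] (hidx : ∃ k : ℕ, N.index = p ^ k)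
    {B : Set (IrrCharacter G)} (hB : IsPBlock M B) {P : Subgroup G} (hP : IsDefectGroup p M B P) (hab : P ≤ cz P)
    (hNP : N ⊔ P = ⊤) {χ : IrrCharacter G} (hχ : χ ∈ B) : IsIrrCharacter N (fun n : N => (χ : G → ℂ) n) := by
  classical
  haveI := IsPModular.isPrime hM
  by_contra hirr
  have hne : classInner (fun n : N => (χ : G → ℂ) n) (fun n : N => (χ : G → ℂ) n) ≠ 1 := fun h =>
    hirr (isIrr_of_norm_one (isCharacter_restrict N (IsIrr.isCharacter χ.2)) h)
  -- the quotient is commutative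
  have hgen : ∀ g : G, ∃ n ∈ N, ∃ x ∈ P, g = n * x := by
    intro g
    have h1 : g ∈ N ⊔ P := by rw [hNP]; trivial
    obtain ⟨n, hn, x, hx, h⟩ := Subgroup.mem_sup_of_normal_left.1 h1
    exact ⟨n, hn, x, hx, h.symm⟩
  have hcomm : ∀ a b : G ⧸ N, a * b = b * a := by
    intro a b
    obtain ⟨g, rfl⟩ := QuotientGroup.mk_surjective a
    obtain ⟨h, rfl⟩ := QuotientGroup.mk_surjective b
    obtain ⟨n, hn, x, hx, rfl⟩ := hgen g
    obtain ⟨m, hm, y, hy, rfl⟩ := hgen h
    have e1 : ((n * x : G) : G ⧸ N) = (x : G ⧸ N) := by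
      rw [QuotientGroup.mk_mul, (QuotientGroup.eq_one_iff n).2 hn, one_mul]
    have e2 : ((m * y : G) : G ⧸ N) = (y : G ⧸ N) := by
      rw [QuotientGroup.mk_mul, (QuotientGroup.eq_one_iff m).2 hm, one_mul]
    show ((n * x : G) : G ⧸ N) * ((m * y : G) : G ⧸ N) = ((m * y : G) : G ⧸ N) * ((n * x : G) : G ⧸ N)
    rw [e1, e2, ← QuotientGroup.mk_mul, ← QuotientGroup.mk_mul]
    congr 1
    exact (Subgroup.mem_centralizer_iff.1 (hab hx) y hy).symm
  obtain ⟨f, hfN, hf1, hfχ⟩ := exists_lin N hcomm hne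
  obtain ⟨u, hu, hfu⟩ : ∃ u ∈ P, f u ≠ 1 := by
    by_contra hcon
    push Not at hcon
    apply hf1
    ext g
    obtain ⟨n, hn, x, hx, rfl⟩ := hgen g
    rw [map_mul, hfN n hn, hcon x hx]; simp
  have hvan : ∀ g, f g ≠ 1 → (χ : G → ℂ) g = 0 := by
    intro g hg
    have h1 := hfχ g
    have h2 : ((f g : ℂ) - 1) * (χ : G → ℂ) g = 0 := by linear_combination h1
    rcases mul_eq_zero.1 h2 with h3 | h3
    · exfalso
      apply hg
      apply Units.ext
      rw [Units.val_one]; linear_combination h3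
    · exact h3
  obtain ⟨χ₀, hχ₀, h00⟩ := exists_height_zero p (B := B) (IsPBlock.nonempty hB)
  obtain ⟨e, hmax, -⟩ := exists_pair hM hB hP hχ₀ h00
  have hPp : IsPGroup p P := hmax.1.1
  have hup : ∃ k, orderOf u = p ^ k := by
    obtain ⟨k, hk⟩ := IsPGroup.iff_orderOf.1 hPp ⟨u, hu⟩
    exact ⟨k, by rw [← hk, Subgroup.orderOf_mk]⟩
  have hBt := isBl_top hB
  have hQ : Subgroup.zpowers u ≤ P := by rw [Subgroup.zpowers_le]; exact hu
  have hle := bq_le (a := (P, e)) hM hPp hmax.1.2.2.2.1 hQ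
  have hbl : IsBl (cz (Subgroup.zpowers u)) (bq p (P, e) (Subgroup.zpowers u)) := hle.isBl hmax.1.2.2.2.1
  obtain ⟨c, hc, hid⟩ := exists_block_of_isBl hbl
  have hof : Of p ⊤ (idB M B) (Subgroup.zpowers u, bq p (P, e) (Subgroup.zpowers u)) :=
    (LE.of_iff hM hBt hle le_top le_top).2 hmax.1
  rw [hid] at hof
  have hind := (of_iff_ind hM hup hc hB).1 hof
  haveI := Fintype.ofFinite (cz (Subgroup.zpowers u))
  have hdd := (loc_defect hM hB hmax hab hQ hc hid.symm).2
  have hx := mz_not_mem hM hind hχ₀ h00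
  have hne0 := ctr_ne_zero (u := uc u) hM (uc_center u) hc (aF_ne_zero (u := uc u) hM (uc_center u) hup hind hdd hx hχ)
  apply hne0
  rw [ctr]
  have h1 : ∑ y : cz (Subgroup.zpowers u), (if p ∣ orderOf y then 0 else Xf (uc u) c (χ : G → ℂ) y * conj (Xf (uc u) c (χ : G → ℂ) y)) = 0 := by
    apply Finset.sum_eq_zero
    intro y _
    split_ifs with hy
    · rfl
    · have h2 : Xf (uc u) c (χ : G → ℂ) y = 0 := by
        rw [Xf_eq' (uc u) c (IsIrr.isClassFunction χ.2)]
        apply Finset.sum_eq_zero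
        intro k _
        by_cases hk : p ∣ orderOf k
        · rw [blockCoeff_singular hM (inS_eSet hc) hk, zero_mul]
        · have h3 : f ((k : G) * ((uc u : cz (Subgroup.zpowers u)) * y)) ≠ 1 := by
            have e1 : f (k : G) = 1 := hfN _ (reg_mem hidx (by rw [Subgroup.orderOf_coe]; exact hk))
            have e2 : f (y : G) = 1 := hfN _ (reg_mem hidx (by rw [Subgroup.orderOf_coe]; exact hy))
            rw [map_mul, map_mul, e1, e2, one_mul, mul_one]
            exact hfu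
          rw [hvan _ h3, mul_zero]
      rw [h2, zero_mul]
  rw [h1, mul_zero]

end Res

end CfsgKn
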