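import Cfsg.Agent.H4.Kn1

set_option autoImplicit false
set_option linter.all false

/-! # Stable blocks of normal subgroups of `p`-power index and abelian defect groups -/

open Cfsg MonoidAlgebra
open CfsgH4 hiding centralChar sum_conj regInner_symm ev_ca
open CfsgH5 CfsgSub CfsgAb CfsgDo ComplexConjugate

namespace CfsgKn

section Res

variable {G : Type*} [Group G] [Fintype G] {M : Ideal AlgInt} {p : ℕ} [hp : Fact p.Prime]

theorem stable_abelian (hM : IsPModular p M) {N : Subgroup G} [hN : N.Normal] [Fintype N] (hidx : ∃ k : ℕ, N.index = p ^ k)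
    {b : Set (IrrCharacter N)} (hb : IsPBlock M b) (hst : ∀ g : G, StabilizesBlock N b g)
    {B : Set (IrrCharacter G)} (hB : IsPBlock M B)
    (hcov : ∃ χ ∈ B, ∃ θ ∈ b, classInner (fun n : N => (χ : G → ℂ) n) (θ : N → ℂ) ≠ 0)
    {P : Subgroup G} (hP : IsDefectGroup p M B P) (hab : ∀ x ∈ P, ∀ y ∈ P, x * y = y * x) :
    N ⊔ P = ⊤ ∧ IsDefectGroup p M b ((P ⊓ N).subgroupOf N) ∧
    (∀ χ ∈ B, ∃ θ ∈ b, ∀ n : N, (χ : G → ℂ) n = (θ : N → ℂ) n) ∧
    (∀ θ ∈ b, Nat.card {χ : IrrCharacter G // χ ∈ B ∧ ∀ n : N, (χ : G → ℂ) n = (θ : N → ℂ) n} = N.index) ∧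
    Nat.card B = N.index * Nat.card b ∧ blockRank p B = blockRank p b := by
  classical
  haveI := IsPModular.isPrime hM
  have hfx := (stab_top_iff hb).1 hst
  have hcN := isBl_idH (M := M) hb
  have hcG := IsBl.of_pIndex hM hidx hcN hfx
  have hid : idB M B = idH M N b := IsBl.eq_of_mul (isBl_top hB) hcG ((cover_iff hB hb).1 hcov)
  have hP' := (isDefectGroup_iff_DG hM hB).1 hP
  rw [hid] at hP'
  have hNP := pIndex_sup hM hidx hcN hcG hP'
  have hcz : P ≤ cz P := fun x hx => Subgroup.mem_centralizer_iff.2 fun y hy => hab y hy x hx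
  have hdg : IsDefectGroup p M b ((P ⊓ N).subgroupOf N) :=
    (isDefectGroup_iff_DG' hM hb inf_le_right).2 (knorr_stable_block hM hcN hcG hP')
  have hres : ∀ χ ∈ B, ∃ θ ∈ b, ∀ n : N, (χ : G → ℂ) n = (θ : N → ℂ) n := by
    intro χ hχ
    have hirr := res_irr hM hidx hB hP hcz hNP hχ
    set θ : IrrCharacter N := ⟨fun n : N => (χ : G → ℂ) n, hirr⟩ with hθ
    have hb' := isPBlock_blockOf (M := M) θ
    have h1 : idB M B * idH M N (blockOf M (θ : N → ℂ)) ≠ 0 :=
      (cover_iff hB hb').1 ⟨χ, hχ, θ, mem_blockOf_self θ, by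
        have : classInner (fun n : N => (χ : G → ℂ) n) (θ : N → ℂ) = 1 := classInner_irr_self θ.2
        rw [this]; exact one_ne_zero⟩
    rw [hid] at h1
    have h2 := idH_injective hb hb' (IsBl.eq_of_mul hcN (isBl_idH hb') h1)
    refine ⟨θ, ?_, fun n => rfl⟩
    rw [h2]; exact mem_blockOf_self θ
  obtain ⟨χ₀, hχ₀, θ₀, hθ₀, hinn₀⟩ := hcov
  have hover : ∀ θ ∈ b, ∀ χ : IrrCharacter G, classInner (fun n : N => (χ : G → ℂ) n) (θ : N → ℂ) ≠ 0 → χ ∈ B := by
    intro θ hθ χ h
    exact (IsPBlock.mem_iff hB hχ₀).2 (sameBlock_of_over hM hidx hinn₀ h ((IsPBlock.mem_iff hb hθ₀).1 hθ))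
  have hfib : ∀ θ ∈ b, Nat.card {χ : IrrCharacter G // χ ∈ B ∧ ∀ n : N, (χ : G → ℂ) n = (θ : N → ℂ) n} = N.index := by
    intro θ hθ
    have hcl := indFun_isClassFunction N (θ : N → ℂ)
    have h1 : indFun N (θ : N → ℂ) 1 = (N.index : ℂ) * (θ : N → ℂ) 1 := indFun_one N _
    rw [classFun_expand_apply hcl 1] at h1
    have h2 : ∀ χ : IrrCharacter G, classInner (indFun N (θ : N → ℂ)) (χ : G → ℂ) * (χ : G → ℂ) 1 =
        if (χ ∈ B ∧ ∀ n : N, (χ : G → ℂ) n = (θ : N → ℂ) n) then (θ : N → ℂ) 1 else 0 := by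
      intro χ
      rw [frobenius N _ (IsIrr.isClassFunction χ.2)]
      by_cases hχ : χ ∈ B ∧ ∀ n : N, (χ : G → ℂ) n = (θ : N → ℂ) n
      · rw [if_pos hχ]
        have h3 : (fun n : N => (χ : G → ℂ) n) = (θ : N → ℂ) := funext hχ.2
        rw [h3, classInner_irr_self θ.2, one_mul]
        exact hχ.2 1
      · rw [if_neg hχ]
        have h3 : classInner (θ : N → ℂ) (fun n : N => (χ : G → ℂ) n) = 0 := by
          by_contra hne
          have hne' : classInner (fun n : N => (χ : G → ℂ) n) (θ : N → ℂ) ≠ 0 := by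
            intro h
            apply hne
            rw [← classInner_conj_symm, h, map_zero]
          have hχB := hover θ hθ χ hne'
          obtain ⟨θ', hθ', hn⟩ := hres χ hχB
          have h4 : (fun n : N => (χ : G → ℂ) n) = (θ' : N → ℂ) := funext hn
          rw [h4] at hne'
          by_cases h5 : (θ' : N → ℂ) = (θ : N → ℂ)
          · apply hχ
            exact ⟨hχB, fun n => by rw [hn n, h5]⟩
          · exact hne' (classInner_irr_ne θ'.2 θ.2 h5)
        rw [h3, zero_mul]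
    rw [Finset.sum_congr rfl fun χ _ => h2 χ, ← Finset.sum_filter, Finset.sum_const, nsmul_eq_mul] at h1
    have h3 : (θ : N → ℂ) 1 ≠ 0 := by
      rw [(IsIrr.one_eq θ.2).1]
      exact_mod_cast (lt_of_lt_of_le Nat.zero_lt_one (IsIrr.one_eq θ.2).2).ne'
    have h4 := mul_right_cancel₀ h3 h1
    have h5 : Nat.card {χ : IrrCharacter G // χ ∈ B ∧ ∀ n : N, (χ : G → ℂ) n = (θ : N → ℂ) n} =
        (Finset.univ.filter fun χ : IrrCharacter G => χ ∈ B ∧ ∀ n : N, (χ : G → ℂ) n = (θ : N → ℂ) n).card := by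
      rw [Nat.card_eq_fintype_card, Fintype.card_subtype]
    rw [h5]
    exact_mod_cast h4
  choose r hrb hr using hres
  refine ⟨hNP, hdg, fun χ hχ => ⟨r χ hχ, hrb χ hχ, hr χ hχ⟩, hfib, ?_, ?_⟩
  · let R : B → b := fun χ => ⟨r χ.1 χ.2, hrb χ.1 χ.2⟩
    have h1 : Nat.card B = ∑ θ : b, Nat.card {χ : B // R χ = θ} := by
      rw [← Nat.card_congr (Equiv.sigmaFiberEquiv R), Nat.card_sigma]
    have h2 : ∀ θ : b, Nat.card {χ : B // R χ = θ} = N.index := by
      intro θ
      rw [← hfib θ.1 θ.2]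
      refine Nat.card_congr
        { toFun := fun χ => ⟨χ.1.1, χ.1.2, fun n => by
            have := χ.2
            rw [hr χ.1.1 χ.1.2 n]
            exact congrFun (congrArg (fun θ : b => ((θ : IrrCharacter N) : N → ℂ)) this) n⟩
          invFun := fun χ => ⟨⟨χ.1, χ.2.1⟩, by
            apply Subtype.ext
            apply Subtype.ext
            funext n
            exact (hr χ.1 χ.2.1 n).symm.trans (χ.2.2 n)⟩
          left_inv := fun χ => rfl
          right_inv := fun χ => rfl }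
    rw [h1, Finset.sum_congr rfl fun θ _ => h2 θ, Finset.sum_const, smul_eq_mul, Finset.card_univ,
      Nat.card_eq_fintype_card, mul_comm]
  · let E : (N → ℂ) →ₗ[ℂ] (G → ℂ) :=
      { toFun := fun f => extendByZero N f
        map_add' := fun f g => extendByZero_add N f g
        map_smul' := fun c f => extendByZero_smul N c f }
    have hE : Function.Injective E := by
      intro f g h
      funext n
      have := congrFun h (n : G)
      have e1 : E f (n : G) = f n := extendByZero_coe N f n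
      have e2 : E g (n : G) = g n := extendByZero_coe N g n
      rw [e1, e2] at this
      exact this
    have hEr : ∀ (χ : IrrCharacter G) (θ : IrrCharacter N), (∀ n : N, (χ : G → ℂ) n = (θ : N → ℂ) n) →
        E (pRegularPart p (θ : N → ℂ)) = pRegularPart p (χ : G → ℂ) := by
      intro χ θ h
      funext g
      show extendByZero N (pRegularPart p (θ : N → ℂ)) g = _
      by_cases hg : p ∣ orderOf g
      · rw [pRegularPart_sing hg]
        by_cases hn : g ∈ N
        · rw [extendByZero_of_mem N _ hn, pRegularPart_sing (by rw [Subgroup.orderOf_mk]; exact hg)]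
        · rw [extendByZero_of_not_mem N _ hn]
      · have hn : g ∈ N := reg_mem hidx hg
        rw [pRegularPart_reg hg, extendByZero_of_mem N _ hn, pRegularPart_reg (by rw [Subgroup.orderOf_mk]; exact hg)]
        exact (h ⟨g, hn⟩).symm
    have himg : (fun χ : IrrCharacter G => pRegularPart p (χ : G → ℂ)) '' B =
        E '' ((fun θ : IrrCharacter N => pRegularPart p (θ : N → ℂ)) '' b) := by
      ext f
      constructor
      · rintro ⟨χ, hχ, rfl⟩
        exact ⟨_, ⟨r χ hχ, hrb χ hχ, rfl⟩, hEr χ (r χ hχ) (hr χ hχ)⟩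
      · rintro ⟨_, ⟨θ, hθ, rfl⟩, rfl⟩
        have h1 : 0 < Nat.card {χ : IrrCharacter G // χ ∈ B ∧ ∀ n : N, (χ : G → ℂ) n = (θ : N → ℂ) n} := by
          rw [hfib θ hθ]; exact Nat.pos_of_ne_zero Subgroup.index_ne_zero_of_finite
        obtain ⟨⟨χ, hχ, hn⟩⟩ := (Nat.card_pos_iff.1 h1).1
        exact ⟨χ, hχ, (hEr χ θ hn).symm⟩
    unfold blockRank
    rw [himg, ← Submodule.map_span]
    exact (LinearEquiv.finrank_eq (Submodule.equivMapOfInjective E hE _)).symm

end Res

end CfsgKn
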