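import Cfsg.Agent.H4.Pet2
import Cfsg.Agent.H4.Coh2
import Cfsg.Agent.H4.FrobGrp
import Cfsg.Agent.H4.Gallagher
import Cfsg.Agent.H4.Perms

/-!
# Characters not containing a normal subgroup in the kernel; TI subgroups
-/

set_option autoImplicit false
open Cfsg ComplexConjugate

namespace CfsgH4

section SK

variable {N : Type*} [Group N] [Fintype N]

/-- irreducible characters not containing `K` in the kernel are induced -/
theorem sk_induced (K : Subgroup N) [K.Normal] [Fintype K]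
    (hC : ∀ n ∈ K, n ≠ 1 → Subgroup.centralizer ({n} : Set N) ≤ K) {χ : N → ℂ}
    (hχ : IsIrrCharacter N χ) (hker : ∃ n ∈ K, χ n ≠ χ 1) :
    ∃ θ : K → ℂ, IsIrrCharacter K θ ∧ θ ≠ (fun _ => 1) ∧ χ = indFun K θ := by
  have hχc := IsIrr.isCharacter hχ
  obtain ⟨n, hn, hne⟩ := hker
  obtain ⟨θ, hθ, hθn, hθ1⟩ : ∃ θ : K → ℂ, IsIrrCharacter K θ ∧
      classInner (fun m : K => χ m) θ ≠ 0 ∧ θ ⟨n, hn⟩ ≠ θ 1 := by
    by_contra hcon
    push Not at hcon
    apply hne
    have := ker_of_forall (isCharacter_restrict K hχc) (g := (⟨n, hn⟩ : K)) (fun ψ hψ h => hcon ψ hψ h)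
    exact this
  have hθne : θ ≠ fun _ => 1 := by
    rintro rfl
    exact hθ1 rfl
  have hT := inertia_of_cent K hC hθ hθne
  have hirr := indFun_irr_of_inertia K hθ hT
  refine ⟨θ, hθ, hθne, ?_⟩
  by_contra hne2
  have h3 := classInner_irr_ne hirr hχ (fun h => hne2 h.symm)
  rw [frobenius K _ (IsIrr.isClassFunction hχ)] at h3
  exact hθn (inner_symm_zero h3)

theorem sk_zero (K : Subgroup N) [K.Normal]
    (hC : ∀ n ∈ K, n ≠ 1 → Subgroup.centralizer ({n} : Set N) ≤ K) {χ : N → ℂ}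
    (hχ : IsIrrCharacter N χ) (hker : ∃ n ∈ K, χ n ≠ χ 1) {x : N} (hx : x ∉ K) : χ x = 0 := by
  haveI : Fintype K := Fintype.ofFinite _
  obtain ⟨θ, -, -, rfl⟩ := sk_induced K hC hχ hker
  exact indFun_normal_not_mem K θ hx

/-- nonprincipal characters of `K` induce characters in the set -/
theorem ind_mem_sk (K : Subgroup N) [K.Normal] [Fintype K]
    (hC : ∀ n ∈ K, n ≠ 1 → Subgroup.centralizer ({n} : Set N) ≤ K) {θ : K → ℂ}
    (hθ : IsIrrCharacter K θ) (h1 : θ ≠ fun _ => 1) :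
    IsIrrCharacter N (indFun K θ) ∧ ∃ n ∈ K, indFun K θ n ≠ indFun K θ 1 := by
  have hirr := indFun_irr_of_inertia K hθ (inertia_of_cent K hC hθ h1)
  refine ⟨hirr, ?_⟩
  by_contra hcon
  push Not at hcon
  -- then the restriction is a multiple of the principal character
  have h2 : classInner (indFun K θ) (indFun K θ) = 1 := classInner_irr_self hirr
  rw [frobenius K θ (IsIrr.isClassFunction hirr)] at h2
  have h3 : (fun h : K => indFun K θ h) = indFun K θ 1 • (fun _ : K => (1 : ℂ)) := by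
    ext h
    simp only [Pi.smul_apply, smul_eq_mul, mul_one]
    exact hcon h h.2
  rw [h3, classInner_smul_right, classInner_irr_ne hθ isIrrCharacter_one h1, mul_zero] at h2
  exact zero_ne_one h2

theorem ind_one_inner (K : Subgroup N) [K.Normal] [Fintype K] (χ : IrrCharacter N)
    [Decidable (∀ n ∈ K, (χ : N → ℂ) n = (χ : N → ℂ) 1)] :
    classInner (indFun K (fun _ => (1 : ℂ))) (χ : N → ℂ) =
      if (∀ n ∈ K, (χ : N → ℂ) n = (χ : N → ℂ) 1) then (χ : N → ℂ) 1 else 0 := by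
  rw [frobenius K _ (IsIrr.isClassFunction χ.2), ← classInner_conj_symm]
  by_cases h : ∀ n ∈ K, (χ : N → ℂ) n = (χ : N → ℂ) 1
  · rw [if_pos h]
    have h3 : (fun h : K => (χ : N → ℂ) h) = (χ : N → ℂ) 1 • (fun _ : K => (1 : ℂ)) := by
      ext k
      simp only [Pi.smul_apply, smul_eq_mul, mul_one]
      exact h k k.2
    rw [h3, classInner_smul_left, classInner_irr_self isIrrCharacter_one, mul_one, one_conj]
  · rw [if_neg h]
    rcases inner_one_restrict K χ.2 with h1 | h1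
    · exact absurd h1.1 h
    · rw [h1, map_zero]

open Classical in
theorem ker_sum (K : Subgroup N) [K.Normal] {k : N} (hk : k ∈ K) :
    ∑ χ : IrrCharacter N, (if (∀ n ∈ K, (χ : N → ℂ) n = (χ : N → ℂ) 1) then
      (χ : N → ℂ) 1 * (χ : N → ℂ) 1 else 0) = (K.index : ℂ) := by
  haveI : Fintype K := Fintype.ofFinite _
  have h1 := classFun_expand_apply (indFun_isClassFunction K (fun _ : K => (1 : ℂ))) 1
  rw [indFun_one, mul_one] at h1
  rw [h1]
  refine Finset.sum_congr rfl fun χ _ => ?_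
  rw [ind_one_inner K χ]
  split_ifs
  · rfl
  · rw [zero_mul]

open Classical in
theorem sk_sum (K : Subgroup N) [K.Normal] {k : N} (hk : k ∈ K) (hk1 : k ≠ 1) :
    ∑ χ : IrrCharacter N, (if (∀ n ∈ K, (χ : N → ℂ) n = (χ : N → ℂ) 1) then 0 else
      (χ : N → ℂ) 1 * (χ : N → ℂ) k) = -(K.index : ℂ) := by
  have h1 := sum_one_mul (G := N) k
  rw [if_neg hk1] at h1
  have h2 := ker_sum K hk
  have h3 : ∑ χ : IrrCharacter N, (if (∀ n ∈ K, (χ : N → ℂ) n = (χ : N → ℂ) 1) then 0 else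
      (χ : N → ℂ) 1 * (χ : N → ℂ) k) = ∑ χ : IrrCharacter N, (χ : N → ℂ) 1 * (χ : N → ℂ) k -
      ∑ χ : IrrCharacter N, (if (∀ n ∈ K, (χ : N → ℂ) n = (χ : N → ℂ) 1) then
      (χ : N → ℂ) 1 * (χ : N → ℂ) 1 else 0) := by
    rw [← Finset.sum_sub_distrib]
    refine Finset.sum_congr rfl fun χ _ => ?_
    by_cases h : ∀ n ∈ K, (χ : N → ℂ) n = (χ : N → ℂ) 1
    · rw [if_pos h, if_pos h, h k hk, sub_self]
    · rw [if_neg h, if_neg h, sub_zero]
  rw [h3, h1, h2, zero_sub]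

/-- class functions orthogonal to all degree-zero combinations are constant on `K` minus one -/
theorem sk_const (K : Subgroup N) [K.Normal] {f : N → ℂ} (hf : IsClassFunction N f)
    {η : N → ℂ} (hη : IsIrrCharacter N η)
    (h : ∀ ξ : IrrCharacter N, (¬ ∀ n ∈ K, (ξ : N → ℂ) n = (ξ : N → ℂ) 1) →
      classInner f (ξ : N → ℂ) * η 1 = classInner f η * (ξ : N → ℂ) 1) :
    ∃ r : ℂ, (∀ k ∈ K, k ≠ 1 → f k = r) ∧ ((∀ ξ : IrrCharacter N, ∃ n : ℤ,
      classInner f (ξ : N → ℂ) = n) → ∃ q : ℚ, r = q) := by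
  classical
  obtain ⟨d, hd⟩ := IsCharacter.one_nat (IsIrr.isCharacter hη)
  have hd0 : η 1 ≠ 0 := IsIrr.one_ne_zero hη
  refine ⟨∑ χ : IrrCharacter N, (if (∀ n ∈ K, (χ : N → ℂ) n = (χ : N → ℂ) 1) then
      classInner f (χ : N → ℂ) * (χ : N → ℂ) 1 else 0) - classInner f η / η 1 * K.index, ?_, ?_⟩
  · intro k hk hk1
    rw [classFun_expand_apply hf k]
    have h1 : ∀ χ : IrrCharacter N, classInner f (χ : N → ℂ) * (χ : N → ℂ) k =
        (if (∀ n ∈ K, (χ : N → ℂ) n = (χ : N → ℂ) 1) then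
          classInner f (χ : N → ℂ) * (χ : N → ℂ) 1 else 0) +
        classInner f η / η 1 * (if (∀ n ∈ K, (χ : N → ℂ) n = (χ : N → ℂ) 1) then 0 else
          (χ : N → ℂ) 1 * (χ : N → ℂ) k) := by
      intro χ
      by_cases h2 : ∀ n ∈ K, (χ : N → ℂ) n = (χ : N → ℂ) 1
      · rw [if_pos h2, if_pos h2, h2 k hk, mul_zero, add_zero]
      · rw [if_neg h2, if_neg h2, zero_add]
        have h3 := h χ h2
        have h4 : classInner f (χ : N → ℂ) = classInner f η / η 1 * (χ : N → ℂ) 1 := by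
          field_simp
          linear_combination h3
        rw [h4]; ring
    rw [Finset.sum_congr rfl (fun χ _ => h1 χ), Finset.sum_add_distrib, ← Finset.mul_sum,
      sk_sum K hk hk1]
    ring
  · intro hint
    choose n hn using hint
    have hdχ : ∀ χ : IrrCharacter N, ∃ m : ℕ, (χ : N → ℂ) 1 = m := fun χ =>
      IsCharacter.one_nat (IsIrr.isCharacter χ.2)
    choose m hm using hdχ
    refine ⟨∑ χ : IrrCharacter N, (if (∀ n ∈ K, (χ : N → ℂ) n = (χ : N → ℂ) 1) then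
      (n χ : ℚ) * (m χ : ℚ) else 0) - (n ⟨η, hη⟩ : ℚ) / (d : ℚ) * K.index, ?_⟩
    push_cast
    rw [show classInner f η = (n ⟨η, hη⟩ : ℂ) from hn ⟨η, hη⟩, hd]
    congr 1
    refine Finset.sum_congr rfl fun χ _ => ?_
    split_ifs
    · rw [hn χ, hm χ]; push_cast; rfl
    · simp

end SK

end CfsgH4
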