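import Cfsg.Agent.H4.Sib1
import Cfsg.Agent.H4.Coh5

/-!
# TI subgroups with a Frobenius normalizer
-/

set_option autoImplicit false
open Cfsg ComplexConjugate

namespace CfsgH4

section TI

variable {G : Type*} [Group G]

/-- the standard TI setting -/
structure TIData (K : Subgroup G) : Prop where
  ti : ∀ g : G, g ∉ Subgroup.normalizer (K : Set G) → ∀ k ∈ K, g * k * g⁻¹ ∈ K → k = 1
  lt : K < Subgroup.normalizer (K : Set G)
  cent : ∀ k ∈ K, k ≠ 1 → Subgroup.centralizer ({k} : Set G) ≤ K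

/-- the subgroup inside its normalizer -/
abbrev KN (K : Subgroup G) : Subgroup (Subgroup.normalizer (K : Set G)) :=
  K.subgroupOf (Subgroup.normalizer (K : Set G))

instance KN_normal (K : Subgroup G) : (KN K).Normal := by
  constructor
  intro n hn g
  rw [Subgroup.mem_subgroupOf] at hn ⊢
  exact (Subgroup.mem_normalizer_iff.1 g.2 (n : G)).1 hn

theorem KN_cent {K : Subgroup G} (h : TIData K) : ∀ n ∈ KN K, n ≠ 1 →
    Subgroup.centralizer ({n} : Set (Subgroup.normalizer (K : Set G))) ≤ KN K := by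
  intro n hn hn1 x hx
  rw [Subgroup.mem_subgroupOf] at hn ⊢
  have h1 : (n : G) ≠ 1 := fun h' => hn1 (Subtype.ext h')
  apply h.cent n hn h1
  rw [Subgroup.mem_centralizer_singleton_iff] at hx ⊢
  exact congrArg Subtype.val hx

variable [Fintype G]

/-- the set of irreducible characters of the normalizer without `K` in the kernel -/
def SKN (K : Subgroup G) : Set (Subgroup.normalizer (K : Set G) → ℂ) :=
  {χ | IsIrrCharacter (Subgroup.normalizer (K : Set G)) χ ∧
    ∃ k : Subgroup.normalizer (K : Set G), (k : G) ∈ K ∧ χ k ≠ χ 1}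

theorem SKN_ker {K : Subgroup G} {χ : Subgroup.normalizer (K : Set G) → ℂ} (h : χ ∈ SKN K) :
    ∃ n ∈ KN K, χ n ≠ χ 1 := by
  obtain ⟨-, k, hk, hk1⟩ := h
  exact ⟨k, Subgroup.mem_subgroupOf.2 hk, hk1⟩

end TI

section TI2

variable {G : Type*} [Group G] [Fintype G] {K : Subgroup G}
  [Fintype (Subgroup.normalizer (K : Set G))]

theorem SKN_zero (h : TIData K) {χ : Subgroup.normalizer (K : Set G) → ℂ} (hχ : χ ∈ SKN K)
    {x : Subgroup.normalizer (K : Set G)} (hx : (x : G) ∉ K) : χ x = 0 :=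
  sk_zero (KN K) (KN_cent h) hχ.1 (SKN_ker hχ) (fun h' => hx (Subgroup.mem_subgroupOf.1 h'))

theorem SKN_span_zero (h : TIData K) {α : Subgroup.normalizer (K : Set G) → ℂ}
    (hα : α ∈ zspan (SKN K)) {x : Subgroup.normalizer (K : Set G)} (hx : (x : G) ∉ K) : α x = 0 := by
  have : ∀ α ∈ Submodule.span ℤ (SKN K), α x = 0 := by
    intro α hα
    induction hα using Submodule.span_induction with
    | mem χ hχ => exact SKN_zero h hχ hx
    | zero => rfl
    | add a b _ _ iha ihb => rw [Pi.add_apply, iha, ihb, add_zero]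
    | smul n a _ iha => rw [zs_apply, iha, mul_zero]
  exact this α hα

theorem span_classFun {N : Type*} [Group N] [Fintype N] {S : Set (N → ℂ)}
    (hS : ∀ χ ∈ S, IsIrrCharacter N χ) {α : N → ℂ} (hα : α ∈ zspan S) :
    IsGeneralizedCharacter N α := by
  have : ∀ α ∈ Submodule.span ℤ S, IsGeneralizedCharacter N α := by
    intro α hα
    induction hα using Submodule.span_induction with
    | mem χ hχ => exact IsCharacter.isGen (IsIrr.isCharacter (hS χ hχ))
    | zero => exact isGen_zero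
    | add a b _ _ iha ihb => exact isGen_add iha ihb
    | smul n a _ iha => exact isGen_zsmul iha n
  exact this α hα

theorem SKN_irr : ∀ χ ∈ SKN K, IsIrrCharacter (Subgroup.normalizer (K : Set G)) χ := fun _ h => h.1

theorem TI_inner (h : TIData K) {α β : Subgroup.normalizer (K : Set G) → ℂ}
    (hα : ∀ x : Subgroup.normalizer (K : Set G), (x : G) ∉ K → α x = 0)
    (hβ : ∀ x : Subgroup.normalizer (K : Set G), (x : G) ∉ K → β x = 0)
    (hβc : IsClassFunction _ β) (hα1 : α 1 = 0) :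
    classInner (indFun (Subgroup.normalizer (K : Set G)) α) (indFun (Subgroup.normalizer (K : Set G)) β)
      = classInner α β :=
  classInner_indFun_TI (K : Set G) _ h.ti α β hβc hα hβ hα1

theorem TI_val (h : TIData K) {α : Subgroup.normalizer (K : Set G) → ℂ}
    (hα : ∀ x : Subgroup.normalizer (K : Set G), (x : G) ∉ K → α x = 0)
    (hαc : IsClassFunction _ α) {k : Subgroup.normalizer (K : Set G)} (hk : (k : G) ∈ K) (hk1 : k ≠ 1) :
    indFun (Subgroup.normalizer (K : Set G)) α k = α k :=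
  indFun_TI (K : Set G) _ h.ti α hαc hα k hk hk1

/-- induction is an isometry on the degree zero part -/
theorem TI_iso (h : TIData K) : IsLinearIsometryOn (zspanOn (SKN K) {1}ᶜ)
    (fun α : Subgroup.normalizer (K : Set G) → ℂ => indFun (Subgroup.normalizer (K : Set G)) α) := by
  refine ⟨fun a _ b _ => indFun_add _ a b, fun a _ n => ?_, fun a ha b hb => ?_, fun a ha => ?_⟩
  · rw [zs_eq, zs_eq]; exact indFun_smul _ _ _
  · rw [mem_zspanOn] at ha hb
    exact TI_inner h (fun x hx => SKN_span_zero h ha.1 hx) (fun x hx => SKN_span_zero h hb.1 hx)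
      (IsGen.isClassFunction (span_classFun SKN_irr hb.1)) ha.2
  · rw [mem_zspanOn] at ha
    exact isGen_indFun _ (span_classFun SKN_irr ha.1)

theorem TI_one : ∀ α ∈ zspanOn (SKN K) {1}ᶜ, indFun (Subgroup.normalizer (K : Set G)) α 1 = 0 := by
  intro α hα
  rw [mem_zspanOn] at hα
  rw [indFun_one, hα.2, mul_zero]

theorem irr_deg' {N : Type*} [Group N] [Fintype N] {χ : N → ℂ} (h : IsIrrCharacter N χ) :
    ∃ d : ℕ, 0 < d ∧ χ 1 = d := by
  obtain ⟨n, hn⟩ := IsCharacter.one_nat (IsIrr.isCharacter h)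
  refine ⟨n, ?_, hn⟩
  rcases Nat.eq_zero_or_pos n with h0 | h0
  · exact absurd (by rw [hn, h0]; simp) (IsIrr.one_ne_zero h)
  · exact h0

theorem deg_comb {N : Type*} [Group N] [Fintype N] {S : Set (N → ℂ)}
    (hS : ∀ χ ∈ S, IsIrrCharacter N χ) {χ ξ : N → ℂ} (hχ : χ ∈ S) (hξ : ξ ∈ S) {a b : ℕ}
    (ha : χ 1 = a) (hb : ξ 1 = b) : (b : ℤ) • χ - (a : ℤ) • ξ ∈ zspanOn S {1}ᶜ := by
  rw [mem_zspanOn]
  refine ⟨zspan_sub (zspan_smul _ (zspan_self hχ)) (zspan_smul _ (zspan_self hξ)), ?_⟩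
  rw [Pi.sub_apply, zs_apply, zs_apply, ha, hb]; push_cast; ring

end TI2

end CfsgH4
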